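import Cfsg.Agent.H873.Tv
import Cfsg.Agent.H919.AschTensor
import Cfsg.Agent.H919.AschWreath
set_option linter.all false

-- part: H873/WrCalc
section
/-!
Calculus for overgroups `M` of a tensor factor: `InM M X` says `1 + X ∈ M`; for an algebra homomorphism
`ρ : M_m(F) → M_κ(F)` we write `rk ρ a α = ρ (a αᵀ)` and `co ρ α b Y` for the coefficient of `Y` at `(α, b)`,
an element of the centraliser of the image of `ρ`.
-/

set_option autoImplicit false
set_option linter.unusedSectionVars false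

namespace Cfsg.Agent.H873.Wr

open Matrix

variable {κ : Type} [Fintype κ] [DecidableEq κ] {F : Type*} [Field F] {m : ℕ}

/-! ### `InM` -/

/-- `1 + X ∈ M`. -/
def InM (M : Subgroup (GL κ F)) (X : Matrix κ κ F) : Prop := ∃ g ∈ M, (g : Matrix κ κ F) = 1 + X

section InM

variable {M : Subgroup (GL κ F)} {X Y : Matrix κ κ F}

theorem InM.conj {g : GL κ F} (hg : g ∈ M) (h : InM M X) :
    InM M ((g : Matrix κ κ F) * X * ((g⁻¹ : GL κ F) : Matrix κ κ F)) := by
  obtain ⟨x, hx, he⟩ := h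
  refine ⟨g * x * g⁻¹, M.mul_mem (M.mul_mem hg hx) (M.inv_mem hg), ?_⟩
  rw [Units.val_mul, Units.val_mul, he, mul_add, mul_one, add_mul, Units.mul_inv]

theorem InM.conj' {g : GL κ F} (hg : g ∈ M) (h : InM M X) :
    InM M (((g⁻¹ : GL κ F) : Matrix κ κ F) * X * (g : Matrix κ κ F)) := by
  have := h.conj (M.inv_mem hg)
  rwa [inv_inv] at this

theorem InM.mul (hX : InM M X) (hY : InM M Y) : InM M (X + Y + X * Y) := by
  obtain ⟨x, hx, he⟩ := hX
  obtain ⟨y, hy, he'⟩ := hY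
  refine ⟨x * y, M.mul_mem hx hy, ?_⟩
  rw [Units.val_mul, he, he']
  noncomm_ring

theorem InM.add (hX : InM M X) (hY : InM M Y) (h : X * Y = 0) : InM M (X + Y) := by
  have := hX.mul hY
  rwa [h, add_zero] at this

theorem inM_zero : InM M 0 := ⟨1, M.one_mem, by simp⟩

theorem InM.neg (hX : InM M X) (h : X * X = 0) : InM M (-X) := by
  obtain ⟨x, hx, he⟩ := hX
  refine ⟨x⁻¹, M.inv_mem hx, ?_⟩
  have h1 : (x : Matrix κ κ F) * (1 + -X) = 1 := by
    rw [he]
    have : (1 + X) * (1 + -X) = 1 - X * X := by noncomm_ring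
    rw [this, h, sub_zero]
  calc ((x⁻¹ : GL κ F) : Matrix κ κ F) = ((x⁻¹ : GL κ F) : Matrix κ κ F) * ((x : Matrix κ κ F) * (1 + -X)) := by
        rw [h1, mul_one]
    _ = 1 + -X := by rw [← mul_assoc, Units.inv_mul, one_mul]

theorem InM.sub (hX : InM M X) (hY : InM M Y) (hYY : Y * Y = 0) (h : X * Y = 0) : InM M (X - Y) := by
  have := hX.add (hY.neg hYY) (by rw [mul_neg, h, neg_zero])
  rwa [← sub_eq_add_neg] at this

/-- Commutator, first form: `X² = 0`, `X Y = 0` give `1 + Y X ∈ M`. -/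
theorem InM.comm_l (hX : InM M X) (hY : InM M Y) (hXX : X * X = 0) (hXY : X * Y = 0) :
    InM M (Y * X) := by
  obtain ⟨g, hg, he⟩ := hY
  have h1 := hX.conj hg
  have h2 : X * ((g⁻¹ : GL κ F) : Matrix κ κ F) = X := by
    have : X * (g : Matrix κ κ F) = X := by rw [he, mul_add, mul_one, hXY, add_zero]
    calc X * ((g⁻¹ : GL κ F) : Matrix κ κ F) = X * (g : Matrix κ κ F) * ((g⁻¹ : GL κ F) : Matrix κ κ F) := by
          rw [this]
      _ = X := by rw [mul_assoc, Units.mul_inv, mul_one]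
  rw [mul_assoc, h2, he, add_mul, one_mul] at h1
  have h3 := h1.sub hX hXX (by rw [add_mul, mul_assoc, hXX, mul_zero, add_zero])
  rwa [add_sub_cancel_left] at h3

/-- Commutator, second form: `X² = 0`, `Y X = 0` give `1 + X Y ∈ M`. -/
theorem InM.comm_r (hX : InM M X) (hY : InM M Y) (hXX : X * X = 0) (hYX : Y * X = 0) :
    InM M (X * Y) := by
  obtain ⟨g, hg, he⟩ := hY
  have h1 := hX.conj' hg
  have h2 : ((g⁻¹ : GL κ F) : Matrix κ κ F) * X = X := by
    have : (g : Matrix κ κ F) * X = X := by rw [he, add_mul, one_mul, hYX, add_zero]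
    calc ((g⁻¹ : GL κ F) : Matrix κ κ F) * X = ((g⁻¹ : GL κ F) : Matrix κ κ F) * ((g : Matrix κ κ F) * X) := by
          rw [this]
      _ = X := by rw [← mul_assoc, Units.inv_mul, one_mul]
  rw [h2, he, mul_add, mul_one] at h1
  have h3 := (hX.neg hXX).add h1 (by rw [neg_mul, mul_add, ← mul_assoc, hXX, zero_mul, add_zero, neg_zero])
  rwa [neg_add_cancel_left] at h3

theorem InM.mono {N : Subgroup (GL κ F)} (h : M ≤ N) (hX : InM M X) : InM N X := by
  obtain ⟨g, hg, he⟩ := hX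
  exact ⟨g, h hg, he⟩

end InM

/-! ### Vectors -/

section Vec

variable {ι : Type} [Fintype ι] [DecidableEq ι]

theorem exists_dot_one' {a : ι → F} (h : a ≠ 0) : ∃ α : ι → F, α ⬝ᵥ a = 1 := by
  obtain ⟨i, hi⟩ := Function.ne_iff.1 h
  refine ⟨Pi.single i (a i)⁻¹, ?_⟩
  rw [single_dotProduct, inv_mul_cancel₀ hi]

theorem exists_dot_one {α : ι → F} (h : α ≠ 0) : ∃ a : ι → F, α ⬝ᵥ a = 1 := by
  obtain ⟨u, hu⟩ := exists_dot_one' h
  exact ⟨u, by rw [dotProduct_comm, hu]⟩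

theorem vmv_smul_left (c : F) (a α : ι → F) : vecMulVec (c • a) α = c • vecMulVec a α := by
  ext i j; simp [vecMulVec_apply, mul_assoc]

theorem vmv_smul_right (c : F) (a α : ι → F) : vecMulVec a (c • α) = c • vecMulVec a α := by
  ext i j; simp [vecMulVec_apply]; ring

theorem exists_two {a b : Fin m → F} (hm : 3 ≤ m) : ∃ β : Fin m → F, β ≠ 0 ∧ β ⬝ᵥ a = 0 ∧ β ⬝ᵥ b = 0 := by
  let f : (Fin m → F) →ₗ[F] (Fin 2 → F) := Matrix.toLin' (Matrix.of ![a, b])
  have h1 : LinearMap.ker f ≠ ⊥ := by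
    apply LinearMap.ker_ne_bot_of_finrank_lt
    simp
    omega
  obtain ⟨β, hβ, h0⟩ := Submodule.exists_mem_ne_zero_of_ne_bot h1
  refine ⟨β, h0, ?_, ?_⟩
  · have := congrFun (LinearMap.mem_ker.1 hβ) 0
    simp [f, Matrix.mulVec] at this
    rw [dotProduct_comm]; exact this
  · have := congrFun (LinearMap.mem_ker.1 hβ) 1
    simp [f, Matrix.mulVec] at this
    rw [dotProduct_comm]; exact this

theorem exists_two' {α β : Fin m → F} (hm : 3 ≤ m) : ∃ b : Fin m → F, b ≠ 0 ∧ α ⬝ᵥ b = 0 ∧ β ⬝ᵥ b = 0 := by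
  obtain ⟨b, h0, h1, h2⟩ := exists_two (a := α) (b := β) hm
  exact ⟨b, h0, by rw [dotProduct_comm, h1], by rw [dotProduct_comm, h2]⟩

/-- `b` with `α b = 0`, `β a = 0`, `β b = 1`. -/
theorem exists_bridge (a α : Fin m → F) (hm : 3 ≤ m) :
    ∃ b β : Fin m → F, α ⬝ᵥ b = 0 ∧ β ⬝ᵥ a = 0 ∧ β ⬝ᵥ b = 1 := by
  by_contra hcon
  push Not at hcon
  have h1 : ∀ b β : Fin m → F, α ⬝ᵥ b = 0 → β ⬝ᵥ a = 0 → β ⬝ᵥ b = 0 := by
    intro b β h1 h2
    by_contra h3
    refine hcon b ((β ⬝ᵥ b)⁻¹ • β) h1 (by rw [smul_dotProduct, h2, smul_zero]) ?_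
    rw [smul_dotProduct, smul_eq_mul, inv_mul_cancel₀ h3]
  -- ker α has dimension ≥ 2
  obtain ⟨b, hb0, hb1, -⟩ := exists_two' (α := α) (β := α) hm
  -- every β with β a = 0 kills b, so b = c a
  obtain ⟨γ, hγ⟩ := exists_dot_one' hb0
  obtain ⟨b', hb'0, hb'1, hb'2⟩ := exists_two' (α := α) (β := γ) hm
  obtain ⟨δ, hδ⟩ := exists_dot_one' hb'0
  -- β := (δ a) γ - (γ a) δ kills a
  have h2 := h1 b' ((δ ⬝ᵥ a) • γ - (γ ⬝ᵥ a) • δ) hb'1 (by
    rw [sub_dotProduct, smul_dotProduct, smul_dotProduct]; simp only [smul_eq_mul]; ring)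
  rw [sub_dotProduct, smul_dotProduct, smul_dotProduct, hb'2, hδ] at h2
  simp only [smul_eq_mul, mul_zero, mul_one, zero_sub, neg_eq_zero] at h2
  have h3 := h1 b γ hb1 h2
  rw [hγ] at h3
  exact one_ne_zero h3

end Vec

/-! ### `rk` and `co` -/

section Rk

variable (ρ : Matrix (Fin m) (Fin m) F →ₐ[F] Matrix κ κ F)

/-- `ρ (a αᵀ)`. -/
def rk (a α : Fin m → F) : Matrix κ κ F := ρ (vecMulVec a α)

theorem rk_mul_rk (a α b β : Fin m → F) : rk ρ a α * rk ρ b β = (α ⬝ᵥ b) • rk ρ a β := by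
  rw [rk, rk, rk, ← map_mul, vecMulVec_mul_vecMulVec, ← map_smul, vmv_smul_right]

theorem map_mul_rk (A : Matrix (Fin m) (Fin m) F) (a α : Fin m → F) :
    ρ A * rk ρ a α = rk ρ (A *ᵥ a) α := by
  rw [rk, rk, ← map_mul, mul_vecMulVec]

theorem rk_mul_map (A : Matrix (Fin m) (Fin m) F) (a α : Fin m → F) :
    rk ρ a α * ρ A = rk ρ a (α ᵥ* A) := by
  rw [rk, rk, ← map_mul, vecMulVec_mul]

theorem rk_smul_left (c : F) (a α : Fin m → F) : rk ρ (c • a) α = c • rk ρ a α := by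
  rw [rk, rk, vmv_smul_left, map_smul]

theorem rk_smul_right (c : F) (a α : Fin m → F) : rk ρ a (c • α) = c • rk ρ a α := by
  rw [rk, rk, vmv_smul_right, map_smul]

theorem rk_add_left (a b α : Fin m → F) : rk ρ (a + b) α = rk ρ a α + rk ρ b α := by
  rw [rk, rk, rk, add_vecMulVec, map_add]

theorem rk_add_right (a α β : Fin m → F) : rk ρ a (α + β) = rk ρ a α + rk ρ a β := by
  rw [rk, rk, rk, vecMulVec_add, map_add]

theorem rk_sub_right (a α β : Fin m → F) : rk ρ a (α - β) = rk ρ a α - rk ρ a β := by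
  rw [rk, rk, rk, ← map_sub]
  congr 1
  ext i j; simp [vecMulVec_apply, mul_sub]

theorem rk_sub_left (a b α : Fin m → F) : rk ρ (a - b) α = rk ρ a α - rk ρ b α := by
  rw [rk, rk, rk, ← map_sub]
  congr 1
  ext i j; simp [vecMulVec_apply, sub_mul]

theorem rk_zero_left (α : Fin m → F) : rk ρ 0 α = 0 := by
  rw [rk, zero_vecMulVec, map_zero]

theorem rk_zero_right (a : Fin m → F) : rk ρ a 0 = 0 := by
  rw [rk, vecMulVec_zero, map_zero]

theorem rk_sum_left (a : Fin m → F) (α : Fin m → F) :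
    ∑ i, a i • rk ρ (Pi.single i 1) α = rk ρ a α := by
  simp only [← rk_smul_left]
  simp only [rk]
  rw [← map_sum]
  congr 1
  ext i j
  rw [Matrix.sum_apply, Finset.sum_eq_single i]
  · simp [vecMulVec_apply]
  · intro k _ hk
    simp [vecMulVec_apply, hk.symm]
  · intro h; exact absurd (Finset.mem_univ _) h

theorem rk_sum_right (a : Fin m → F) (α : Fin m → F) :
    ∑ i, α i • rk ρ a (Pi.single i 1) = rk ρ a α := by
  simp only [← rk_smul_right]
  simp only [rk]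
  rw [← map_sum]
  congr 1
  ext i j
  rw [Matrix.sum_apply, Finset.sum_eq_single j]
  · simp [vecMulVec_apply]
  · intro k _ hk
    simp [vecMulVec_apply, hk.symm]
  · intro h; exact absurd (Finset.mem_univ _) h

theorem sum_rk_one : ∑ i, rk ρ (Pi.single i 1) (Pi.single i 1) = 1 := by
  simp only [rk]
  rw [← map_sum, ← map_one ρ]
  congr 1
  ext i j
  rw [Matrix.sum_apply, Finset.sum_eq_single i]
  · simp [vecMulVec_apply, Matrix.one_apply, Pi.single_apply, eq_comm]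
  · intro k _ hk
    simp [vecMulVec_apply, hk.symm]
  · intro h; exact absurd (Finset.mem_univ _) h

theorem map_eq_sum (A : Matrix (Fin m) (Fin m) F) :
    ρ A = ∑ i, ∑ j, A i j • rk ρ (Pi.single i 1) (Pi.single j 1) := by
  conv_lhs => rw [← mul_one (ρ A), ← sum_rk_one ρ, Finset.mul_sum]
  rw [Finset.sum_comm]
  refine Finset.sum_congr rfl fun j _ => ?_
  rw [map_mul_rk, ← rk_sum_left]
  refine Finset.sum_congr rfl fun i _ => ?_
  congr 1
  simp

theorem ρ_injective [Nonempty κ] : Function.Injective ρ := by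
  rcases Nat.eq_zero_or_pos m with h | h
  · subst h
    intro A B _
    ext i
    exact i.elim0
  · have : Nonempty (Fin m) := ⟨⟨0, h⟩⟩
    exact ρ.toRingHom.injective

theorem rk_eq_zero [Nonempty κ] {a α : Fin m → F} (h : rk ρ a α = 0) : a = 0 ∨ α = 0 := by
  have h1 : vecMulVec a α = 0 := ρ_injective ρ (by rw [map_zero]; exact h)
  by_contra hcon
  push Not at hcon
  obtain ⟨i, hi⟩ := Function.ne_iff.1 hcon.1
  obtain ⟨j, hj⟩ := Function.ne_iff.1 hcon.2
  have := congrFun (congrFun h1 i) j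
  rw [vecMulVec_apply] at this
  exact mul_ne_zero hi hj this

theorem rk_ne_zero [Nonempty κ] {a α : Fin m → F} (ha : a ≠ 0) (hα : α ≠ 0) : rk ρ a α ≠ 0 :=
  fun h => (rk_eq_zero ρ h).elim ha hα

/-- Commutes with the image of `ρ`. -/
def Cen (r : Matrix κ κ F) : Prop := ∀ A, Commute (ρ A) r

theorem cen_iff {r : Matrix κ κ F} :
    Cen ρ r ↔ ∀ a α, rk ρ a α * r = r * rk ρ a α := by
  constructor
  · intro h a α
    exact h _
  · intro h A
    rw [map_eq_sum]
    refine Commute.sum_left _ _ _ fun i _ => Commute.sum_left _ _ _ fun j _ => ?_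
    exact Commute.smul_left (h _ _) _

variable {ρ} in
theorem Cen.rk {r : Matrix κ κ F} (h : Cen ρ r) (a α : Fin m → F) :
    rk ρ a α * r = r * Wr.rk ρ a α := h _

variable {ρ} in
theorem Cen.mul {r s : Matrix κ κ F} (h : Cen ρ r) (h' : Cen ρ s) : Cen ρ (r * s) :=
  fun A => (h A).mul_right (h' A)

variable {ρ} in
theorem Cen.smul {r : Matrix κ κ F} (c : F) (h : Cen ρ r) : Cen ρ (c • r) :=
  fun A => (h A).smul_right c

variable {ρ} in
theorem Cen.sub {r s : Matrix κ κ F} (h : Cen ρ r) (h' : Cen ρ s) : Cen ρ (r - s) :=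
  fun A => (h A).sub_right (h' A)

variable {ρ} in
theorem Cen.add {r s : Matrix κ κ F} (h : Cen ρ r) (h' : Cen ρ s) : Cen ρ (r + s) :=
  fun A => (h A).add_right (h' A)

theorem cen_one : Cen ρ (1 : Matrix κ κ F) := fun _ => Commute.one_right _

/-- The coefficient of `Y` at `(α, b)`. -/
def co (α b : Fin m → F) (Y : Matrix κ κ F) : Matrix κ κ F :=
  ∑ j, rk ρ (Pi.single j 1) α * Y * rk ρ b (Pi.single j 1)

theorem rk_mul_co (c γ α b : Fin m → F) (Y : Matrix κ κ F) :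
    rk ρ c γ * co ρ α b Y = rk ρ c α * Y * rk ρ b γ := by
  rw [co, Finset.mul_sum]
  have h : ∀ j, rk ρ c γ * (rk ρ (Pi.single j 1) α * Y * rk ρ b (Pi.single j 1)) =
      rk ρ c α * Y * (γ j • rk ρ b (Pi.single j 1)) := by
    intro j
    rw [← mul_assoc, ← mul_assoc, rk_mul_rk, dotProduct_single, mul_one, smul_mul_assoc, smul_mul_assoc,
      mul_smul_comm]
  simp only [h]
  rw [← Finset.mul_sum, rk_sum_right]

theorem co_mul_rk (c γ α b : Fin m → F) (Y : Matrix κ κ F) :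
    co ρ α b Y * rk ρ c γ = rk ρ c α * Y * rk ρ b γ := by
  rw [co, Finset.sum_mul]
  have h : ∀ j, rk ρ (Pi.single j 1) α * Y * rk ρ b (Pi.single j 1) * rk ρ c γ =
      (c j • rk ρ (Pi.single j 1) α) * Y * rk ρ b γ := by
    intro j
    rw [mul_assoc, rk_mul_rk, single_dotProduct, one_mul, mul_smul_comm, smul_mul_assoc, smul_mul_assoc]
  simp only [h]
  rw [← Finset.sum_mul, ← Finset.sum_mul, rk_sum_left]

theorem cen_co (α b : Fin m → F) (Y : Matrix κ κ F) : Cen ρ (co ρ α b Y) := by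
  rw [cen_iff]
  intro c γ
  rw [rk_mul_co, co_mul_rk]

theorem eq_sum_co (Y : Matrix κ κ F) :
    Y = ∑ i, ∑ j, rk ρ (Pi.single i 1) (Pi.single j 1) * co ρ (Pi.single i 1) (Pi.single j 1) Y := by
  simp only [rk_mul_co]
  conv_lhs => rw [← one_mul Y, ← mul_one (1 * Y), ← sum_rk_one ρ, Finset.sum_mul, Finset.sum_mul]
  refine Finset.sum_congr rfl fun i _ => ?_
  rw [Finset.mul_sum]

/-- If all coefficients are scalar then `Y` is in the image of `ρ`. -/
theorem mem_range_of_co {Y : Matrix κ κ F} (h : ∀ α b, ∃ c : F, co ρ α b Y = c • (1 : Matrix κ κ F)) :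
    ∃ A, ρ A = Y := by
  choose c hc using h
  refine ⟨Matrix.of fun i j => c (Pi.single i 1) (Pi.single j 1), ?_⟩
  conv_rhs => rw [eq_sum_co ρ Y]
  rw [map_eq_sum]
  refine Finset.sum_congr rfl fun i _ => Finset.sum_congr rfl fun j _ => ?_
  rw [hc, mul_smul_comm, mul_one, Matrix.of_apply]

theorem co_smul_left (c : F) (α b : Fin m → F) (Y : Matrix κ κ F) :
    co ρ (c • α) b Y = c • co ρ α b Y := by
  simp only [co, rk_smul_right, smul_mul_assoc, Finset.smul_sum]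

theorem co_add_right (α b b' : Fin m → F) (Y : Matrix κ κ F) :
    co ρ α (b + b') Y = co ρ α b Y + co ρ α b' Y := by
  simp only [co, rk_add_left, mul_add, Finset.sum_add_distrib]

theorem co_smul_right (c : F) (α b : Fin m → F) (Y : Matrix κ κ F) :
    co ρ α (c • b) Y = c • co ρ α b Y := by
  simp only [co, rk_smul_left, mul_smul_comm, Finset.smul_sum]

theorem co_add_left (α α' b : Fin m → F) (Y : Matrix κ κ F) :
    co ρ (α + α') b Y = co ρ α b Y + co ρ α' b Y := by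
  simp only [co, rk_add_right, add_mul, Finset.sum_add_distrib]

theorem co_zero_right (α : Fin m → F) (Y : Matrix κ κ F) : co ρ α 0 Y = 0 := by
  simp [co, rk_zero_left]

theorem co_zero_left (b : Fin m → F) (Y : Matrix κ κ F) : co ρ 0 b Y = 0 := by
  simp [co, rk_zero_right]

variable {ρ} in
/-- cancellation of a rank one factor against central elements -/
theorem Cen.eq_zero [Nonempty κ] {r : Matrix κ κ F} (h : Cen ρ r) {a α : Fin m → F} (ha : a ≠ 0) (hα : α ≠ 0)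
    (h0 : Wr.rk ρ a α * r = 0) : r = 0 := by
  obtain ⟨a', ha'⟩ := exists_dot_one' ha
  obtain ⟨α', hα'⟩ := exists_dot_one hα
  have h1 : ∀ c γ, Wr.rk ρ c γ * r = 0 := by
    intro c γ
    have h2 : Wr.rk ρ c a' * (Wr.rk ρ a α * r) * Wr.rk ρ α' γ = 0 := by rw [h0, mul_zero, zero_mul]
    rwa [← mul_assoc, rk_mul_rk, ha', one_smul, mul_assoc, ← h.rk, ← mul_assoc, rk_mul_rk, hα', one_smul] at h2
  rw [← one_mul r, ← sum_rk_one ρ, Finset.sum_mul]
  exact Finset.sum_eq_zero fun i _ => h1 _ _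

end Rk

end Cfsg.Agent.H873.Wr
end

-- part: H873/WrGE
section
/-!
`GE M ρ`: `M` contains the image of `SL_m` and every `r` in the centraliser of the image of `ρ` with
`1 + ρ(a αᵀ) r ∈ M` (`α a = 0`) is a scalar. Consequences: `1 + Z ∈ M` with image in `a ⊗ W` is in the image of `ρ`, etc.
-/

set_option autoImplicit false
set_option linter.unusedSectionVars false

namespace Cfsg.Agent.H873.Wr

open Matrix

variable {κ : Type} [Fintype κ] [DecidableEq κ] [Nonempty κ] {F : Type*} [Field F] {m : ℕ}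

/-- A good embedding of `M_m(F)`. -/
structure GE (M : Subgroup (GL κ F)) (ρ : Matrix (Fin m) (Fin m) F →ₐ[F] Matrix κ κ F) : Prop where
  sl : ∀ A : Matrix (Fin m) (Fin m) F, A.det = 1 → ∃ g ∈ M, (g : Matrix κ κ F) = ρ A
  nt : ∀ (a α : Fin m → F) (r : Matrix κ κ F), a ≠ 0 → α ≠ 0 → α ⬝ᵥ a = 0 → Cen ρ r →
    InM M (rk ρ a α * r) → ∃ c : F, r = c • (1 : Matrix κ κ F)

section

variable {M : Subgroup (GL κ F)} {ρ ρ' : Matrix (Fin m) (Fin m) F →ₐ[F] Matrix κ κ F}

theorem GE.root (h : GE M ρ) {a α : Fin m → F} (h0 : α ⬝ᵥ a = 0) : InM M (rk ρ a α) := by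
  obtain ⟨g, hg, he⟩ := h.sl (1 + vecMulVec a α) (det_tv a α h0)
  refine ⟨g, hg, ?_⟩
  rw [he, map_add, map_one]
  rfl

theorem rk_sq {a α : Fin m → F} (h0 : α ⬝ᵥ a = 0) : rk ρ a α * rk ρ a α = 0 := by
  rw [rk_mul_rk, h0, zero_smul]

/-- coefficient extraction -/
theorem GE.co_scalar (h : GE M ρ) {a β α b : Fin m → F} {Y : Matrix κ κ F} (ha : a ≠ 0) (hβ : β ≠ 0)
    (hβa : β ⬝ᵥ a = 0) (hY : InM M (rk ρ a α * Y * rk ρ b β)) : ∃ c : F, co ρ α b Y = c • (1 : Matrix κ κ F) := by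
  rw [← rk_mul_co] at hY
  exact h.nt a β _ ha hβ hβa (cen_co ρ _ _ _) hY

/-- `Z = rk a α * Z` if `Z` has image in `a ⊗ W`. -/
theorem image_eq {a α : Fin m → F} (hα : α ⬝ᵥ a = 1) {Z : Matrix κ κ F}
    (h2 : ∀ g γ, γ ⬝ᵥ a = 0 → rk ρ g γ * Z = 0) : rk ρ a α * Z = Z := by
  have h3 : ∀ g γ, rk ρ g γ * Z = (γ ⬝ᵥ a) • (rk ρ g α * Z) := by
    intro g γ
    have := h2 g (γ - (γ ⬝ᵥ a) • α) (by rw [sub_dotProduct, smul_dotProduct, hα, smul_eq_mul, mul_one, sub_self])
    rw [rk_sub_right, rk_smul_right, sub_mul, smul_mul_assoc, sub_eq_zero] at this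
    exact this
  conv_rhs => rw [← one_mul Z, ← sum_rk_one ρ, Finset.sum_mul]
  simp only [h3 (Pi.single _ 1) (Pi.single _ 1), single_dotProduct, one_mul]
  rw [← rk_sum_left ρ a α, Finset.sum_mul]
  exact Finset.sum_congr rfl fun i _ => smul_mul_assoc _ _ _

theorem coimage_eq {a α : Fin m → F} (hα : α ⬝ᵥ a = 1) {Z : Matrix κ κ F}
    (h2 : ∀ b γ, α ⬝ᵥ b = 0 → Z * rk ρ b γ = 0) : Z * rk ρ a α = Z := by
  have h3 : ∀ b γ, Z * rk ρ b γ = (α ⬝ᵥ b) • (Z * rk ρ a γ) := by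
    intro b γ
    have := h2 (b - (α ⬝ᵥ b) • a) γ (by rw [dotProduct_sub, dotProduct_smul, hα, smul_eq_mul, mul_one, sub_self])
    rw [rk_sub_left, rk_smul_left, mul_sub, mul_smul_comm, sub_eq_zero] at this
    exact this
  conv_rhs => rw [← mul_one Z, ← sum_rk_one ρ, Finset.mul_sum]
  simp only [h3 (Pi.single _ 1) (Pi.single _ 1), dotProduct_single, mul_one]
  rw [← rk_sum_right ρ a α, Finset.mul_sum]
  exact Finset.sum_congr rfl fun i _ => mul_smul_comm _ _ _

/-- `1 + Z ∈ M` with image in `a ⊗ W`, trivial on `a ⊗ W`, is a root element of the image of `ρ`. -/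
theorem GE.col (h : GE M ρ) (hm : 3 ≤ m) {a : Fin m → F} (ha : a ≠ 0) {Z : Matrix κ κ F} (hZ : InM M Z)
    (h1 : ∀ γ, Z * rk ρ a γ = 0) (h2 : ∀ g γ, γ ⬝ᵥ a = 0 → rk ρ g γ * Z = 0) :
    ∃ ψ, ψ ⬝ᵥ a = 0 ∧ Z = rk ρ a ψ := by
  obtain ⟨α, hα⟩ := exists_dot_one' ha
  have hZa := image_eq (ρ := ρ) hα h2
  have hco : ∀ b, ∃ c : F, co ρ α b Z = c • (1 : Matrix κ κ F) := by
    intro b
    obtain ⟨β, hβ0, hβa, hβb⟩ := exists_two (a := a) (b := b) hm
    apply h.co_scalar ha hβ0 hβa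
    rw [hZa]
    exact (h.root hβb).comm_l hZ (rk_sq hβb) (h2 _ _ hβa)
  choose c hc using hco
  have h3 : Z = rk ρ a (fun j => c (Pi.single j 1)) := by
    have h4 : ∀ j : Fin m, Z * rk ρ (Pi.single j 1) (Pi.single j 1) = c (Pi.single j 1) • rk ρ a (Pi.single j 1) := by
      intro j
      conv_lhs => rw [← hZa]
      rw [← rk_mul_co, hc, mul_smul_comm, mul_one]
    conv_lhs => rw [← mul_one Z, ← sum_rk_one ρ, Finset.mul_sum]
    rw [← rk_sum_right]
    exact Finset.sum_congr rfl fun j _ => h4 j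
  refine ⟨_, ?_, h3⟩
  have h4 := h1 α
  rw [h3, rk_mul_rk] at h4
  rcases smul_eq_zero.1 h4 with h5 | h5
  · exact h5
  · exact absurd h5 (rk_ne_zero ρ ha (by rintro rfl; rw [zero_dotProduct] at hα; exact zero_ne_one hα))

/-- Dual form. -/
theorem GE.row (h : GE M ρ) (hm : 3 ≤ m) {α : Fin m → F} (hα0 : α ≠ 0) {Z : Matrix κ κ F} (hZ : InM M Z)
    (h1 : ∀ g, rk ρ g α * Z = 0) (h2 : ∀ b γ, α ⬝ᵥ b = 0 → Z * rk ρ b γ = 0) :
    ∃ f, α ⬝ᵥ f = 0 ∧ Z = rk ρ f α := by
  obtain ⟨a, hα⟩ := exists_dot_one hα0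
  have hZa := coimage_eq (ρ := ρ) hα h2
  have hco : ∀ β, ∃ c : F, co ρ β a Z = c • (1 : Matrix κ κ F) := by
    intro β
    obtain ⟨b, hb0, hbα, hbβ⟩ := exists_two' (α := α) (β := β) hm
    apply h.co_scalar hb0 hα0 hbα
    rw [mul_assoc, hZa]
    exact (h.root hbβ).comm_r hZ (rk_sq hbβ) (h2 _ _ hbα)
  choose c hc using hco
  have h3 : Z = rk ρ (fun j => c (Pi.single j 1)) α := by
    have h4 : ∀ j : Fin m, rk ρ (Pi.single j 1) (Pi.single j 1) * Z = c (Pi.single j 1) • rk ρ (Pi.single j 1) α := by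
      intro j
      conv_lhs => rw [← hZa]
      rw [← mul_assoc, ← rk_mul_co, hc, mul_smul_comm, mul_one]
    conv_lhs => rw [← one_mul Z, ← sum_rk_one ρ, Finset.sum_mul]
    rw [← rk_sum_left]
    exact Finset.sum_congr rfl fun j _ => h4 j
  refine ⟨_, ?_, h3⟩
  have h4 := h1 a
  rw [h3, rk_mul_rk] at h4
  rcases smul_eq_zero.1 h4 with h5 | h5
  · exact h5
  · exact absurd h5 (rk_ne_zero ρ (by rintro rfl; rw [dotProduct_zero] at hα; exact zero_ne_one hα) hα0)

/-- Transfer along a common root, column form. -/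
theorem GE.transfer_col (h : GE M ρ) (h' : GE M ρ') (hm : 3 ≤ m) {e φ e' φ' : Fin m → F}
    (hφ : φ ≠ 0) (he' : e' ≠ 0) (hφ' : φ' ≠ 0) (hN : rk ρ e φ = rk ρ' e' φ')
    {ψ : Fin m → F} (hψ : ψ ⬝ᵥ e = 0) : ∃ ψ', ψ' ⬝ᵥ e' = 0 ∧ rk ρ e ψ = rk ρ' e' ψ' := by
  obtain ⟨f, hf⟩ := exists_dot_one hφ
  obtain ⟨f', hf'⟩ := exists_dot_one hφ'
  apply h'.col hm he' (h.root hψ)
  · intro γ
    have h1 : rk ρ' e' γ = rk ρ e φ * rk ρ' f' γ := by
      rw [hN, rk_mul_rk, hf', one_smul]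
    rw [h1, ← mul_assoc, rk_mul_rk, hψ, zero_smul, zero_mul]
  · intro g γ hγ
    have h1 : rk ρ e ψ = rk ρ' e' φ' * rk ρ f ψ := by
      rw [← hN, rk_mul_rk, hf, one_smul]
    rw [h1, ← mul_assoc, rk_mul_rk, hγ, zero_smul, zero_mul]

theorem GE.transfer_row (h : GE M ρ) (h' : GE M ρ') (hm : 3 ≤ m) {e φ e' φ' : Fin m → F} (he : e ≠ 0)
    (he' : e' ≠ 0) (hφ' : φ' ≠ 0) (hN : rk ρ e φ = rk ρ' e' φ')
    {f : Fin m → F} (hf : φ ⬝ᵥ f = 0) : ∃ f', φ' ⬝ᵥ f' = 0 ∧ rk ρ f φ = rk ρ' f' φ' := by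
  obtain ⟨ε, hε⟩ := exists_dot_one' he
  obtain ⟨ε', hε'⟩ := exists_dot_one' he'
  apply h'.row hm hφ' (h.root hf)
  · intro g
    have h1 : rk ρ' g φ' = rk ρ' g ε' * rk ρ e φ := by
      rw [hN, rk_mul_rk, hε', one_smul]
    rw [h1, mul_assoc, rk_mul_rk, hf, zero_smul, mul_zero]
  · intro b γ hγ
    have h1 : rk ρ f φ = rk ρ f ε * rk ρ' e' φ' := by
      rw [← hN, rk_mul_rk, hε, one_smul]
    rw [h1, mul_assoc, rk_mul_rk, hγ, zero_smul, mul_zero]

/-- The image of `ρ` is contained in the image of `ρ'`. -/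
def RLe (ρ ρ' : Matrix (Fin m) (Fin m) F →ₐ[F] Matrix κ κ F) : Prop := ∀ A, ∃ B, ρ' B = ρ A

theorem rk_root_imp {B : Subalgebra F (Matrix κ κ F)} (hm : 3 ≤ m)
    (h : ∀ f χ : Fin m → F, χ ⬝ᵥ f = 0 → rk ρ f χ ∈ B) (A) : ρ A ∈ B := by
  have h1 : ∀ a α, rk ρ a α ∈ B := by
    intro a α
    obtain ⟨b, β, h1, h2, h3⟩ := exists_bridge a α hm
    have : rk ρ a α = rk ρ a β * rk ρ b α := by rw [rk_mul_rk, h3, one_smul]
    rw [this]
    exact B.mul_mem (h _ _ h2) (h _ _ h1)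
  rw [map_eq_sum]
  exact B.sum_mem fun i _ => B.sum_mem fun j _ => B.smul_mem (h1 _ _) _

/-- A common root element forces the images to agree. -/
theorem GE.range_le (h : GE M ρ) (h' : GE M ρ') (hm : 3 ≤ m) {e φ e' φ' : Fin m → F} (he : e ≠ 0)
    (hφ : φ ≠ 0) (he' : e' ≠ 0) (hφ' : φ' ≠ 0) (hN : rk ρ e φ = rk ρ' e' φ') : RLe ρ ρ' := by
  apply rk_root_imp (B := ρ'.range) hm
  intro f χ hχ
  by_cases hf0 : f = 0
  · subst hf0; rw [rk_zero_left]; exact Subalgebra.zero_mem _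
  by_cases hχ0 : χ = 0
  · subst hχ0; rw [rk_zero_right]; exact Subalgebra.zero_mem _
  obtain ⟨ψ, hψ0, hψe, hψf⟩ := exists_two (a := e) (b := f) hm
  obtain ⟨ψ', -, hN1⟩ := h.transfer_col h' hm hφ he' hφ' hN hψe
  have hψ'0 : ψ' ≠ 0 := by
    rintro rfl
    rw [rk_zero_right] at hN1
    exact rk_ne_zero ρ he hψ0 hN1
  obtain ⟨f', -, hN2⟩ := h.transfer_row h' hm he he' hψ'0 hN1 hψf
  have hf'0 : f' ≠ 0 := by
    rintro rfl
    rw [rk_zero_left] at hN2
    exact rk_ne_zero ρ hf0 hψ0 hN2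
  obtain ⟨χ', -, hN3⟩ := h.transfer_col h' hm hψ0 hf'0 hψ'0 hN2 hχ
  exact ⟨vecMulVec f' χ', hN3.symm⟩

end

section Conj

/-- conjugation as an algebra automorphism -/
def conjA (g : GL κ F) : Matrix κ κ F ≃ₐ[F] Matrix κ κ F where
  toFun X := (g : Matrix κ κ F) * X * ((g⁻¹ : GL κ F) : Matrix κ κ F)
  invFun X := ((g⁻¹ : GL κ F) : Matrix κ κ F) * X * (g : Matrix κ κ F)
  left_inv X := by
    simp [mul_assoc]
  right_inv X := by
    simp [mul_assoc]
  map_mul' X Y := by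
    simp [mul_assoc]
  map_add' X Y := by rw [mul_add, add_mul]
  commutes' c := by
    rw [← Algebra.commutes, mul_assoc, Units.mul_inv, mul_one]

theorem conjA_apply (g : GL κ F) (X : Matrix κ κ F) :
    conjA g X = (g : Matrix κ κ F) * X * ((g⁻¹ : GL κ F) : Matrix κ κ F) := rfl

theorem conjA_mul (g h : GL κ F) (X : Matrix κ κ F) : conjA (g * h) X = conjA g (conjA h X) := by
  simp only [conjA_apply, _root_.mul_inv_rev, Units.val_mul, mul_assoc]

theorem conjA_inv (g : GL κ F) (X : Matrix κ κ F) : conjA g⁻¹ (conjA g X) = X := by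
  rw [← conjA_mul, inv_mul_cancel]
  simp [conjA_apply]

theorem conjA_inv' (g : GL κ F) (X : Matrix κ κ F) : conjA g (conjA g⁻¹ X) = X := by
  rw [← conjA_mul, mul_inv_cancel]
  simp [conjA_apply]

theorem conjA_eq_self {g : GL κ F} {X : Matrix κ κ F} (h : Commute (g : Matrix κ κ F) X) : conjA g X = X := by
  rw [conjA_apply, h.eq, mul_assoc, Units.mul_inv, mul_one]

theorem commute_of_conjA {g : GL κ F} {X : Matrix κ κ F} (h : conjA g X = X) : Commute (g : Matrix κ κ F) X := by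
  have : (g : Matrix κ κ F) * X * ((g⁻¹ : GL κ F) : Matrix κ κ F) * (g : Matrix κ κ F) = X * (g : Matrix κ κ F) := by
    rw [← conjA_apply, h]
  rwa [mul_assoc, Units.inv_mul, mul_one] at this

/-- the conjugate embedding -/
def cj (g : GL κ F) (ρ : Matrix (Fin m) (Fin m) F →ₐ[F] Matrix κ κ F) :
    Matrix (Fin m) (Fin m) F →ₐ[F] Matrix κ κ F := (conjA g).toAlgHom.comp ρ

theorem cj_apply (g : GL κ F) (ρ : Matrix (Fin m) (Fin m) F →ₐ[F] Matrix κ κ F) (A) :
    cj g ρ A = conjA g (ρ A) := rfl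

theorem rk_cj (g : GL κ F) (ρ : Matrix (Fin m) (Fin m) F →ₐ[F] Matrix κ κ F) (a α : Fin m → F) :
    rk (cj g ρ) a α = conjA g (rk ρ a α) := rfl

variable {M : Subgroup (GL κ F)} {ρ ρ' : Matrix (Fin m) (Fin m) F →ₐ[F] Matrix κ κ F}

theorem InM.conjA {X : Matrix κ κ F} (h : InM M X) {g : GL κ F} (hg : g ∈ M) : InM M (conjA g X) := h.conj hg

theorem GE.cj (h : GE M ρ) {g : GL κ F} (hg : g ∈ M) : GE M (cj g ρ) where
  sl A hA := by
    obtain ⟨x, hx, he⟩ := h.sl A hA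
    refine ⟨g * x * g⁻¹, M.mul_mem (M.mul_mem hg hx) (M.inv_mem hg), ?_⟩
    rw [cj_apply, conjA_apply, ← he, Units.val_mul, Units.val_mul]
  nt a α r ha hα hαa hr hM := by
    have h1 : Cen ρ (Wr.conjA g⁻¹ r) := by
      intro A
      have h2 := (hr A).map (Wr.conjA g⁻¹)
      rwa [cj_apply, conjA_inv] at h2
    have h2 := hM.conjA (M.inv_mem hg)
    rw [map_mul, rk_cj, conjA_inv] at h2
    obtain ⟨c, hc⟩ := h.nt a α _ ha hα hαa h1 h2
    refine ⟨c, ?_⟩
    rw [← conjA_inv' g r, hc, map_smul, map_one]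

/-- If `g` normalises the image of `ρ` then `g = ρ(a) r` with `r` in the centraliser (Skolem-Noether). -/
theorem exists_factor (hm : 0 < m) {g : GL κ F} (h : RLe (Wr.cj g ρ) ρ) :
    ∃ (a : GL (Fin m) F) (r : GL κ F), Cen ρ (r : Matrix κ κ F) ∧
      (g : Matrix κ κ F) = ρ (a : Matrix (Fin m) (Fin m) F) * (r : Matrix κ κ F) := by
  choose θ hθ using h
  have hinj : Function.Injective ρ := ρ_injective ρ
  let A0 : Matrix (Fin m) (Fin m) F →ₗ[F] Matrix (Fin m) (Fin m) F :=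
      { toFun := θ
        map_add' := fun x y => by
          apply hinj
          rw [map_add, hθ, hθ, hθ, map_add]
        map_smul' := fun c x => by
          apply hinj
          rw [map_smul, hθ, hθ, map_smul]
          rfl }
  let A : Matrix (Fin m) (Fin m) F →ₐ[F] Matrix (Fin m) (Fin m) F :=
    AlgHom.ofLinearMap A0
      (by
        apply hinj
        change ρ (θ 1) = _
        rw [hθ, map_one, map_one])
      (by
        intro x y
        apply hinj
        change ρ (θ (x * y)) = ρ (θ x * θ y)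
        rw [map_mul, hθ, hθ, hθ, map_mul])
  have hA : ∀ x, ρ (A x) = Wr.cj g ρ x := fun x => hθ x
  have hAinj : Function.Injective A := by
    have : Nonempty (Fin m) := ⟨⟨0, hm⟩⟩
    exact A.toRingHom.injective
  have hAbij : Function.Bijective A := ⟨hAinj, LinearMap.surjective_of_injective (f := A.toLinearMap) hAinj⟩
  obtain ⟨a, ha⟩ := Cfsg.Agent.H919.exists_conj_of_algEquiv (AlgEquiv.ofBijective A hAbij)
  -- ρ as a hom on units
  let ra : GL κ F := Units.map ρ.toMonoidHom a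
  have hra : (ra : Matrix κ κ F) = ρ (a : Matrix (Fin m) (Fin m) F) := rfl
  have hra' : ((ra⁻¹ : GL κ F) : Matrix κ κ F) = ρ ((a⁻¹ : GL (Fin m) F) : Matrix (Fin m) (Fin m) F) := rfl
  refine ⟨a, ra⁻¹ * g, ?_, ?_⟩
  · intro x
    have h1 : Wr.conjA (ra⁻¹ * g) (ρ x) = ρ x := by
      rw [conjA_mul]
      have h2 : Wr.conjA g (ρ x) = ρ (A x) := (hA x).symm
      have h3 : A x = (a : Matrix (Fin m) (Fin m) F) * x * ((a⁻¹ : GL (Fin m) F) : Matrix (Fin m) (Fin m) F) := ha x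
      have h4 : ρ (A x) = Wr.conjA ra (ρ x) := by
        rw [h3, map_mul, map_mul, conjA_apply, hra, hra']
      rw [h2, h4, conjA_inv]
    exact (commute_of_conjA h1).symm
  · rw [← hra, ← Units.val_mul, mul_inv_cancel_left]

end Conj

end Cfsg.Agent.H873.Wr
end

-- part: H873/WrIso
section
/-!
Isolation lemmas and rank lemmas for `GE M ρ`.
-/

set_option autoImplicit false
set_option linter.unusedSectionVars false

namespace Cfsg.Agent.H873.Wr

open Matrix

variable {κ : Type} [Fintype κ] [DecidableEq κ] [Nonempty κ] {F : Type*} [Field F] {m : ℕ}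

section

variable {M : Subgroup (GL κ F)} {ρ ρ' : Matrix (Fin m) (Fin m) F →ₐ[F] Matrix κ κ F}

/-- `1 + Y ∈ M` trivial on `f ⊗ W` and on the quotient by `ker ε ⊗ W` lies in the image of `ρ`. -/
theorem GE.block (h : GE M ρ) (hm : 3 ≤ m) {f ε : Fin m → F} (hεf : ε ⬝ᵥ f = 1) {Y : Matrix κ κ F}
    (hY : InM M Y) (h1 : ∀ γ, Y * rk ρ f γ = 0) (h2 : ∀ g, rk ρ g ε * Y = 0) : ∃ A, ρ A = Y := by
  have hε0 : ε ≠ 0 := by rintro rfl; rw [zero_dotProduct] at hεf; exact zero_ne_one hεf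
  apply mem_range_of_co
  have hco0 : ∀ α, co ρ α f Y = 0 := by
    intro α
    simp only [co, mul_assoc, h1, mul_zero, Finset.sum_const_zero]
  have key : ∀ α b, ε ⬝ᵥ b = 0 → ∃ c : F, co ρ α b Y = c • (1 : Matrix κ κ F) := by
    intro α b hb
    have hZ : InM M (Y * rk ρ b ε) := (h.root hb).comm_l hY (rk_sq hb) (h2 b)
    obtain ⟨g, hg0, hαg, hεg⟩ := exists_two' (α := α) (β := ε) hm
    have hX := (h.root hαg).comm_r hZ (rk_sq hαg) (by
      rw [mul_assoc, rk_mul_rk, hεg, zero_smul, mul_zero])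
    rw [← mul_assoc] at hX
    exact h.co_scalar hg0 hε0 hεg hX
  intro α b
  obtain ⟨c, hc⟩ := key α (b - (ε ⬝ᵥ b) • f) (by
    rw [dotProduct_sub, dotProduct_smul, hεf, smul_eq_mul, mul_one, sub_self])
  refine ⟨c, ?_⟩
  have h3 : co ρ α b Y = co ρ α (b - (ε ⬝ᵥ b) • f) Y + (ε ⬝ᵥ b) • co ρ α f Y := by
    rw [← co_smul_right, ← co_add_right, sub_add_cancel]
  rw [h3, hco0, smul_zero, add_zero, hc]

theorem co_map (A B : Matrix (Fin m) (Fin m) F) (α b : Fin m → F) (Y : Matrix κ κ F) :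
    co ρ α b (ρ A * Y * ρ B) = co ρ (α ᵥ* A) (B *ᵥ b) Y := by
  simp only [co]
  refine Finset.sum_congr rfl fun j _ => ?_
  rw [← rk_mul_map, ← map_mul_rk]
  simp only [mul_assoc]

/-- `1 + Y ∈ M` with `Y ∈ ρ(A) R ρ(B)`, `B A = 0`, lies in the image of `ρ`. -/
theorem GE.pz (h : GE M ρ) (hm : 3 ≤ m) {A B : Matrix (Fin m) (Fin m) F} (hBA : B * A = 0)
    {Y Y₀ : Matrix κ κ F} (hY : InM M Y) (hYe : Y = ρ A * Y₀ * ρ B) : ∃ C, ρ C = Y := by
  apply mem_range_of_co
  intro α b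
  have hYb : ∀ a γ, B *ᵥ a = 0 → Y * rk ρ a γ = 0 := by
    intro a γ ha
    rw [hYe, mul_assoc, map_mul_rk, ha, rk_zero_left, mul_zero]
  have hYa : ∀ g β, β ᵥ* A = 0 → rk ρ g β * Y = 0 := by
    intro g β hβ
    rw [hYe, ← mul_assoc, ← mul_assoc, rk_mul_map, hβ, rk_zero_right, zero_mul, zero_mul]
  by_cases hc : ∃ a : Fin m → F, a ≠ 0 ∧ B *ᵥ a = 0 ∧ α ⬝ᵥ a = 0
  · obtain ⟨a, ha0, hBa, hαa⟩ := hc
    obtain ⟨β, hβ0, hβa, hβb⟩ := exists_two (a := a) (b := b) hm
    have h1 : InM M (rk ρ a α * Y) := (h.root hαa).comm_r hY (rk_sq hαa) (hYb _ _ hBa)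
    have h2 : InM M (rk ρ a α * Y * rk ρ b β) := (h.root hβb).comm_l h1 (rk_sq hβb) (by
      rw [← mul_assoc, rk_mul_rk, hβa, zero_smul, zero_mul])
    exact h.co_scalar ha0 hβ0 hβa h2
  · push Not at hc
    by_cases hA : A = 0
    · refine ⟨0, ?_⟩
      rw [hYe, hA, map_zero, zero_mul, zero_mul, zero_smul]
      simp [co]
    · obtain ⟨u, hu⟩ : ∃ u, A *ᵥ u ≠ 0 := by
        by_contra hcon
        push Not at hcon
        apply hA
        ext i j
        have := congrFun (hcon (Pi.single j 1)) i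
        simpa using this
      have hBu : ∀ v, B *ᵥ (A *ᵥ v) = 0 := fun v => by rw [mulVec_mulVec, hBA, zero_mulVec]
      have hαu : α ⬝ᵥ (A *ᵥ u) ≠ 0 := hc _ hu (hBu u)
      obtain ⟨β, hβ0, hβa, hβb⟩ := exists_two (a := A *ᵥ u) (b := b) hm
      have hβA : β ᵥ* A = 0 := by
        have h1 : ∀ v, (β ᵥ* A) ⬝ᵥ v = 0 := by
          intro v
          rw [← dotProduct_mulVec]
          have h2 : A *ᵥ v - (α ⬝ᵥ (A *ᵥ v) * (α ⬝ᵥ (A *ᵥ u))⁻¹) • (A *ᵥ u) = 0 := by
            by_contra h3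
            apply hc _ h3
            · rw [mulVec_sub, mulVec_smul, hBu, hBu, smul_zero, sub_zero]
            · rw [dotProduct_sub, dotProduct_smul, smul_eq_mul, mul_assoc, inv_mul_cancel₀ hαu, mul_one, sub_self]
          rw [sub_eq_zero.1 h2, dotProduct_smul, hβa, smul_zero]
        ext j
        have := h1 (Pi.single j 1)
        simpa using this
      have h1 : InM M (Y * rk ρ b β) := (h.root hβb).comm_l hY (rk_sq hβb) (hYa _ _ hβA)
      obtain ⟨a, ha0, hαa, hβa'⟩ := exists_two' (α := α) (β := β) hm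
      have h2 : InM M (rk ρ a α * (Y * rk ρ b β)) := (h.root hαa).comm_r h1 (rk_sq hαa) (by
        rw [mul_assoc, rk_mul_rk, hβa', zero_smul, mul_zero])
      rw [← mul_assoc] at h2
      exact h.co_scalar ha0 hβ0 hβa' h2

end

/-! ### rank -/

section Rank

variable {ρ ρ' : Matrix (Fin m) (Fin m) F →ₐ[F] Matrix κ κ F}

theorem rank_conjA (g : GL κ F) (X : Matrix κ κ F) : (conjA g X).rank = X.rank := by
  rw [conjA_apply, rank_mul_eq_left_of_isUnit_det _ _ ((isUnit_iff_isUnit_det _).1 (Units.isUnit _)),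
    rank_mul_eq_right_of_isUnit_det _ _ ((isUnit_iff_isUnit_det _).1 (Units.isUnit _))]

theorem rank_rk_le {a α b β : Fin m → F} (ha : a ≠ 0) (hα : α ≠ 0) :
    (rk ρ b β).rank ≤ (rk ρ a α).rank := by
  obtain ⟨a', ha'⟩ := exists_dot_one' ha
  obtain ⟨α', hα'⟩ := exists_dot_one hα
  have : rk ρ b β = rk ρ b a' * rk ρ a α * rk ρ α' β := by
    rw [rk_mul_rk, ha', one_smul, rk_mul_rk, hα', one_smul]
  rw [this]
  exact (rank_mul_le_left _ _).trans (rank_mul_le_right _ _)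

theorem rank_rk_eq {a α b β : Fin m → F} (ha : a ≠ 0) (hα : α ≠ 0) (hb : b ≠ 0) (hβ : β ≠ 0) :
    (rk ρ a α).rank = (rk ρ b β).rank :=
  le_antisymm (rank_rk_le hb hβ) (rank_rk_le ha hα)

theorem rank_rk_pos {a α : Fin m → F} (ha : a ≠ 0) (hα : α ≠ 0) : 0 < (rk ρ a α).rank := by
  rw [Nat.pos_iff_ne_zero]
  intro h
  have h1 : LinearMap.range (rk ρ a α).mulVecLin = ⊥ := Submodule.finrank_eq_zero.1 h
  rw [LinearMap.range_eq_bot] at h1
  apply rk_ne_zero ρ ha hα
  apply Matrix.ext_of_mulVec_single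
  intro i
  rw [zero_mulVec]
  exact LinearMap.congr_fun h1 _

/-- if `rank X ≤ rank (X * Z)` then `T (X Z) = 0` implies `T X = 0` -/
theorem mul_eq_zero_of_rank {X Z T : Matrix κ κ F} (h : X.rank ≤ (X * Z).rank) (hT : T * (X * Z) = 0) :
    T * X = 0 := by
  have h1 : LinearMap.range (X * Z).mulVecLin ≤ LinearMap.range X.mulVecLin := by
    rw [mulVecLin_mul]
    exact LinearMap.range_comp_le_range _ _
  have h2 := Submodule.eq_of_le_of_finrank_le h1 h
  apply Matrix.ext_of_mulVec_single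
  intro i
  rw [zero_mulVec, ← mulVec_mulVec]
  have h3 : X *ᵥ Pi.single i 1 ∈ LinearMap.range (X * Z).mulVecLin := by
    rw [h2]
    exact ⟨_, rfl⟩
  obtain ⟨v, hv⟩ := h3
  rw [mulVecLin_apply] at hv
  rw [← hv, mulVec_mulVec, hT, zero_mulVec]

/-- The rank lemma: `x = ρ(a) r` with `rank (x - 1) ≤ rank (rk)` and `a` not scalar forces `r` scalar. -/
theorem scalar_of_rank_le (hm : 3 ≤ m) {w : ℕ} (hw : ∀ a α, a ≠ 0 → α ≠ 0 → w ≤ (rk ρ a α).rank)
    {A : Matrix (Fin m) (Fin m) F} {r : GL κ F} (hr : Cen ρ (r : Matrix κ κ F))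
    (hrank : (ρ A * (r : Matrix κ κ F) - 1).rank ≤ w) (hA : ¬ ∃ c : F, A = c • (1 : Matrix (Fin m) (Fin m) F)) :
    ∃ c : F, (r : Matrix κ κ F) = c • (1 : Matrix κ κ F) := by
  -- a vector not mapped to a multiple
  have h1 : ∃ e φ : Fin m → F, φ ⬝ᵥ e = 0 ∧ φ ⬝ᵥ (A *ᵥ e) ≠ 0 := by
    by_contra hcon
    push Not at hcon
    apply hA
    have h1 : ∀ i j, i ≠ j → A i j = 0 := by
      intro i j hij
      have h2 := hcon (Pi.single j 1) (Pi.single i 1) (by simp [hij.symm])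
      simpa using h2
    have h3 : ∀ i j, A i i = A j j := by
      intro i j
      by_cases hij : i = j
      · rw [hij]
      have h2 := hcon (Pi.single i 1 + Pi.single j 1) (Pi.single i 1 - Pi.single j 1) (by
        simp [dotProduct_add, hij, Ne.symm hij])
      simp [sub_dotProduct, mulVec_add, dotProduct_add, h1 i j hij, h1 j i (Ne.symm hij)] at h2
      linear_combination h2
    have hm0 : 0 < m := by omega
    refine ⟨A ⟨0, hm0⟩ ⟨0, hm0⟩, ?_⟩
    ext i j
    by_cases hij : i = j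
    · subst hij; simp [h3 i ⟨0, hm0⟩]
    · simp [h1 i j hij, hij]
  obtain ⟨e, φ, hφe, hφA⟩ := h1
  have he : e ≠ 0 := by rintro rfl; simp at hφA
  obtain ⟨ε, hε⟩ := exists_dot_one' he
  have hε0 : ε ≠ 0 := by rintro rfl; simp at hε
  set X := ρ A * (r : Matrix κ κ F) - 1 with hX
  have hgen : ∀ g χ : Fin m → F, rk ρ g χ * (X * rk ρ e ε) =
      (χ ⬝ᵥ (A *ᵥ e)) • (rk ρ g ε * (r : Matrix κ κ F)) - (χ ⬝ᵥ e) • rk ρ g ε := by
    intro g χ
    rw [hX, sub_mul, one_mul, mul_sub, rk_mul_rk, mul_assoc, ← hr.rk, ← mul_assoc (ρ A), map_mul_rk,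
      ← mul_assoc, rk_mul_rk, smul_mul_assoc]
  have hr1 : w ≤ (X * rk ρ e ε).rank := by
    have h2 := hgen e φ
    rw [hφe, zero_smul, sub_zero] at h2
    have h3 : rk ρ e ε = (φ ⬝ᵥ (A *ᵥ e))⁻¹ • (rk ρ e φ * (X * rk ρ e ε)) * ((r⁻¹ : GL κ F) : Matrix κ κ F) := by
      rw [h2, smul_smul, inv_mul_cancel₀ hφA, one_smul, mul_assoc, Units.mul_inv, mul_one]
    calc w ≤ (rk ρ e ε).rank := hw _ _ he hε0
      _ ≤ ((φ ⬝ᵥ (A *ᵥ e))⁻¹ • (rk ρ e φ * (X * rk ρ e ε))).rank := by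
          conv_lhs => rw [h3]
          exact rank_mul_le_left _ _
      _ ≤ (X * rk ρ e ε).rank := by
          rw [← smul_mul_assoc]
          exact rank_mul_le_right _ _
  obtain ⟨χ, hχ0, hχe, hχA⟩ := exists_two (a := e) (b := A *ᵥ e) hm
  have h4 : rk ρ e χ * X = 0 := by
    apply mul_eq_zero_of_rank (hrank.trans hr1)
    rw [hgen, hχe, hχA, zero_smul, zero_smul, sub_zero]
  obtain ⟨b, hb⟩ := exists_dot_one hχ0
  have h5 : rk ρ e ε * ((χ ⬝ᵥ (A *ᵥ b)) • (r : Matrix κ κ F) - 1) = 0 := by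
    have h6 : rk ρ e χ * X * rk ρ b ε = 0 := by rw [h4, zero_mul]
    rw [hX, mul_sub, mul_one, sub_mul, rk_mul_rk, hb, one_smul, ← mul_assoc, rk_mul_map, mul_assoc,
      ← hr.rk, ← mul_assoc, rk_mul_rk, ← dotProduct_mulVec, smul_mul_assoc] at h6
    rw [mul_sub, mul_one, mul_smul_comm]
    exact h6
  have h6 := Cen.eq_zero (ρ := ρ) (Cen.sub (Cen.smul _ hr) (cen_one ρ)) he hε0 h5
  have h7 : χ ⬝ᵥ (A *ᵥ b) ≠ 0 := by
    intro h8
    rw [h8, zero_smul, zero_sub, neg_eq_zero] at h6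
    exact one_ne_zero h6
  refine ⟨(χ ⬝ᵥ (A *ᵥ b))⁻¹, ?_⟩
  rw [← sub_eq_zero.1 h6, smul_smul, inv_mul_cancel₀ h7, one_smul]

/-- an element of the image of `ρ` of rank at most that of a rank one element is of rank one -/
theorem exists_vecMulVec_of_rank_le {w : ℕ} (hw : ∀ a α, a ≠ 0 → α ≠ 0 → w ≤ (rk ρ a α).rank)
    {A : Matrix (Fin m) (Fin m) F} (h : (ρ A).rank ≤ w) : ∃ a α, A = vecMulVec a α := by
  by_cases hA : A = 0
  · exact ⟨0, 0, by rw [hA, zero_vecMulVec]⟩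
  obtain ⟨b, hb⟩ : ∃ u, A *ᵥ u ≠ 0 := by
    by_contra hcon
    push Not at hcon
    apply hA
    ext i j
    have := congrFun (hcon (Pi.single j 1)) i
    simpa using this
  obtain ⟨ε, hε⟩ := exists_dot_one' hb
  have hε0 : ε ≠ 0 := by rintro rfl; simp at hε
  have h1 : ∀ χ : Fin m → F, χ ⬝ᵥ (A *ᵥ b) = 0 → χ ᵥ* A = 0 := by
    intro χ hχ
    have h2 : rk ρ (A *ᵥ b) χ * ρ A = 0 := by
      apply mul_eq_zero_of_rank (Z := rk ρ b ε)
      · rw [map_mul_rk]
        exact h.trans (hw _ _ hb hε0)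
      · rw [map_mul_rk, rk_mul_rk, hχ, zero_smul]
    rw [rk_mul_map] at h2
    exact (rk_eq_zero ρ h2).resolve_left hb
  refine ⟨A *ᵥ b, ε ᵥ* A, ?_⟩
  ext i j
  have h2 := h1 (Pi.single i 1 - (A *ᵥ b) i • ε) (by
    rw [sub_dotProduct, smul_dotProduct, hε, single_dotProduct]; simp)
  have h3 := congrFun h2 j
  rw [sub_vecMul, smul_vecMul, Pi.sub_apply, Pi.smul_apply] at h3
  simp at h3
  rw [vecMulVec_apply]
  exact sub_eq_zero.1 h3

end Rank

end Cfsg.Agent.H873.Wr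
end

-- part: H873/WrRG
section
/-!
The group `RG N Y` generated by `1 + c N`, `1 + c Y` (`N² = Y² = 0`); it is a `p`-group if `N Y + Y N` is nilpotent.
-/

set_option autoImplicit false
set_option linter.unusedSectionVars false

namespace Cfsg.Agent.H873.Wr

open Matrix

variable {κ : Type} [Fintype κ] [DecidableEq κ] {F : Type*} [Field F]

/-- generators of `RG` -/
def RGS (N Y : Matrix κ κ F) : Set (GL κ F) :=
  {g | ∃ c : F, (g : Matrix κ κ F) = 1 + c • N ∨ (g : Matrix κ κ F) = 1 + c • Y}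

/-- the group generated by `1 + c N`, `1 + c Y` -/
def RG (N Y : Matrix κ κ F) : Subgroup (GL κ F) := Subgroup.closure (RGS N Y)

/-- `1 + X` as a unit when `X² = 0` -/
def un (X : Matrix κ κ F) (h : X * X = 0) : GL κ F where
  val := 1 + X
  inv := 1 - X
  val_inv := by
    have : (1 + X) * (1 - X) = 1 - X * X := by noncomm_ring
    rw [this, h, sub_zero]
  inv_val := by
    have : (1 - X) * (1 + X) = 1 - X * X := by noncomm_ring
    rw [this, h, sub_zero]

theorem coe_un (X : Matrix κ κ F) (h : X * X = 0) : (un X h : Matrix κ κ F) = 1 + X := rfl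

theorem coe_un_inv (X : Matrix κ κ F) (h : X * X = 0) : ((un X h)⁻¹ : GL κ F) = un (-X) (by rw [neg_mul_neg, h]) := by
  apply Units.ext
  change 1 - X = 1 + -X
  rw [sub_eq_add_neg]

theorem smul_sq {X : Matrix κ κ F} (h : X * X = 0) (c : F) : (c • X) * (c • X) = 0 := by
  rw [smul_mul_smul_comm, h, smul_zero]

theorem inM_iff_un {M : Subgroup (GL κ F)} {X : Matrix κ κ F} (h : X * X = 0) : InM M X ↔ un X h ∈ M := by
  constructor
  · rintro ⟨g, hg, he⟩
    have : g = un X h := Units.ext (by rw [he, coe_un])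
    rwa [← this]
  · intro hg
    exact ⟨_, hg, rfl⟩

theorem un_mem_RG_left {N Y : Matrix κ κ F} (h : N * N = 0) (c : F) : un (c • N) (smul_sq h c) ∈ RG N Y :=
  Subgroup.subset_closure ⟨c, Or.inl rfl⟩

theorem un_mem_RG_right {N Y : Matrix κ κ F} (h : Y * Y = 0) (c : F) : un (c • Y) (smul_sq h c) ∈ RG N Y :=
  Subgroup.subset_closure ⟨c, Or.inr rfl⟩

theorem RG_le {N Y : Matrix κ κ F} {M : Subgroup (GL κ F)} (hN : ∀ c : F, InM M (c • N))
    (hY : ∀ c : F, InM M (c • Y)) : RG N Y ≤ M := by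
  unfold RG
  rw [Subgroup.closure_le]
  rintro g ⟨c, hg | hg⟩
  · obtain ⟨x, hx, he⟩ := hN c
    have : g = x := Units.ext (by rw [hg, he])
    rw [this]; exact hx
  · obtain ⟨x, hx, he⟩ := hY c
    have : g = x := Units.ext (by rw [hg, he])
    rw [this]; exact hx

theorem RG_inM_left (N Y : Matrix κ κ F) (h : N * N = 0) (c : F) : InM (RG N Y) (c • N) :=
  ⟨_, un_mem_RG_left h c, rfl⟩

theorem RG_inM_right (N Y : Matrix κ κ F) (h : Y * Y = 0) (c : F) : InM (RG N Y) (c • Y) :=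
  ⟨_, un_mem_RG_right h c, rfl⟩

/-- elements of `RG N Y` commute with everything commuting with `N` and `Y` -/
theorem RG_commute {N Y X : Matrix κ κ F} (hN : Commute N X) (hY : Commute Y X) {g : GL κ F}
    (hg : g ∈ RG N Y) : Commute (g : Matrix κ κ F) X := by
  induction hg using Subgroup.closure_induction with
  | mem g hg =>
    obtain ⟨c, hg | hg⟩ := hg
    · rw [hg]; exact (Commute.one_left _).add_left (hN.smul_left c)
    · rw [hg]; exact (Commute.one_left _).add_left (hY.smul_left c)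
  | one => exact Commute.one_left _
  | mul x y _ _ hx hy => rw [Units.val_mul]; exact hx.mul_left hy
  | inv x _ hx => exact hx.units_inv_left

theorem comm_theta {N Y : Matrix κ κ F} (hN : N * N = 0) (hY : Y * Y = 0) :
    Commute N (N * Y + Y * N) ∧ Commute Y (N * Y + Y * N) := by
  constructor
  · unfold Commute SemiconjBy
    rw [mul_add, add_mul, ← mul_assoc, hN, zero_mul, zero_add, mul_assoc Y, hN, mul_zero, add_zero, mul_assoc]
  · unfold Commute SemiconjBy
    rw [mul_add, add_mul, ← mul_assoc Y Y, hY, zero_mul, add_zero, mul_assoc N, hY, mul_zero, zero_add, mul_assoc]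

section PGroup

variable [Fintype F] {p : ℕ} [hp : Fact p.Prime] [CharP F p]

/-- `g` acts trivially on the factors of the chain `V ⊇ NV + YV ⊇ NYV + YNV ⊇ θV`. -/
def Chain (N Y : Matrix κ κ F) (g : Matrix κ κ F) : Prop :=
  (∀ v, (g - 1) *ᵥ v ∈ LinearMap.range N.mulVecLin ⊔ LinearMap.range Y.mulVecLin) ∧
  (∀ v ∈ LinearMap.range N.mulVecLin ⊔ LinearMap.range Y.mulVecLin,
    (g - 1) *ᵥ v ∈ LinearMap.range (N * Y).mulVecLin ⊔ LinearMap.range (Y * N).mulVecLin) ∧
  (∀ v ∈ LinearMap.range (N * Y).mulVecLin ⊔ LinearMap.range (Y * N).mulVecLin,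
    (g - 1) *ᵥ v ∈ LinearMap.range (N * Y + Y * N).mulVecLin)

theorem chain_mul {N Y g h : Matrix κ κ F} (hg : Chain N Y g) (hh : Chain N Y h) : Chain N Y (g * h) := by
  have key : ∀ v, (g * h - 1) *ᵥ v = (g - 1) *ᵥ (v + (h - 1) *ᵥ v) + (h - 1) *ᵥ v := by
    intro v
    have : g * h - 1 = (g - 1) * (1 + (h - 1)) + (h - 1) := by noncomm_ring
    rw [this, add_mulVec, ← mulVec_mulVec, add_mulVec, one_mulVec]
  have h21 : LinearMap.range (N * Y).mulVecLin ⊔ LinearMap.range (Y * N).mulVecLin ≤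
      LinearMap.range N.mulVecLin ⊔ LinearMap.range Y.mulVecLin := by
    rw [mulVecLin_mul, mulVecLin_mul]
    exact sup_le_sup (LinearMap.range_comp_le_range _ _) (LinearMap.range_comp_le_range _ _)
  have h32 : LinearMap.range (N * Y + Y * N).mulVecLin ≤
      LinearMap.range (N * Y).mulVecLin ⊔ LinearMap.range (Y * N).mulVecLin := by
    rintro _ ⟨v, rfl⟩
    rw [mulVecLin_apply, add_mulVec]
    exact Submodule.add_mem_sup ⟨v, rfl⟩ ⟨v, rfl⟩
  refine ⟨fun v => ?_, fun v hv => ?_, fun v hv => ?_⟩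
  · rw [key]
    exact Submodule.add_mem _ (hg.1 _) (hh.1 _)
  · rw [key]
    exact Submodule.add_mem _ (hg.2.1 _ (Submodule.add_mem _ hv (h21 (hh.2.1 v hv)))) (hh.2.1 v hv)
  · rw [key]
    exact Submodule.add_mem _ (hg.2.2 _ (Submodule.add_mem _ hv (h32 (hh.2.2 v hv)))) (hh.2.2 v hv)

theorem chain_one (N Y : Matrix κ κ F) : Chain N Y (1 : Matrix κ κ F) := by
  refine ⟨fun v => ?_, fun v _ => ?_, fun v _ => ?_⟩ <;>
  · rw [sub_self, zero_mulVec]; exact Submodule.zero_mem _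

theorem chain_left {N Y : Matrix κ κ F} (hN : N * N = 0) (c : F) : Chain N Y (1 + c • N) := by
  have e : (1 + c • N) - 1 = c • N := by abel
  refine ⟨fun v => ?_, fun v hv => ?_, fun v hv => ?_⟩
  · rw [e, smul_mulVec]
    exact Submodule.smul_mem _ _ (Submodule.mem_sup_left ⟨v, rfl⟩)
  · rw [e, smul_mulVec]
    apply Submodule.smul_mem
    obtain ⟨_, ⟨a, rfl⟩, _, ⟨b, rfl⟩, rfl⟩ := Submodule.mem_sup.1 hv
    rw [mulVecLin_apply, mulVecLin_apply, mulVec_add, mulVec_mulVec, hN, zero_mulVec, zero_add, mulVec_mulVec]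
    exact Submodule.mem_sup_left ⟨b, rfl⟩
  · rw [e, smul_mulVec]
    apply Submodule.smul_mem
    obtain ⟨_, ⟨a, rfl⟩, _, ⟨b, rfl⟩, rfl⟩ := Submodule.mem_sup.1 hv
    rw [mulVecLin_apply, mulVecLin_apply, mulVec_add, mulVec_mulVec, ← mul_assoc, hN, zero_mul, zero_mulVec,
      zero_add, mulVec_mulVec]
    refine ⟨N *ᵥ b, ?_⟩
    rw [mulVecLin_apply, mulVec_mulVec, add_mul, mul_assoc Y, hN, mul_zero, add_zero, mul_assoc]

theorem chain_right {N Y : Matrix κ κ F} (hY : Y * Y = 0) (c : F) : Chain N Y (1 + c • Y) := by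
  have h := chain_left (N := Y) (Y := N) hY c
  obtain ⟨h1, h2, h3⟩ := h
  refine ⟨fun v => ?_, fun v hv => ?_, fun v hv => ?_⟩
  · rw [sup_comm]; exact h1 v
  · rw [sup_comm]; rw [sup_comm] at hv; exact h2 v hv
  · rw [add_comm]; rw [sup_comm] at hv; exact h3 v hv

theorem chain_RG {N Y : Matrix κ κ F} (hN : N * N = 0) (hY : Y * Y = 0) {g : GL κ F} (hg : g ∈ RG N Y) :
    Chain N Y (g : Matrix κ κ F) := by
  induction hg using Subgroup.closure_induction with
  | mem g hg =>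
    obtain ⟨c, hg | hg⟩ := hg
    · rw [hg]; exact chain_left hN c
    · rw [hg]; exact chain_right hY c
  | one => exact chain_one N Y
  | mul x y _ _ hx hy => rw [Units.val_mul]; exact chain_mul hx hy
  | inv x _ hx =>
    have h1 : ∀ n : ℕ, Chain N Y ((x ^ n : GL κ F) : Matrix κ κ F) := by
      intro n
      induction n with
      | zero => rw [pow_zero]; exact chain_one N Y
      | succ n ih => rw [pow_succ, Units.val_mul]; exact chain_mul ih hx
    have h2 : x⁻¹ = x ^ (orderOf x - 1) := by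
      have h3 : 0 < orderOf x := orderOf_pos x
      rw [inv_eq_iff_mul_eq_one, ← pow_succ', Nat.sub_add_cancel h3, pow_orderOf_eq_one]
    rw [h2]
    exact h1 _

theorem sub_one_pow_eq_zero {N Y : Matrix κ κ F} (hN : N * N = 0) (hY : Y * Y = 0) {k : ℕ}
    (hk : (N * Y + Y * N) ^ k = 0) {g : GL κ F} (hg : g ∈ RG N Y) :
    ((g : Matrix κ κ F) - 1) ^ (3 * k) = 0 := by
  have hc := chain_RG hN hY hg
  have hcom : Commute ((g : Matrix κ κ F) - 1) (N * Y + Y * N) :=
    (RG_commute (comm_theta hN hY).1 (comm_theta hN hY).2 hg).sub_left (Commute.one_left _)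
  have h3 : ∀ v, ((g : Matrix κ κ F) - 1) ^ 3 *ᵥ v ∈ LinearMap.range (N * Y + Y * N).mulVecLin := by
    intro v
    have : ((g : Matrix κ κ F) - 1) ^ 3 *ᵥ v = ((g : Matrix κ κ F) - 1) *ᵥ (((g : Matrix κ κ F) - 1) *ᵥ
        (((g : Matrix κ κ F) - 1) *ᵥ v)) := by
      rw [mulVec_mulVec, mulVec_mulVec]
      congr 1
      noncomm_ring
    rw [this]
    exact hc.2.2 _ (hc.2.1 _ (hc.1 v))
  have h4 : ∀ j v, ((g : Matrix κ κ F) - 1) ^ (3 * j) *ᵥ v ∈ LinearMap.range ((N * Y + Y * N) ^ j).mulVecLin := by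
    intro j
    induction j with
    | zero =>
      intro v
      exact ⟨v, by simp⟩
    | succ j ih =>
      intro v
      rw [Nat.mul_succ, pow_add ((g : Matrix κ κ F) - 1), ← mulVec_mulVec]
      obtain ⟨u, hu⟩ := h3 v
      rw [← hu, mulVecLin_apply, mulVec_mulVec, ((hcom.pow_left (3 * j))).eq, ← mulVec_mulVec]
      obtain ⟨u', hu'⟩ := ih u
      rw [← hu', mulVecLin_apply, mulVec_mulVec, ← pow_succ']
      exact ⟨u', rfl⟩
  apply Matrix.ext_of_mulVec_single
  intro i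
  obtain ⟨u, hu⟩ := h4 k (Pi.single i 1)
  rw [← hu, hk, mulVecLin_apply, zero_mulVec, zero_mulVec]

include hp in
theorem pow_eq_one_of_nilp {N Y : Matrix κ κ F} (hN : N * N = 0) (hY : Y * Y = 0) {k : ℕ}
    (hk : (N * Y + Y * N) ^ k = 0) {g : GL κ F} (hg : g ∈ RG N Y) :
    (g : Matrix κ κ F) ^ (p ^ (3 * k)) = 1 := by
  have h1 := sub_one_pow_eq_zero hN hY hk hg
  have : CharP (Matrix κ κ F) p ∨ IsEmpty κ := by
    rcases isEmpty_or_nonempty κ with h | h
    · exact Or.inr h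
    · exact Or.inl inferInstance
  rcases this with h | h
  · have h2 : ((g : Matrix κ κ F) - 1) ^ (p ^ (3 * k)) = (g : Matrix κ κ F) ^ (p ^ (3 * k)) - 1 := by
      rw [sub_pow_char_pow_of_commute _ _ (Commute.one_right _), one_pow]
    have h3 : 3 * k ≤ p ^ (3 * k) := (Nat.lt_pow_self hp.out.one_lt).le
    rw [← sub_eq_zero, ← h2, ← Nat.sub_add_cancel h3, pow_add, h1, mul_zero]
  · ext i; exact h.elim i

end PGroup

end Cfsg.Agent.H873.Wr
end

-- part: H873/WrSl2
section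
/-!
Cutting `RG N Y` by an idempotent, and `SL_2` inside it.
-/

set_option autoImplicit false
set_option linter.unusedSectionVars false

namespace Cfsg.Agent.H873.Wr

open Matrix

variable {κ : Type} [Fintype κ] [DecidableEq κ] {F : Type*} [Field F]

/-! ### cutting -/

section Cut

variable {N Y π : Matrix κ κ F}

theorem cut_mul {x y π : Matrix κ κ F} (hπ : π * π = π) (hy : Commute y π) :
    (x * π + (1 - π)) * (y * π + (1 - π)) = x * y * π + (1 - π) := by
  have h1 : x * π * (y * π) = x * y * π := by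
    rw [mul_assoc x π, ← mul_assoc π y, ← hy.eq, mul_assoc y π π, hπ, mul_assoc x y]
  have h2 : x * π * (1 - π) = 0 := by rw [mul_sub, mul_one, mul_assoc, hπ, sub_self]
  have h3 : (1 - π) * (y * π) = 0 := by rw [hy.eq, ← mul_assoc, sub_mul, one_mul, hπ, sub_self, zero_mul]
  have h4 : (1 - π) * (1 - π) = 1 - π := by rw [mul_sub, mul_one, sub_mul, one_mul, hπ, sub_self, sub_zero]
  rw [add_mul, mul_add, mul_add, h1, h2, h3, h4, add_zero, zero_add]

theorem cut_gen {X π : Matrix κ κ F} (c : F) : (1 + c • X) * π + (1 - π) = 1 + c • (X * π) := by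
  rw [add_mul, one_mul, smul_mul_assoc]; abel

theorem inv_of_coe_mul {u v : GL κ F} {X : Matrix κ κ F} (h : (u : Matrix κ κ F) * X = 1) (hv : (v : Matrix κ κ F) = X) :
    v = u⁻¹ := by
  rw [eq_comm, inv_eq_iff_mul_eq_one]
  apply Units.ext
  rw [Units.val_mul, hv, h, Units.val_one]

theorem cut_RG (hπ : π * π = π) (hN : Commute N π) (hY : Commute Y π) {x : GL κ F} (hx : x ∈ RG N Y) :
    ∃ u ∈ RG (N * π) (Y * π), (u : Matrix κ κ F) = (x : Matrix κ κ F) * π + (1 - π) := by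
  induction hx using Subgroup.closure_induction with
  | mem g hg =>
    obtain ⟨c, hg | hg⟩ := hg
    · let u : GL κ F :=
        { val := (g : Matrix κ κ F) * π + (1 - π)
          inv := ((g⁻¹ : GL κ F) : Matrix κ κ F) * π + (1 - π)
          val_inv := by
            have hgc : Commute (g : Matrix κ κ F) π := by
              rw [hg]; exact (Commute.one_left _).add_left (hN.smul_left c)
            rw [cut_mul hπ hgc.units_inv_left, Units.mul_inv, one_mul]; abel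
          inv_val := by
            have hgc : Commute (g : Matrix κ κ F) π := by
              rw [hg]; exact (Commute.one_left _).add_left (hN.smul_left c)
            rw [cut_mul hπ hgc, Units.inv_mul, one_mul]; abel }
      refine ⟨u, Subgroup.subset_closure ⟨c, Or.inl ?_⟩, rfl⟩
      change (g : Matrix κ κ F) * π + (1 - π) = _
      rw [hg, cut_gen]
    · let u : GL κ F :=
        { val := (g : Matrix κ κ F) * π + (1 - π)
          inv := ((g⁻¹ : GL κ F) : Matrix κ κ F) * π + (1 - π)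
          val_inv := by
            have hgc : Commute (g : Matrix κ κ F) π := by
              rw [hg]; exact (Commute.one_left _).add_left (hY.smul_left c)
            rw [cut_mul hπ hgc.units_inv_left, Units.mul_inv, one_mul]; abel
          inv_val := by
            have hgc : Commute (g : Matrix κ κ F) π := by
              rw [hg]; exact (Commute.one_left _).add_left (hY.smul_left c)
            rw [cut_mul hπ hgc, Units.inv_mul, one_mul]; abel }
      refine ⟨u, Subgroup.subset_closure ⟨c, Or.inr ?_⟩, rfl⟩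
      change (g : Matrix κ κ F) * π + (1 - π) = _
      rw [hg, cut_gen]
  | one => exact ⟨1, Subgroup.one_mem _, by rw [Units.val_one, one_mul]; abel⟩
  | mul x y hx' hy' hx hy =>
    obtain ⟨u, hu, he⟩ := hx
    obtain ⟨v, hv, he'⟩ := hy
    refine ⟨u * v, Subgroup.mul_mem _ hu hv, ?_⟩
    rw [Units.val_mul, he, he', Units.val_mul, cut_mul hπ (RG_commute hN hY hy')]
  | inv x hx' hx =>
    obtain ⟨u, hu, he⟩ := hx
    refine ⟨u⁻¹, Subgroup.inv_mem _ hu, ?_⟩
    have h1 : (u : Matrix κ κ F) * (((x⁻¹ : GL κ F) : Matrix κ κ F) * π + (1 - π)) = 1 := by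
      rw [he, cut_mul hπ (RG_commute hN hY hx').units_inv_left, Units.mul_inv, one_mul]; abel
    calc ((u⁻¹ : GL κ F) : Matrix κ κ F)
        = ((u⁻¹ : GL κ F) : Matrix κ κ F) * ((u : Matrix κ κ F) * (((x⁻¹ : GL κ F) : Matrix κ κ F) * π + (1 - π))) := by
          rw [h1, mul_one]
      _ = _ := by rw [← mul_assoc, Units.inv_mul, one_mul]

theorem lift_RG (hNN : N * N = 0) (hYY : Y * Y = 0) (hπ : π * π = π) (hN : Commute N π) (hY : Commute Y π)
    {u : GL κ F} (hu : u ∈ RG (N * π) (Y * π)) :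
    ∃ x ∈ RG N Y, (u : Matrix κ κ F) = (x : Matrix κ κ F) * π + (1 - π) := by
  induction hu using Subgroup.closure_induction with
  | mem g hg =>
    obtain ⟨c, hg | hg⟩ := hg
    · exact ⟨_, un_mem_RG_left hNN c, by rw [coe_un, cut_gen, hg]⟩
    · exact ⟨_, un_mem_RG_right hYY c, by rw [coe_un, cut_gen, hg]⟩
  | one => exact ⟨1, Subgroup.one_mem _, by rw [Units.val_one, one_mul]; abel⟩
  | mul x y hx' hy' hx hy =>
    obtain ⟨u, hu, he⟩ := hx
    obtain ⟨v, hv, he'⟩ := hy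
    refine ⟨u * v, Subgroup.mul_mem _ hu hv, ?_⟩
    rw [Units.val_mul, he, he', Units.val_mul, cut_mul hπ (RG_commute hN hY hv)]
  | inv x hx' hx =>
    obtain ⟨u, hu, he⟩ := hx
    refine ⟨u⁻¹, Subgroup.inv_mem _ hu, ?_⟩
    have h1 : (x : Matrix κ κ F) * (((u⁻¹ : GL κ F) : Matrix κ κ F) * π + (1 - π)) = 1 := by
      rw [he, cut_mul hπ (RG_commute hN hY hu).units_inv_left, Units.mul_inv, one_mul]; abel
    calc ((x⁻¹ : GL κ F) : Matrix κ κ F)
        = ((x⁻¹ : GL κ F) : Matrix κ κ F) * ((x : Matrix κ κ F) * (((u⁻¹ : GL κ F) : Matrix κ κ F) * π + (1 - π))) := by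
          rw [h1, mul_one]
      _ = _ := by rw [← mul_assoc, Units.inv_mul, one_mul]

end Cut

/-! ### `SL_2` -/

/-- an `sl_2`-pair in the corner of the idempotent `π` -/
structure Sl2 (n y π : Matrix κ κ F) : Prop where
  nn : n * n = 0
  yy : y * y = 0
  nyn : n * y * n = n
  yny : y * n * y = y
  s : n * y + y * n = π

section Sl2

variable {n y π : Matrix κ κ F}

/-- the embedding of `M_2(F)` in the corner -/
def io (n y : Matrix κ κ F) (A : Matrix (Fin 2) (Fin 2) F) : Matrix κ κ F :=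
  A 0 0 • (n * y) + A 0 1 • n + A 1 0 • y + A 1 1 • (y * n)

theorem io_mul (h : Sl2 n y π) (A B : Matrix (Fin 2) (Fin 2) F) : io n y A * io n y B = io n y (A * B) := by
  have e1 : n * y * (n * y) = n * y := by rw [← mul_assoc, h.nyn]
  have e2 : n * y * n = n := h.nyn
  have e3 : n * y * y = 0 := by rw [mul_assoc, h.yy, mul_zero]
  have e4 : n * y * (y * n) = 0 := by rw [← mul_assoc, e3, zero_mul]
  have e5 : n * (n * y) = 0 := by rw [← mul_assoc, h.nn, zero_mul]
  have e6 : n * (y * n) = n := by rw [← mul_assoc, h.nyn]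
  have e7 : y * (n * y) = y := by rw [← mul_assoc, h.yny]
  have e8 : y * (y * n) = 0 := by rw [← mul_assoc, h.yy, zero_mul]
  have e9 : y * n * (n * y) = 0 := by rw [mul_assoc, e5, mul_zero]
  have e10 : y * n * n = 0 := by rw [mul_assoc, h.nn, mul_zero]
  have e11 : y * n * y = y := h.yny
  have e12 : y * n * (y * n) = y * n := by rw [← mul_assoc, h.yny]
  simp only [io, add_mul, mul_add, smul_mul_smul_comm, e1, e2, e3, e4, e5, e6, e7, e8, e9, e10, e11, e12,
    h.nn, h.yy, smul_zero, add_zero, zero_add, Matrix.mul_apply, Fin.sum_univ_two]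
  module

theorem io_one (h : Sl2 n y π) : io n y 1 = π := by
  simp [io, h.s]

theorem pi_io (h : Sl2 n y π) (A : Matrix (Fin 2) (Fin 2) F) : π * io n y A = io n y A := by
  rw [← io_one h, io_mul h, one_mul]

theorem io_pi (h : Sl2 n y π) (A : Matrix (Fin 2) (Fin 2) F) : io n y A * π = io n y A := by
  rw [← io_one h, io_mul h, mul_one]

theorem pi_pi (h : Sl2 n y π) : π * π = π := by
  rw [← io_one h, io_mul h, mul_one]

theorem io_e12 (n y : Matrix κ κ F) : io n y !![0, 1; 0, 0] = n := by simp [io]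

theorem io_e21 (n y : Matrix κ κ F) : io n y !![0, 0; 1, 0] = y := by simp [io]

theorem io_smul (n y : Matrix κ κ F) (c : F) (A : Matrix (Fin 2) (Fin 2) F) : io n y (c • A) = c • io n y A := by
  simp only [io, Matrix.smul_apply, smul_eq_mul]
  module

theorem io_add (n y : Matrix κ κ F) (A B : Matrix (Fin 2) (Fin 2) F) : io n y (A + B) = io n y A + io n y B := by
  simp only [io, Matrix.add_apply]
  module

/-- the monoid homomorphism `A ↦ io A + (1 - π)` -/
def J (h : Sl2 n y π) : Matrix (Fin 2) (Fin 2) F →* Matrix κ κ F where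
  toFun A := io n y A + (1 - π)
  map_one' := by rw [io_one h]; abel
  map_mul' A B := by
    have h1 : io n y A * (1 - π) = 0 := by rw [mul_sub, mul_one, io_pi h, sub_self]
    have h2 : (1 - π) * io n y B = 0 := by rw [sub_mul, one_mul, pi_io h, sub_self]
    have h3 : (1 - π) * (1 - π) = 1 - π := by rw [mul_sub, mul_one, sub_mul, one_mul, pi_pi h, sub_self, sub_zero]
    rw [add_mul, mul_add, mul_add, io_mul h, h1, h2, h3, add_zero, zero_add]

theorem J_apply (h : Sl2 n y π) (A : Matrix (Fin 2) (Fin 2) F) : J h A = io n y A + (1 - π) := rfl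

/-- on units -/
def JH (h : Sl2 n y π) : GL (Fin 2) F →* GL κ F := Units.map (J h)

theorem coe_JH (h : Sl2 n y π) (A : GL (Fin 2) F) :
    (JH h A : Matrix κ κ F) = io n y (A : Matrix (Fin 2) (Fin 2) F) + (1 - π) := rfl

theorem JH_conj (h : Sl2 n y π) {z : Matrix κ κ F} (hzn : Commute z n) (hzy : Commute z y)
    (A : GL (Fin 2) F) (B : Matrix (Fin 2) (Fin 2) F) :
    (JH h A : Matrix κ κ F) * (z * io n y B) * ((JH h A)⁻¹ : GL κ F) =
      z * io n y ((A : Matrix (Fin 2) (Fin 2) F) * B * ((A⁻¹ : GL (Fin 2) F) : Matrix (Fin 2) (Fin 2) F)) := by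
  have h1 : ((JH h A)⁻¹ : GL κ F) = JH h A⁻¹ := (map_inv _ _).symm
  have hzio : ∀ C, Commute z (io n y C) := by
    intro C
    simp only [io]
    exact ((((hzn.mul_right hzy).smul_right _).add_right (hzn.smul_right _)).add_right
      (hzy.smul_right _)).add_right ((hzy.mul_right hzn).smul_right _)
  have h2 : ∀ C D, (io n y C + (1 - π)) * io n y D = io n y (C * D) := by
    intro C D
    rw [add_mul, io_mul h, sub_mul, one_mul, pi_io h, sub_self, add_zero]
  have h3 : ∀ C D, io n y C * (io n y D + (1 - π)) = io n y (C * D) := by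
    intro C D
    rw [mul_add, io_mul h, mul_sub, mul_one, io_pi h, sub_self, add_zero]
  have hzJ : Commute z (JH h A : Matrix κ κ F) := by
    rw [coe_JH, ← io_one h]
    exact (hzio _).add_right ((Commute.one_right _).sub_right (hzio _))
  rw [h1, ← mul_assoc, ← hzJ.eq, mul_assoc, mul_assoc, coe_JH, coe_JH, ← mul_assoc (_ + _), h2, h3]

/-- upper unitriangular -/
def up (μ : F) : GL (Fin 2) F where
  val := !![1, μ; 0, 1]
  inv := !![1, -μ; 0, 1]
  val_inv := by ext i j; fin_cases i <;> fin_cases j <;> simp [Matrix.mul_apply, Fin.sum_univ_two]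
  inv_val := by ext i j; fin_cases i <;> fin_cases j <;> simp [Matrix.mul_apply, Fin.sum_univ_two]

/-- lower unitriangular -/
def lo (μ : F) : GL (Fin 2) F where
  val := !![1, 0; μ, 1]
  inv := !![1, 0; -μ, 1]
  val_inv := by ext i j; fin_cases i <;> fin_cases j <;> simp [Matrix.mul_apply, Fin.sum_univ_two]
  inv_val := by ext i j; fin_cases i <;> fin_cases j <;> simp [Matrix.mul_apply, Fin.sum_univ_two]

/-- diagonal -/
def di (a b : F) (ha : a ≠ 0) (hb : b ≠ 0) : GL (Fin 2) F where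
  val := !![a, 0; 0, b]
  inv := !![a⁻¹, 0; 0, b⁻¹]
  val_inv := by ext i j; fin_cases i <;> fin_cases j <;> simp [Matrix.mul_apply, Fin.sum_univ_two, ha, hb]
  inv_val := by ext i j; fin_cases i <;> fin_cases j <;> simp [Matrix.mul_apply, Fin.sum_univ_two, ha, hb]

theorem coe_JH_lo (h : Sl2 n y π) (b : F) : (JH h (lo b) : Matrix κ κ F) = 1 + b • y := by
  rw [coe_JH]
  simp only [lo, io, Matrix.of_apply, Matrix.cons_val', Matrix.cons_val_zero, Matrix.cons_val_one,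
    Matrix.cons_val_fin_one, one_smul, zero_smul, add_zero]
  rw [← h.s]; abel

theorem coe_JH_up (h : Sl2 n y π) (b : F) : (JH h (up b) : Matrix κ κ F) = 1 + b • n := by
  rw [coe_JH]
  simp only [up, io, Matrix.of_apply, Matrix.cons_val', Matrix.cons_val_zero, Matrix.cons_val_one,
    Matrix.cons_val_fin_one, one_smul, zero_smul, add_zero]
  rw [← h.s]; abel

/-- `g` normalises `D`. -/
def Nz (D : Subgroup (GL κ F)) (g : GL κ F) : Prop := ∀ u ∈ D, g * u * g⁻¹ ∈ D

theorem Nz.mul {D : Subgroup (GL κ F)} {g h : GL κ F} (hg : Nz D g) (hh : Nz D h) : Nz D (g * h) := by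
  intro u hu
  have := hg _ (hh u hu)
  have e : g * h * u * (g * h)⁻¹ = g * (h * u * h⁻¹) * g⁻¹ := by group
  rw [e]; exact this

theorem nz_of_mem {D : Subgroup (GL κ F)} {g : GL κ F} (hg : g ∈ D) : Nz D g :=
  fun _ hu => D.mul_mem (D.mul_mem hg hu) (D.inv_mem hg)

theorem nz_RG {N Y : Matrix κ κ F} (hNN : N * N = 0) (hYY : Y * Y = 0) {g : GL κ F} {a b : F}
    (hN : (g : Matrix κ κ F) * N * ((g⁻¹ : GL κ F) : Matrix κ κ F) = a • N)
    (hY : (g : Matrix κ κ F) * Y * ((g⁻¹ : GL κ F) : Matrix κ κ F) = b • Y) : Nz (RG N Y) g := by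
  intro u hu
  induction hu using Subgroup.closure_induction with
  | mem u hu =>
    obtain ⟨c, hu | hu⟩ := hu
    · have : g * u * g⁻¹ = un ((c * a) • N) (smul_sq hNN _) := by
        apply Units.ext
        rw [Units.val_mul, Units.val_mul, hu, coe_un, mul_add, add_mul, mul_one, Units.mul_inv,
          mul_smul_comm, smul_mul_assoc, hN, smul_smul]
      rw [this]; exact un_mem_RG_left hNN _
    · have : g * u * g⁻¹ = un ((c * b) • Y) (smul_sq hYY _) := by
        apply Units.ext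
        rw [Units.val_mul, Units.val_mul, hu, coe_un, mul_add, add_mul, mul_one, Units.mul_inv,
          mul_smul_comm, smul_mul_assoc, hY, smul_smul]
      rw [this]; exact un_mem_RG_right hYY _
  | one => rw [mul_one, mul_inv_cancel]; exact Subgroup.one_mem _
  | mul x y _ _ hx hy =>
    have e : g * (x * y) * g⁻¹ = (g * x * g⁻¹) * (g * y * g⁻¹) := by group
    rw [e]; exact Subgroup.mul_mem _ hx hy
  | inv x _ hx =>
    have e : g * x⁻¹ * g⁻¹ = (g * x * g⁻¹)⁻¹ := by group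
    rw [e]; exact Subgroup.inv_mem _ hx

/-- The key step: if `RG (θ n) (θ n^h) = RG (θ n) y` for all `h = 1 + b y`, then `RG (θ n) y` contains the
torus of `SL_2(F)`. -/
theorem torus_mem (h : Sl2 n y π) {θ : Matrix κ κ F} (hθn : Commute θ n) (hθy : Commute θ y)
    (hF : ∃ c : F, c ≠ 0 ∧ c ≠ 1)
    (hmin : ∀ b : F, b ≠ 0 → RG (θ * n) (θ * io n y !![-b, 1; -b ^ 2, b]) = RG (θ * n) y)
    (c : F) (hc : c ≠ 0) :
    JH h (di c c⁻¹ hc (inv_ne_zero hc)) ∈ RG (θ * n) y := by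
  obtain ⟨d, hd0, hd1⟩ := hF
  set D := RG (θ * n) y with hD
  have hnn : θ * n * (θ * n) = 0 := by
    rw [mul_assoc, ← mul_assoc n θ n, ← hθn.eq, mul_assoc θ n n, h.nn, mul_zero, mul_zero]
  -- diagonal elements normalise
  have hT : ∀ d : F, ∀ hd : d ≠ 0, Nz D (JH h (di 1 d one_ne_zero hd)) := by
    intro d hd
    apply nz_RG (a := d⁻¹) (b := d) hnn h.yy
    · have e := JH_conj h hθn hθy (di 1 d one_ne_zero hd) !![0, 1; 0, 0]
      rw [io_e12] at e
      rw [e]
      have e2 : ((di 1 d one_ne_zero hd : GL (Fin 2) F) : Matrix (Fin 2) (Fin 2) F) * !![0, 1; 0, 0] *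
          (((di 1 d one_ne_zero hd)⁻¹ : GL (Fin 2) F) : Matrix (Fin 2) (Fin 2) F) = d⁻¹ • !![0, 1; 0, 0] := by
        change !![(1 : F), 0; 0, d] * !![0, 1; 0, 0] * !![(1 : F)⁻¹, 0; 0, d⁻¹] = _
        ext i j; fin_cases i <;> fin_cases j <;> simp
      rw [e2, io_smul, io_e12, mul_smul_comm]
    · have e := JH_conj h (Commute.one_left n) (Commute.one_left y) (di 1 d one_ne_zero hd) !![0, 0; 1, 0]
      rw [io_e21, one_mul, one_mul] at e
      rw [e]
      have e2 : ((di 1 d one_ne_zero hd : GL (Fin 2) F) : Matrix (Fin 2) (Fin 2) F) * !![0, 0; 1, 0] *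
          (((di 1 d one_ne_zero hd)⁻¹ : GL (Fin 2) F) : Matrix (Fin 2) (Fin 2) F) = d • !![0, 0; 1, 0] := by
        change !![(1 : F), 0; 0, d] * !![0, 0; 1, 0] * !![(1 : F)⁻¹, 0; 0, d⁻¹] = _
        ext i j; fin_cases i <;> fin_cases j <;> simp
      rw [e2, io_smul, io_e21]
  -- unipotent elements normalise
  have hE : ∀ μ : F, Nz D (JH h (up μ)) := by
    intro μ
    by_cases hμ : μ = 0
    · subst hμ
      have : up (0 : F) = 1 := by
        apply Units.ext
        change !![(1 : F), 0; 0, 1] = 1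
        ext i j; fin_cases i <;> fin_cases j <;> simp
      rw [this, map_one]
      exact nz_of_mem (Subgroup.one_mem _)
    obtain ⟨b, hb, hbe⟩ : ∃ b : F, b ≠ 0 ∧ b * (d * μ) = d - 1 :=
      ⟨(d - 1) * (d * μ)⁻¹, mul_ne_zero (sub_ne_zero.2 hd1) (inv_ne_zero (mul_ne_zero hd0 hμ)), by
        rw [mul_assoc, inv_mul_cancel₀ (mul_ne_zero hd0 hμ), mul_one]⟩
    have hED : Nz D (JH h (up μ * di 1 d one_ne_zero hd0)) := by
      rw [← hmin _ hb]
      have hBB : (θ * io n y !![-b, 1; -b ^ 2, b]) *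
          (θ * io n y !![-b, 1; -b ^ 2, b]) = 0 := by
        have hzio : ∀ C, Commute θ (io n y C) := by
          intro C
          simp only [io]
          exact ((((hθn.mul_right hθy).smul_right _).add_right (hθn.smul_right _)).add_right
            (hθy.smul_right _)).add_right ((hθy.mul_right hθn).smul_right _)
        rw [mul_assoc, ← mul_assoc (io n y _) θ, ← (hzio _).eq, mul_assoc θ (io n y _), io_mul h]
        have : !![-b, 1; -b ^ 2, b] *
            !![-b, 1; -b ^ 2, b] = 0 := by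
          ext i j; fin_cases i <;> fin_cases j <;> simp <;> ring
        rw [this]
        simp [io]
      apply nz_RG (a := d⁻¹) (b := d) hnn hBB
      · have e := JH_conj h hθn hθy (up μ * di 1 d one_ne_zero hd0) !![0, 1; 0, 0]
        rw [io_e12] at e
        rw [e]
        have e2 : ((up μ * di 1 d one_ne_zero hd0 : GL (Fin 2) F) : Matrix (Fin 2) (Fin 2) F) * !![0, 1; 0, 0] *
            (((up μ * di 1 d one_ne_zero hd0)⁻¹ : GL (Fin 2) F) : Matrix (Fin 2) (Fin 2) F) = d⁻¹ • !![0, 1; 0, 0] := by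
          rw [_root_.mul_inv_rev, Units.val_mul, Units.val_mul]
          change (!![(1 : F), μ; 0, 1] * !![(1 : F), 0; 0, d]) * !![0, 1; 0, 0] * (!![(1 : F)⁻¹, 0; 0, d⁻¹] * !![(1 : F), -μ; 0, 1]) = _
          ext i j; fin_cases i <;> fin_cases j <;> simp
        rw [e2, io_smul, io_e12, mul_smul_comm]
      · have e := JH_conj h hθn hθy (up μ * di 1 d one_ne_zero hd0)
          !![-b, 1; -b ^ 2, b]
        rw [e]
        have e2 : ((up μ * di 1 d one_ne_zero hd0 : GL (Fin 2) F) : Matrix (Fin 2) (Fin 2) F) *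
            !![-b, 1; -b ^ 2, b] *
            (((up μ * di 1 d one_ne_zero hd0)⁻¹ : GL (Fin 2) F) : Matrix (Fin 2) (Fin 2) F) =
            d • !![-b, 1; -b ^ 2, b] := by
          rw [_root_.mul_inv_rev, Units.val_mul, Units.val_mul]
          change (!![(1 : F), μ; 0, 1] * !![(1 : F), 0; 0, d]) *
            !![-b, 1; -b ^ 2, b] *
              (!![(1 : F)⁻¹, 0; 0, d⁻¹] * !![(1 : F), -μ; 0, 1]) = _
          have e3 : (!![(1 : F), μ; 0, 1] * !![(1 : F), 0; 0, d]) * !![-b, 1; -b ^ 2, b] *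
              (!![(1 : F)⁻¹, 0; 0, d⁻¹] * !![(1 : F), -μ; 0, 1]) =
              !![-b - μ * d * b ^ 2, (b + μ * d * b ^ 2) * μ + (1 + μ * d * b) * d⁻¹;
                -d * b ^ 2, d * b ^ 2 * μ + d * b * d⁻¹] := by
            ext i j; fin_cases i <;> fin_cases j <;> simp <;> ring
          rw [e3]
          ext i j
          fin_cases i <;> fin_cases j
          · simp; linear_combination -b * hbe
          · simp; field_simp; linear_combination (1 + d * μ * b + d) * hbe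
          · simp
          · simp; field_simp; linear_combination hbe
        rw [e2, io_smul, mul_smul_comm]
    have hTi := hT d⁻¹ (inv_ne_zero hd0)
    have e : JH h (up μ) = JH h (up μ * di 1 d one_ne_zero hd0) * JH h (di 1 d⁻¹ one_ne_zero (inv_ne_zero hd0)) := by
      rw [← map_mul]
      congr 1
      apply Units.ext
      rw [Units.val_mul, Units.val_mul]
      change !![(1 : F), μ; 0, 1] = (!![(1 : F), μ; 0, 1] * !![(1 : F), 0; 0, d]) * !![(1 : F), 0; 0, d⁻¹]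
      ext i j; fin_cases i <;> fin_cases j <;> simp [hd0]
    rw [e]
    exact hED.mul hTi
  have hlo : ∀ b : F, JH h (lo b) ∈ D := fun b => Subgroup.subset_closure ⟨b, Or.inr (coe_JH_lo h b)⟩
  have hup : ∀ b : F, JH h (up b) ∈ D := by
    intro b
    have hw : Nz D (JH h (up 1) * JH h (lo (-1)) * JH h (up 1)) :=
      ((hE 1).mul (nz_of_mem (hlo (-1)))).mul (hE 1)
    have := hw _ (hlo (-b))
    have e : JH h (up 1) * JH h (lo (-1)) * JH h (up 1) * JH h (lo (-b)) *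
        (JH h (up 1) * JH h (lo (-1)) * JH h (up 1))⁻¹ = JH h (up b) := by
      rw [← map_mul, ← map_mul, ← map_inv, ← map_mul, ← map_mul]
      congr 1
      rw [mul_inv_eq_iff_eq_mul]
      apply Units.ext
      simp only [Units.val_mul]
      change !![(1 : F), 1; 0, 1] * !![(1 : F), 0; -1, 1] * !![(1 : F), 1; 0, 1] * !![(1 : F), 0; -b, 1] =
        !![(1 : F), b; 0, 1] * (!![(1 : F), 1; 0, 1] * !![(1 : F), 0; -1, 1] * !![(1 : F), 1; 0, 1])
      ext i j; fin_cases i <;> fin_cases j <;> simp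
    rw [e] at this
    exact this
  have e : di c c⁻¹ hc (inv_ne_zero hc) = up c * lo (-c⁻¹) * up c * (up (-1) * lo 1 * up (-1)) := by
    apply Units.ext
    simp only [Units.val_mul]
    change !![c, 0; 0, c⁻¹] = !![(1 : F), c; 0, 1] * !![(1 : F), 0; -c⁻¹, 1] * !![(1 : F), c; 0, 1] *
      (!![(1 : F), -1; 0, 1] * !![(1 : F), 0; 1, 1] * !![(1 : F), -1; 0, 1])
    ext i j; fin_cases i <;> fin_cases j <;> simp [hc]
  rw [e]
  simp only [map_mul]
  exact D.mul_mem (D.mul_mem (D.mul_mem (hup _) (hlo _)) (hup _)) (D.mul_mem (D.mul_mem (hup _) (hlo _)) (hup _))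

end Sl2

end Cfsg.Agent.H873.Wr
end

-- part: H873/WrPair
section
/-!
The pair theorem for `|F| > 2`: any two members of a class of good embeddings have equal or commuting images.
-/

set_option autoImplicit false
set_option linter.unusedSectionVars false

namespace Cfsg.Agent.H873.Wr

open Matrix

variable {κ : Type} [Fintype κ] [DecidableEq κ] [Nonempty κ] {F : Type*} [Field F] {m : ℕ}

/-- The images of `ρ` and `ρ'` commute. -/
def Comm (ρ ρ' : Matrix (Fin m) (Fin m) F →ₐ[F] Matrix κ κ F) : Prop := ∀ A B, Commute (ρ A) (ρ' B)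

theorem RLe.symm {ρ ρ' : Matrix (Fin m) (Fin m) F →ₐ[F] Matrix κ κ F} (h : RLe ρ ρ') : RLe ρ' ρ := by
  choose θ hθ using h
  have hinj := ρ_injective ρ'
  have hinj' := ρ_injective ρ
  let A0 : Matrix (Fin m) (Fin m) F →ₗ[F] Matrix (Fin m) (Fin m) F :=
      { toFun := θ
        map_add' := fun x y => by
          apply hinj
          rw [map_add, hθ, hθ, hθ, map_add]
        map_smul' := fun c x => by
          apply hinj
          rw [map_smul, hθ, hθ, map_smul]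
          rfl }
  have hA0 : Function.Injective A0 := by
    intro x y hxy
    apply hinj'
    rw [← hθ, ← hθ]
    exact congrArg ρ' hxy
  have hsurj := LinearMap.surjective_of_injective hA0
  intro B
  obtain ⟨A, hA⟩ := hsurj B
  refine ⟨A, ?_⟩
  rw [← hA]
  exact (hθ A).symm

/-- A class of good embeddings, closed under conjugation, such that `p`-pairs are good. -/
structure Frames (M : Subgroup (GL κ F)) (w : ℕ) (G : Set (Matrix (Fin m) (Fin m) F →ₐ[F] Matrix κ κ F)) : Prop where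
  ge : ∀ ρ ∈ G, GE M ρ
  rank : ∀ ρ ∈ G, ∀ a α, a ≠ 0 → α ≠ 0 → (rk ρ a α).rank = w
  conj : ∀ ρ ∈ G, ∀ g ∈ M, cj g ρ ∈ G
  nilp : ∀ ρ ∈ G, ∀ ρ' ∈ G, ∀ e φ e' φ', e ≠ 0 → φ ≠ 0 → φ ⬝ᵥ e = 0 → e' ≠ 0 → φ' ≠ 0 → φ' ⬝ᵥ e' = 0 →
    (∃ k : ℕ, (rk ρ e φ * rk ρ' e' φ' + rk ρ' e' φ' * rk ρ e φ) ^ k = 0) → RLe ρ ρ' ∨ Comm ρ ρ'

section Finite

theorem exists_idempotent_pow {R : Type*} [Monoid R] [Finite R] (x : R) :
    ∃ k : ℕ, 0 < k ∧ x ^ k * x ^ k = x ^ k := by
  obtain ⟨i, j, hij, he⟩ := Finite.exists_ne_map_eq_of_infinite (fun n : ℕ => x ^ n)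
  wlog hlt : i < j generalizing i j
  · exact this j i hij.symm he.symm (lt_of_le_of_ne (not_lt.1 hlt) hij.symm)
  obtain ⟨d, hd⟩ := Nat.exists_eq_add_of_lt hlt
  -- j = i + d + 1
  have h1 : ∀ n a, i ≤ a → x ^ (a + n * (d + 1)) = x ^ a := by
    intro n
    induction n with
    | zero => intro a _; simp
    | succ n ih =>
      intro a ha
      obtain ⟨b, rfl⟩ := Nat.exists_eq_add_of_le ha
      have h2 : i + b + (n + 1) * (d + 1) = (i + d + 1) + (b + n * (d + 1)) := by ring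
      have he' : x ^ i = x ^ j := he
      rw [h2, pow_add, ← hd, ← he', ← pow_add, ← add_assoc, ih (i + b) ha]
  refine ⟨(i + 1) * (d + 1), by positivity, ?_⟩
  rw [← pow_add]
  exact h1 (i + 1) _ (by nlinarith)

end Finite

section Pieces

variable {M : Subgroup (GL κ F)} {ρ ρ' : Matrix (Fin m) (Fin m) F →ₐ[F] Matrix κ κ F}

/-- If `d N π` gives an element of `M` then `N = N π`. -/
theorem GE.full_of_part (h : GE M ρ) (hm : 3 ≤ m) {e φ : Fin m → F} (he : e ≠ 0) (hφ : φ ≠ 0) (hφe : φ ⬝ᵥ e = 0)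
    {π : Matrix κ κ F} (hπ : π * π = π) (hNπ : Commute (rk ρ e φ) π) {d : F} (hd : d ≠ 0)
    (hM : InM M (d • (rk ρ e φ * π))) (h0 : rk ρ e φ * π ≠ 0) : rk ρ e φ * π = rk ρ e φ := by
  obtain ⟨f, hf⟩ := exists_dot_one hφ
  obtain ⟨ψ, -, hψ⟩ := h.col hm he hM (by
    intro γ
    have : rk ρ e γ = rk ρ e φ * rk ρ f γ := by rw [rk_mul_rk, hf, one_smul]
    rw [this, smul_mul_assoc, hNπ.eq, mul_assoc π, ← mul_assoc (rk ρ e φ), rk_mul_rk, hφe, zero_smul, zero_mul,
      mul_zero, smul_zero]) (by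
    intro g γ hγ
    rw [mul_smul_comm, ← mul_assoc, rk_mul_rk, hγ, zero_smul, zero_mul, smul_zero])
  have h1 : rk ρ e φ * π = rk ρ e (d⁻¹ • ψ) := by
    rw [rk_smul_right, ← hψ, smul_smul, inv_mul_cancel₀ hd, one_smul]
  have hψ0 : d⁻¹ • ψ ≠ 0 := by
    intro h2
    rw [h2, rk_zero_right] at h1
    exact h0 h1
  obtain ⟨f', hf'⟩ := exists_dot_one hψ0
  have h2 : rk ρ e φ = π * (rk ρ e φ * rk ρ f' φ) := by
    rw [← mul_assoc, ← hNπ.eq, h1, rk_mul_rk, hf', one_smul]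
  rw [hNπ.eq]
  conv_lhs => rw [h2, ← mul_assoc, hπ]
  exact h2.symm

/-- elements of `M` sharing a root with a scaled root normalise the image -/
theorem GE.normalises (h : GE M ρ) (hm : 3 ≤ m) {g : GL κ F} (hg : g ∈ M) {e φ : Fin m → F} (he : e ≠ 0)
    (hφ : φ ≠ 0) {c : F} (hc : c ≠ 0) (hgN : conjA g (rk ρ e φ) = c • rk ρ e φ) :
    RLe (Wr.cj g ρ) ρ := by
  apply (h.cj hg).range_le h hm he hφ (e' := c • e) (smul_ne_zero hc he) hφ
  rw [rk_cj, hgN, rk_smul_left]

/-- a root lying in the image of another good embedding -/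
theorem GE.rle_of_mem (h : GE M ρ) (h' : GE M ρ') (hm : 3 ≤ m) {w : ℕ} (hw : ∀ a α, a ≠ 0 → α ≠ 0 → (rk ρ a α).rank = w)
    (hw' : ∀ a α, a ≠ 0 → α ≠ 0 → (rk ρ' a α).rank = w) {e φ : Fin m → F} (he : e ≠ 0) (hφ : φ ≠ 0)
    (hmem : ∃ A, ρ' A = rk ρ e φ) : RLe ρ ρ' := by
  obtain ⟨A, hA⟩ := hmem
  obtain ⟨a, α, rfl⟩ := exists_vecMulVec_of_rank_le (ρ := ρ') (w := w) (fun a α ha hα => (hw' a α ha hα).ge)
    (A := A) (by rw [hA, hw e φ he hφ])
  have hne : rk ρ' a α ≠ 0 := by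
    intro h0
    have : rk ρ e φ = 0 := by rw [← hA]; exact h0
    exact rk_ne_zero ρ he hφ this
  have ha : a ≠ 0 := by rintro rfl; exact hne (rk_zero_left _ _)
  have hα : α ≠ 0 := by rintro rfl; exact hne (rk_zero_right _ _)
  exact h.range_le h' hm he hφ ha hα hA.symm

/-- rank is at least additive for separated summands -/
theorem rank_add_of_sep {A B P Q : Matrix κ κ F} (hPA : P * A = A) (hPB : P * B = 0) (hAQ : A * Q = A)
    (hBQ : B * Q = 0) : A.rank + B.rank ≤ (A + B).rank := by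
  have hdisj : Disjoint (LinearMap.range A.mulVecLin) (LinearMap.range B.mulVecLin) := by
    rw [Submodule.disjoint_def]
    rintro _ ⟨a, rfl⟩ ⟨b, hb⟩
    rw [mulVecLin_apply] at hb ⊢
    rw [mulVecLin_apply] at hb
    have h1 : P *ᵥ (A *ᵥ a) = A *ᵥ a := by rw [mulVec_mulVec, hPA]
    rw [← h1, ← hb, mulVec_mulVec, hPB, zero_mulVec]
  have h1 : LinearMap.range A.mulVecLin ⊔ LinearMap.range B.mulVecLin ≤ LinearMap.range (A + B).mulVecLin := by
    refine sup_le ?_ ?_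
    · rintro _ ⟨a, rfl⟩
      refine ⟨Q *ᵥ a, ?_⟩
      rw [mulVecLin_apply, mulVecLin_apply, mulVec_mulVec, add_mul, hAQ, hBQ, add_zero]
    · rintro _ ⟨a, rfl⟩
      refine ⟨(1 - Q) *ᵥ a, ?_⟩
      rw [mulVecLin_apply, mulVecLin_apply, mulVec_mulVec, add_mul, mul_sub, mul_sub, hAQ, hBQ, mul_one, mul_one,
        sub_self, sub_zero, zero_add]
  have h2 := Submodule.finrank_mono h1
  have h3 := Submodule.finrank_sup_add_finrank_inf_eq (LinearMap.range A.mulVecLin) (LinearMap.range B.mulVecLin)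
  rw [hdisj.eq_bot, finrank_bot, add_zero] at h3
  rw [h3] at h2
  exact h2

theorem rank_add_le' (A B : Matrix κ κ F) : (A + B).rank ≤ A.rank + B.rank := by
  have h1 : LinearMap.range (A + B).mulVecLin ≤ LinearMap.range A.mulVecLin ⊔ LinearMap.range B.mulVecLin := by
    rintro _ ⟨v, rfl⟩
    rw [mulVecLin_apply, add_mulVec]
    exact Submodule.add_mem_sup ⟨v, rfl⟩ ⟨v, rfl⟩
  exact (Submodule.finrank_mono h1).trans (Submodule.finrank_add_le_finrank_add_finrank _ _)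

/-- The case where an involution `T = 1 - 2 π` of `M` inverts: `|F| = 3`. -/
theorem GE.mem_range_of_three (h : GE M ρ) (hm : 3 ≤ m) (h3 : (3 : F) = 0) {e φ : Fin m → F} (he : e ≠ 0)
    (hφ : φ ≠ 0) (hφe : φ ⬝ᵥ e = 0) {T : GL κ F} (hT : T ∈ M) {ñ y π Y : Matrix κ κ F} (hs : Sl2 ñ y π)
    (hTπ : (T : Matrix κ κ F) = 1 + π) (hTN : Commute (T : Matrix κ κ F) (rk ρ e φ))
    (hN0 : rk ρ e φ * π ≠ 0) {θ : Matrix κ κ F} (hñ : ∃ X, ñ = rk ρ e φ * π * X) (hNñ : rk ρ e φ * π = θ * ñ)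
    (hYM : InM M Y) (hYc : Commute Y π) (hYy : Y * π = y) (hYw : Y.rank ≤ (rk ρ e φ).rank) : ∃ A, ρ A = Y := by
  have hπN : Commute π (rk ρ e φ) := by
    have : π = (T : Matrix κ κ F) - 1 := by rw [hTπ]; abel
    rw [this]; exact hTN.sub_left (Commute.one_left _)
  have hππ := pi_pi hs
  obtain ⟨a, r, hr, hTar⟩ := exists_factor (by omega : 0 < m)
    (h.normalises hm hT he hφ (c := 1) one_ne_zero (by rw [one_smul]; exact conjA_eq_self hTN))
  -- `a e ⊗ φ = e ⊗ φ a`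
  have h4 : rk ρ ((a : Matrix (Fin m) (Fin m) F) *ᵥ e) φ = rk ρ e (φ ᵥ* (a : Matrix (Fin m) (Fin m) F)) := by
    have h5 := hTN.eq
    rw [hTar, mul_assoc, ← hr.rk, ← mul_assoc, map_mul_rk, ← mul_assoc (rk ρ e φ), rk_mul_map] at h5
    have h6 := congrArg (· * ((r⁻¹ : GL κ F) : Matrix κ κ F)) h5
    simpa [mul_assoc] using h6
  have h4' : vecMulVec ((a : Matrix (Fin m) (Fin m) F) *ᵥ e) φ = vecMulVec e (φ ᵥ* (a : Matrix (Fin m) (Fin m) F)) :=
    ρ_injective ρ h4
  obtain ⟨lam, hlam⟩ : ∃ lam : F, (a : Matrix (Fin m) (Fin m) F) *ᵥ e = lam • e := by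
    obtain ⟨f, hf⟩ := exists_dot_one hφ
    refine ⟨(φ ᵥ* (a : Matrix (Fin m) (Fin m) F)) ⬝ᵥ f, ?_⟩
    have := congrArg (· *ᵥ f) h4'
    simp only [vecMulVec_mulVec, op_smul_eq_smul, hf, one_smul] at this
    exact this
  have hlam' : φ ᵥ* (a : Matrix (Fin m) (Fin m) F) = lam • φ := by
    rw [hlam] at h4
    obtain ⟨ε, hε⟩ := exists_dot_one' he
    have h5 := congrArg (rk ρ e ε * ·) h4
    simp only [rk_mul_rk, dotProduct_smul, hε, one_smul, smul_eq_mul, mul_one] at h5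
    have h6 : vecMulVec e (lam • φ) = vecMulVec e (φ ᵥ* (a : Matrix (Fin m) (Fin m) F)) := by
      apply ρ_injective ρ
      rw [← rk_smul_right] at h5
      exact h5
    have h7 := congrArg (ε ᵥ* ·) h6
    simp only [vecMul_vecMulVec, hε, one_smul] at h7
    exact h7.symm
  have hlam0 : lam ≠ 0 := by
    rintro rfl
    rw [zero_smul] at hlam
    apply he
    have := congrArg (((a⁻¹ : GL (Fin m) F) : Matrix (Fin m) (Fin m) F) *ᵥ ·) hlam
    simpa [mulVec_mulVec] using this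
  -- normalised factors
  obtain ⟨A, hA⟩ : ∃ A : Matrix (Fin m) (Fin m) F, A = lam⁻¹ • (a : Matrix (Fin m) (Fin m) F) := ⟨_, rfl⟩
  obtain ⟨R, hR⟩ : ∃ R : Matrix κ κ F, R = lam • (r : Matrix κ κ F) := ⟨_, rfl⟩
  have hRc : Cen ρ R := by rw [hR]; exact hr.smul _
  have hTAR : (T : Matrix κ κ F) = ρ A * R := by
    rw [hTar, hA, hR, map_smul, smul_mul_smul_comm, inv_mul_cancel₀ hlam0, one_smul]
  have hAe : A *ᵥ e = e := by rw [hA, smul_mulVec, hlam, smul_smul, inv_mul_cancel₀ hlam0, one_smul]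
  have hAφ : φ ᵥ* A = φ := by rw [hA, vecMul_smul, hlam', smul_smul, inv_mul_cancel₀ hlam0, one_smul]
  have h22 : (2 : F) ≠ 0 := by
    intro h2
    have : (1 : F) = 0 := by linear_combination h3 - h2
    exact one_ne_zero this
  have hT2 : (T : Matrix κ κ F) * (T : Matrix κ κ F) = 1 := by
    rw [hTπ]
    have : (1 + π) * (1 + π) = 1 + (π + π + π * π) := by noncomm_ring
    rw [this, hππ]
    have : π + π + π = (3 : F) • π := by module
    rw [this, h3, zero_smul, add_zero]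
  have hTrk : ∀ b β, (T : Matrix κ κ F) * rk ρ b β = rk ρ (A *ᵥ b) β * R := by
    intro b β
    rw [hTAR, mul_assoc, ← hRc.rk, ← mul_assoc, map_mul_rk]
  have hRR : R * R = 1 := by
    have h5 : rk ρ e φ * (R * R - 1) = 0 := by
      have h6 : (T : Matrix κ κ F) * ((T : Matrix κ κ F) * rk ρ e φ) = rk ρ e φ * (R * R) := by
        rw [hTrk, hAe, ← mul_assoc, hTrk, hAe, mul_assoc]
      rw [← mul_assoc, hT2, one_mul] at h6
      rw [mul_sub, mul_one, ← h6, sub_self]
    exact sub_eq_zero.1 (Cen.eq_zero (ρ := ρ) ((hRc.mul hRc).sub (cen_one ρ)) he hφ h5)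
  have hAA : A * A = 1 := by
    apply ρ_injective ρ
    rw [map_mul, map_one]
    have h5 : ρ A * R * (ρ A * R) = ρ A * ρ A := by
      rw [mul_assoc, ← mul_assoc R, ← (hRc A).eq, mul_assoc (ρ A) R R, hRR, mul_one]
    rw [← h5, ← hTAR, hT2]
  -- s = R - 1 is idempotent
  have hπe : ∀ b β, A *ᵥ b = b → π * rk ρ b β = rk ρ b β * (R - 1) := by
    intro b β hb
    have : π = (T : Matrix κ κ F) - 1 := by rw [hTπ]; abel
    rw [this, sub_mul, one_mul, hTrk, hb, mul_sub, mul_one]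
  have hsc : Cen ρ (R - 1) := hRc.sub (cen_one ρ)
  have hss : (R - 1) * (R - 1) = R - 1 := by
    have h5 : rk ρ e φ * ((R - 1) * (R - 1) - (R - 1)) = 0 := by
      have h6 : π * (π * rk ρ e φ) = rk ρ e φ * ((R - 1) * (R - 1)) := by
        rw [hπe e φ hAe, ← mul_assoc, hπe e φ hAe, mul_assoc]
      rw [← mul_assoc, hππ, hπe e φ hAe] at h6
      rw [mul_sub, ← h6, sub_self]
    exact sub_eq_zero.1 (Cen.eq_zero (ρ := ρ) ((hsc.mul hsc).sub hsc) he hφ h5)
  -- the vector u₀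
  obtain ⟨u, hu⟩ := exists_dot_one hφ
  obtain ⟨u₀, hu₀, hAu₀, hφu₀⟩ : ∃ u₀, u₀ = -(A *ᵥ u + u) ∧ A *ᵥ u₀ = u₀ ∧ φ ⬝ᵥ u₀ = 1 := by
    refine ⟨_, rfl, ?_, ?_⟩
    · rw [mulVec_neg, mulVec_add, mulVec_mulVec, hAA, one_mulVec, add_comm]
    · rw [dotProduct_neg, dotProduct_add, dotProduct_mulVec, hAφ, hu]
      linear_combination -h3
  obtain ⟨ε, hεe, hεu⟩ : ∃ ε : Fin m → F, ε ⬝ᵥ e = 1 ∧ ε ⬝ᵥ u₀ = 0 := by
    obtain ⟨ε, hε⟩ := exists_dot_one' he
    refine ⟨ε - (ε ⬝ᵥ u₀) • φ, ?_, ?_⟩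
    · rw [sub_dotProduct, smul_dotProduct, hε, hφe, smul_zero, sub_zero]
    · rw [sub_dotProduct, smul_dotProduct, hφu₀, smul_eq_mul, mul_one, sub_self]
  have hu₀0 : u₀ ≠ 0 := by rintro h0; rw [h0, dotProduct_zero] at hφu₀; exact zero_ne_one hφu₀
  -- rank comparison
  set s := R - 1 with hsdef
  have hNs : rk ρ e φ * π = rk ρ e φ * s := by rw [← hπN.eq, hπe e φ hAe]
  have hr1 : π.rank ≤ (rk ρ e φ * s).rank + (rk ρ e φ * s).rank := by
    obtain ⟨X, hX⟩ := hñ
    have hñr : ñ.rank ≤ (rk ρ e φ * s).rank := by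
      rw [hX, hNs]; exact rank_mul_le_left _ _
    rw [← hs.s]
    refine (rank_add_le' _ _).trans (Nat.add_le_add ?_ ?_)
    · exact (rank_mul_le_left _ _).trans hñr
    · exact (rank_mul_le_right _ _).trans hñr
  have hr2 : (rk ρ e φ * s).rank + (rk ρ e φ * s).rank ≤ ((rk ρ e ε + rk ρ u₀ φ) * s).rank := by
    rw [add_mul]
    refine le_trans (Nat.add_le_add ?_ ?_) (rank_add_of_sep (P := rk ρ e ε) (Q := rk ρ e ε) ?_ ?_ ?_ ?_)
    · have : rk ρ e φ * s = (rk ρ e ε * s) * rk ρ e φ := by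
        rw [mul_assoc, ← hsc.rk, ← mul_assoc, rk_mul_rk, hεe, one_smul]
      rw [this]; exact rank_mul_le_left _ _
    · have : rk ρ e φ * s = rk ρ e φ * (rk ρ u₀ φ * s) := by
        rw [← mul_assoc, rk_mul_rk, hφu₀, one_smul]
      rw [this]; exact rank_mul_le_right _ _
    · rw [← mul_assoc, rk_mul_rk, hεe, one_smul]
    · rw [← mul_assoc, rk_mul_rk, hεu, zero_smul, zero_mul]
    · rw [mul_assoc, ← hsc.rk, ← mul_assoc, rk_mul_rk, hεe, one_smul]
    · rw [mul_assoc, ← hsc.rk, ← mul_assoc, rk_mul_rk, hφe, zero_smul, zero_mul]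
  have hπQ : π * ((rk ρ e ε + rk ρ u₀ φ) * s) = (rk ρ e ε + rk ρ u₀ φ) * s := by
    rw [← mul_assoc, mul_add, hπe e ε hAe, hπe u₀ φ hAu₀, ← add_mul, mul_assoc, hss]
  obtain ⟨χ, hχ0, hχe, hχu⟩ := exists_two (a := e) (b := u₀) hm
  have hχπ : ∀ g, rk ρ g χ * π = 0 := by
    intro g
    apply mul_eq_zero_of_rank (Z := (rk ρ e ε + rk ρ u₀ φ) * s)
    · rw [hπQ]; exact hr1.trans hr2
    · rw [hπQ, ← mul_assoc, mul_add, rk_mul_rk, rk_mul_rk, hχe, hχu, zero_smul, zero_smul, add_zero, zero_mul]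
  -- R is scalar
  obtain ⟨b, hb⟩ := exists_dot_one hχ0
  have hR1 : rk ρ e φ * ((χ ⬝ᵥ (A *ᵥ b)) • R - 1) = 0 := by
    have h5 : rk ρ e χ * π * rk ρ b φ = 0 := by rw [hχπ, zero_mul]
    have h6 : π = ρ A * R - 1 := by rw [← hTAR, hTπ]; abel
    rw [h6, mul_sub, mul_one, sub_mul, rk_mul_rk, hb, one_smul, ← mul_assoc, rk_mul_map, mul_assoc,
      ← hRc.rk, ← mul_assoc, rk_mul_rk, ← dotProduct_mulVec, smul_mul_assoc] at h5
    rw [mul_sub, mul_one, mul_smul_comm]
    exact h5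
  have hR2 := Cen.eq_zero (ρ := ρ) ((hRc.smul _).sub (cen_one ρ)) he hφ hR1
  obtain ⟨c, hc⟩ : ∃ c : F, R = c • (1 : Matrix κ κ F) := by
    have h7 : χ ⬝ᵥ (A *ᵥ b) ≠ 0 := by
      intro h8
      rw [h8, zero_smul, zero_sub, neg_eq_zero] at hR2
      exact one_ne_zero hR2
    refine ⟨(χ ⬝ᵥ (A *ᵥ b))⁻¹, ?_⟩
    rw [← sub_eq_zero.1 hR2, smul_smul, inv_mul_cancel₀ h7, one_smul]
  have hs1 : s = (c - 1) • (1 : Matrix κ κ F) := by rw [hsdef, hc, sub_smul, one_smul]
  have hcc : c - 1 = 1 := by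
    have h5 : (c - 1) * (c - 1) = c - 1 := by
      have h6 := hss
      rw [hs1, smul_mul_smul_comm, one_mul] at h6
      obtain ⟨i⟩ := ‹Nonempty κ›
      have h7 := congrFun (congrFun h6 i) i
      simpa using h7
    have h6 : c - 1 ≠ 0 := by
      intro h7
      rw [hNs, hs1, h7, zero_smul, mul_zero] at hN0
      exact hN0 rfl
    exact mul_left_cancel₀ h6 (by rw [h5, mul_one])
  have hNN : rk ρ e φ * π = rk ρ e φ := by rw [hNs, hs1, hcc, one_smul, mul_one]
  -- Y = π Y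
  have hYπ : (1 - π) * Y = 0 := by
    apply mul_eq_zero_of_rank (Z := π)
    · rw [hYy]
      refine hYw.trans ?_
      rw [← hNN, hNñ]
      refine (rank_mul_le_right _ _).trans ?_
      rw [← hs.nyn]
      exact (rank_mul_le_left _ _).trans (rank_mul_le_right _ _)
    · rw [hYy]
      have : π * y = y := by
        have := pi_io hs !![0, 0; 1, 0]
        rwa [io_e21] at this
      rw [sub_mul, one_mul, this, sub_self]
  have hYπ2 : Y = π * Y := by
    rw [sub_mul, one_mul, sub_eq_zero] at hYπ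
    exact hYπ
  -- π is in the image
  obtain ⟨Q, hQ⟩ : ∃ Q, ρ Q = π := by
    refine ⟨c • A - 1, ?_⟩
    have h6 : π = ρ A * R - 1 := by rw [← hTAR, hTπ]; abel
    rw [h6, hc, map_sub, map_smul, map_one, mul_smul_comm, mul_one]
  have hQQ : Q * Q = Q := by
    apply ρ_injective ρ
    rw [map_mul, hQ, hππ]
  have hχQ : χ ᵥ* Q = 0 := by
    have h5 := hχπ e
    rw [← hQ, rk_mul_map] at h5
    exact (rk_eq_zero ρ h5).resolve_left he
  apply h.block hm (f := b - Q *ᵥ b) (ε := χ) (by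
    rw [dotProduct_sub, hb, dotProduct_mulVec, hχQ, zero_dotProduct, sub_zero]) hYM
  · intro γ
    rw [hYπ2, ← hYc.eq, mul_assoc, ← hQ, map_mul_rk, mulVec_sub, mulVec_mulVec, hQQ, sub_self, rk_zero_left, mul_zero]
  · intro g
    rw [hYπ2, ← mul_assoc, hχπ, zero_mul]

end Pieces

end Cfsg.Agent.H873.Wr
end

-- part: H873/WrPair2
section
set_option autoImplicit false
set_option linter.unusedSectionVars false

namespace Cfsg.Agent.H873.Wr

open Matrix

variable {κ : Type} [Fintype κ] [DecidableEq κ] [Nonempty κ] {F : Type*} [Field F] {m : ℕ}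

theorem cut_pow {x π : Matrix κ κ F} (hπ : π * π = π) (hx : Commute x π) (n : ℕ) :
    (x * π + (1 - π)) ^ n = x ^ n * π + (1 - π) := by
  induction n with
  | zero => rw [pow_zero, pow_zero, one_mul]; abel
  | succ n ih => rw [pow_succ, ih, cut_mul hπ hx, ← pow_succ]

theorem di_pow (a b : F) (ha : a ≠ 0) (hb : b ≠ 0) (n : ℕ) :
    (di a b ha hb) ^ n = di (a ^ n) (b ^ n) (pow_ne_zero n ha) (pow_ne_zero n hb) := by
  induction n with
  | zero =>
    apply Units.ext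
    change (1 : Matrix (Fin 2) (Fin 2) F) = !![a ^ 0, 0; 0, b ^ 0]
    ext i j; fin_cases i <;> fin_cases j <;> simp
  | succ n ih =>
    rw [pow_succ, ih]
    apply Units.ext
    rw [Units.val_mul]
    change !![a ^ n, 0; 0, b ^ n] * !![a, 0; 0, b] = !![a ^ (n + 1), 0; 0, b ^ (n + 1)]
    ext i j; fin_cases i <;> fin_cases j <;> simp [pow_succ]

/-- Data of a pair with non-nilpotent `θ = N Y + Y N`. -/
theorem exists_sl2 [Finite F] {N Y : Matrix κ κ F} (hNN : N * N = 0) (hYY : Y * Y = 0)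
    (hnil : ¬ ∃ k : ℕ, (N * Y + Y * N) ^ k = 0) :
    ∃ (π θ' : Matrix κ κ F) (k : ℕ), 0 < k ∧ π = (N * Y + Y * N) ^ k ∧ π * π = π ∧
      Sl2 (N * θ') (Y * π) π ∧ (N * Y + Y * N) * (N * θ') = N * π ∧ N * π * θ' = N * θ' ∧
      (N * Y + Y * N) * θ' = π ∧ Commute N π ∧ Commute Y π ∧ N * π ≠ 0 ∧ Y * π ≠ 0 ∧
      Commute N θ' ∧ Commute Y θ' ∧ θ' * π = θ' := by
  obtain ⟨hcN, hcY⟩ := comm_theta hNN hYY
  set θ := N * Y + Y * N with hθ
  have : Finite (Matrix κ κ F) := inferInstanceAs (Finite (κ → κ → F))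
  obtain ⟨k, hk0, hkk⟩ := exists_idempotent_pow θ
  obtain ⟨k', rfl⟩ : ∃ k', k = k' + 1 := ⟨k - 1, by omega⟩
  set π := θ ^ (k' + 1) with hπ
  set θ' := θ ^ k' * π with hθ'
  have hNπ : Commute N π := hcN.pow_right _
  have hYπ : Commute Y π := hcY.pow_right _
  have hNθ' : Commute N θ' := (hcN.pow_right _).mul_right hNπ
  have hYθ' : Commute Y θ' := (hcY.pow_right _).mul_right hYπ
  have hθ'π : θ' * π = θ' := by rw [hθ', mul_assoc, hkk]
  have hππ' : Commute π θ' := by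
    have : Commute π (θ ^ k') := (Commute.refl θ).pow_pow _ _
    exact this.mul_right (Commute.refl _)
  have hθθ' : θ * θ' = π := by
    rw [hθ', ← mul_assoc, ← pow_succ', ← hπ, hkk]
  have hnn : N * θ' * (N * θ') = 0 := by
    rw [mul_assoc, ← mul_assoc θ' N, ← hNθ'.eq, mul_assoc N θ' θ', ← mul_assoc N N, hNN, zero_mul]
  have hyy : Y * π * (Y * π) = 0 := by
    rw [mul_assoc, ← mul_assoc π Y, ← hYπ.eq, mul_assoc Y π π, ← mul_assoc Y Y, hYY, zero_mul]
  have hs : N * θ' * (Y * π) + Y * π * (N * θ') = π := by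
    have h1 : N * θ' * (Y * π) = N * Y * θ' := by
      rw [mul_assoc, ← mul_assoc θ' Y, ← hYθ'.eq, mul_assoc Y θ' π, hθ'π, mul_assoc]
    have h2 : Y * π * (N * θ') = Y * N * θ' := by
      rw [mul_assoc, ← mul_assoc π N, ← hNπ.eq, mul_assoc N π θ', hππ'.eq, hθ'π, mul_assoc]
    rw [h1, h2, ← add_mul, ← hθ, hθθ']
  have hππ : π * π = π := hkk
  have hñπ : N * θ' * π = N * θ' := by rw [mul_assoc, hθ'π]
  have hyπ : Y * π * π = Y * π := by rw [mul_assoc, hππ]
  have hnyn : N * θ' * (Y * π) * (N * θ') = N * θ' := by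
    have h1 : Y * π * (N * θ') = π - N * θ' * (Y * π) := eq_sub_of_add_eq' hs
    rw [mul_assoc, h1, mul_sub, hñπ, ← mul_assoc (N * θ') (N * θ') (Y * π), hnn, zero_mul, sub_zero]
  have hyny : Y * π * (N * θ') * (Y * π) = Y * π := by
    have h1 : N * θ' * (Y * π) = π - Y * π * (N * θ') := eq_sub_of_add_eq hs
    rw [mul_assoc, h1, mul_sub, hyπ, ← mul_assoc (Y * π) (Y * π) (N * θ'), hyy, zero_mul, sub_zero]
  have hπ0 : π ≠ 0 := fun h => hnil ⟨_, h⟩
  have hθπ : θ * π ≠ 0 := by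
    intro h
    apply hπ0
    have : π = θ ^ k' * (θ * π) := by
      rw [← mul_assoc, ← pow_succ, ← hπ, hππ]
    rw [this, h, mul_zero]
  have e1 : θ * (N * θ') = N * π := by
    rw [← mul_assoc, ← hcN.eq, mul_assoc, hθθ']
  have e2 : N * π * θ' = N * θ' := by rw [mul_assoc, hππ'.eq, hθ'π]
  refine ⟨π, θ', k' + 1, by omega, rfl, hππ, ⟨hnn, hyy, hnyn, hyny, hs⟩, e1, e2, hθθ', hNπ, hYπ, ?_, ?_,
    hNθ', hYθ', hθ'π⟩
  · intro h
    apply hθπ
    rw [hθ, add_mul, mul_assoc N Y, hYπ.eq, ← mul_assoc N π, h, zero_mul, mul_assoc Y N, h, mul_zero, add_zero]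
  · intro h
    apply hθπ
    rw [hθ, add_mul, mul_assoc N Y, h, mul_zero, mul_assoc Y N, hNπ.eq, ← mul_assoc Y π, h, zero_mul, add_zero]

/-- The corner element of `RG N Y` lifts to `M`. -/
theorem JH_mem_of_mem [Fintype F] {N Y π ñ y : Matrix κ κ F} (hNN : N * N = 0) (hYY : Y * Y = 0)
    {k : ℕ} (hk : 0 < k) (hπk : π = (N * Y + Y * N) ^ k) (hπ : π * π = π) (hNπ : Commute N π) (hYπ : Commute Y π)
    (hs : Sl2 ñ y π) {c : F} (hc : c ≠ 0)
    (hmem : JH hs (di c c⁻¹ hc (inv_ne_zero hc)) ∈ RG (N * π) (Y * π)) :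
    JH hs (di c c⁻¹ hc (inv_ne_zero hc)) ∈ RG N Y := by
  obtain ⟨p, hp⟩ := CharP.exists F
  have hpp : Fact p.Prime := ⟨CharP.char_is_prime F p⟩
  obtain ⟨x, hx, hxe⟩ := lift_RG hNN hYY hπ hNπ hYπ hmem
  have hπ' : (1 - π) * (1 - π) = 1 - π := by rw [mul_sub, mul_one, sub_mul, one_mul, hπ, sub_self, sub_zero]
  have hNπ' : Commute N (1 - π) := (Commute.one_right _).sub_right hNπ
  have hYπ' : Commute Y (1 - π) := (Commute.one_right _).sub_right hYπ
  obtain ⟨u, hu, hue⟩ := cut_RG hπ' hNπ' hYπ' hx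
  have hxπ : Commute (x : Matrix κ κ F) π := RG_commute hNπ hYπ hx
  have hxπ' : Commute (x : Matrix κ κ F) (1 - π) := RG_commute hNπ' hYπ' hx
  have hn : N * (1 - π) * (N * (1 - π)) = 0 := by
    rw [mul_assoc, ← mul_assoc (1 - π), ← hNπ'.eq, mul_assoc N, ← mul_assoc N N, hNN, zero_mul]
  have hy : Y * (1 - π) * (Y * (1 - π)) = 0 := by
    rw [mul_assoc, ← mul_assoc (1 - π), ← hYπ'.eq, mul_assoc Y, ← mul_assoc Y Y, hYY, zero_mul]
  have hth : N * (1 - π) * (Y * (1 - π)) + Y * (1 - π) * (N * (1 - π)) = (N * Y + Y * N) * (1 - π) := by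
    rw [mul_assoc, ← mul_assoc (1 - π) Y, ← hYπ'.eq, mul_assoc Y, hπ', mul_assoc Y, ← mul_assoc (1 - π) N,
      ← hNπ'.eq, mul_assoc N (1 - π) (1 - π), hπ', add_mul, mul_assoc, mul_assoc]
  have hcom : Commute (N * Y + Y * N) (1 - π) := (hNπ'.mul_left hYπ').add_left (hYπ'.mul_left hNπ')
  have hk0 : (N * (1 - π) * (Y * (1 - π)) + Y * (1 - π) * (N * (1 - π))) ^ k = 0 := by
    rw [hth, hcom.mul_pow, ← hπk]
    obtain ⟨k', rfl⟩ : ∃ k', k = k' + 1 := ⟨k - 1, by omega⟩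
    rw [pow_succ', ← mul_assoc, mul_sub, mul_one, hπ, sub_self, zero_mul]
  have hu1 := pow_eq_one_of_nilp (p := p) hn hy hk0 hu
  -- exponent
  have hdvd : p ^ (3 * k) ∣ Fintype.card F ^ (3 * k) := by
    apply pow_dvd_pow_of_dvd
    obtain ⟨n, -, hn⟩ := FiniteField.card F p
    rw [hn]
    exact dvd_pow_self _ n.ne_zero
  have hu2 : (u : Matrix κ κ F) ^ (Fintype.card F ^ (3 * k)) = 1 := by
    obtain ⟨d, hd⟩ := hdvd
    rw [hd, pow_mul, hu1, one_pow]
  have h1 : (x : Matrix κ κ F) ^ (Fintype.card F ^ (3 * k)) * (1 - π) + (1 - (1 - π)) = 1 := by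
    rw [← cut_pow hπ' hxπ', ← hue, hu2]
  have h2 : (x : Matrix κ κ F) ^ (Fintype.card F ^ (3 * k)) * π + (1 - π) =
      (JH hs (di c c⁻¹ hc (inv_ne_zero hc)) : Matrix κ κ F) := by
    have hdi : (di c c⁻¹ hc (inv_ne_zero hc)) ^ (Fintype.card F ^ (3 * k)) = di c c⁻¹ hc (inv_ne_zero hc) := by
      rw [di_pow]
      apply Units.ext
      change !![c ^ _, 0; 0, c⁻¹ ^ _] = !![c, 0; 0, c⁻¹]
      rw [FiniteField.pow_card_pow, FiniteField.pow_card_pow]
    rw [← cut_pow hπ hxπ, ← hxe, ← Units.val_pow_eq_pow_val, ← map_pow, hdi]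
  have h3 : (JH hs (di c c⁻¹ hc (inv_ne_zero hc)) : Matrix κ κ F) =
      ((x ^ (Fintype.card F ^ (3 * k)) : GL κ F) : Matrix κ κ F) := by
    rw [← h2, Units.val_pow_eq_pow_val]
    have h4 : (x : Matrix κ κ F) ^ (Fintype.card F ^ (3 * k)) * (1 - π) = 1 - π := by
      have h5 := h1
      have h6 : (1 : Matrix κ κ F) - (1 - π) = π := by abel
      rw [h6] at h5
      rw [eq_sub_iff_add_eq]
      exact h5
    calc (x : Matrix κ κ F) ^ (Fintype.card F ^ (3 * k)) * π + (1 - π)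
        = (x : Matrix κ κ F) ^ (Fintype.card F ^ (3 * k)) * π +
          (x : Matrix κ κ F) ^ (Fintype.card F ^ (3 * k)) * (1 - π) := by rw [h4]
      _ = (x : Matrix κ κ F) ^ (Fintype.card F ^ (3 * k)) := by rw [← mul_add, add_sub_cancel, mul_one]
  rw [Units.ext h3]
  exact Subgroup.pow_mem _ hx _

theorem smul_rk_inM {M : Subgroup (GL κ F)} {ρ : Matrix (Fin m) (Fin m) F →ₐ[F] Matrix κ κ F} (h : GE M ρ)
    {e φ : Fin m → F} (hφe : φ ⬝ᵥ e = 0) (c : F) : InM M (c • rk ρ e φ) := by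
  rw [← rk_smul_right]
  exact h.root (by rw [smul_dotProduct, hφe, smul_zero])

theorem conj_expand {N Y : Matrix κ κ F} (hYY : Y * Y = 0) (b : F) :
    conjA (un (b • Y) (smul_sq hYY b)) N = N + b • (Y * N) - b • (N * Y) - b ^ 2 • (Y * N * Y) := by
  rw [conjA_apply]
  change (1 + b • Y) * N * (1 - b • Y) = _
  simp only [add_mul, mul_sub, one_mul, mul_one, smul_mul_assoc, mul_smul_comm, smul_smul, sub_eq_add_neg, smul_add]
  rw [pow_two]
  simp only [mul_add, mul_one, mul_neg, mul_smul_comm, smul_add, smul_neg, smul_smul, neg_add_rev]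
  abel

theorem theta_conj {N Y : Matrix κ κ F} (hNN : N * N = 0) (hYY : Y * Y = 0) (b : F) :
    N * conjA (un (b • Y) (smul_sq hYY b)) N + conjA (un (b • Y) (smul_sq hYY b)) N * N =
      (-b ^ 2) • (N * Y + Y * N) ^ 2 := by
  rw [conj_expand hYY b]
  have e1 : N * (N + b • (Y * N) - b • (N * Y) - b ^ 2 • (Y * N * Y)) =
      b • (N * Y * N) - b ^ 2 • (N * Y * N * Y) := by
    simp only [mul_add, mul_sub, mul_smul_comm, hNN]
    rw [← mul_assoc N N Y, hNN, zero_mul, smul_zero]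
    simp only [mul_assoc]
    abel
  have e2 : (N + b • (Y * N) - b • (N * Y) - b ^ 2 • (Y * N * Y)) * N =
      - (b • (N * Y * N)) - b ^ 2 • (Y * N * Y * N) := by
    simp only [add_mul, sub_mul, smul_mul_assoc, hNN]
    rw [mul_assoc Y N N, hNN, mul_zero, smul_zero]
    abel
  have e3 : (N * Y + Y * N) ^ 2 = N * Y * N * Y + Y * N * Y * N := by
    have h1 : (N * Y + Y * N) ^ 2 = N * Y * N * Y + N * (Y * Y) * N + Y * (N * N) * Y + Y * N * Y * N := by
      noncomm_ring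
    rw [h1, hYY, hNN, mul_zero, zero_mul, mul_zero, zero_mul, add_zero, add_zero]
  rw [e1, e2, e3]
  module

/-- The case where the torus element `T = diag(c, c⁻¹)` with `c² ≠ 1` is in `M`. -/
theorem GE.mem_range_of_four {M : Subgroup (GL κ F)} {ρ ρ' : Matrix (Fin m) (Fin m) F →ₐ[F] Matrix κ κ F}
    (hge : GE M ρ) (hge' : GE M ρ') (hm : 3 ≤ m) {e φ e' φ' : Fin m → F} (he : e ≠ 0) (hφ : φ ≠ 0)
    (hφe : φ ⬝ᵥ e = 0) (he' : e' ≠ 0) (hφ' : φ' ≠ 0) (hφe' : φ' ⬝ᵥ e' = 0) {c : F} (hc : c ≠ 0)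
    (hcc : c * c ≠ 1) {ñ π θ : Matrix κ κ F} (hs : Sl2 ñ (rk ρ' e' φ' * π) π) (hππ : π * π = π)
    (hθñc : Commute θ ñ) (hθyc : Commute θ (rk ρ' e' φ' * π)) (hθñ : θ * ñ = rk ρ e φ * π)
    (hNπ : Commute (rk ρ e φ) π) (hYπ : Commute (rk ρ' e' φ') π) (hNπ0 : rk ρ e φ * π ≠ 0)
    (hYπ0 : rk ρ' e' φ' * π ≠ 0) (hT : JH hs (di c c⁻¹ hc (inv_ne_zero hc)) ∈ M) :
    ∃ A, ρ A = rk ρ' e' φ' := by
  have hNN : rk ρ e φ * rk ρ e φ = 0 := rk_sq hφe
  have hYY : rk ρ' e' φ' * rk ρ' e' φ' = 0 := rk_sq hφe'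
  have hrN := hge.root hφe
  have hrY := hge'.root hφe'
  have hfN := fun {d : F} (hd : d ≠ 0) h1 h2 => hge.full_of_part hm he hφ hφe hππ hNπ hd h1 h2
  have hfY := fun {d : F} (hd : d ≠ 0) h1 h2 => hge'.full_of_part hm he' hφ' hφe' hππ hYπ hd h1 h2
  generalize hN : rk ρ e φ = N at *
  generalize hY : rk ρ' e' φ' = Y at *
  obtain ⟨T, hTd⟩ : ∃ T, T = JH hs (di c c⁻¹ hc (inv_ne_zero hc)) := ⟨_, rfl⟩
  rw [← hTd] at hT
  have hZ : ∀ (Z : Matrix κ κ F), π * Z = 0 → Z * π = 0 → conjA T Z = Z := by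
    intro Z h1 h2
    rw [hTd]
    apply conjA_eq_self
    unfold Commute SemiconjBy
    have a1 : ∀ B, io ñ (Y * π) B * Z = 0 := by intro B; rw [← io_pi hs, mul_assoc, h1, mul_zero]
    have a2 : ∀ B, Z * io ñ (Y * π) B = 0 := by intro B; rw [← pi_io hs, ← mul_assoc, h2, zero_mul]
    rw [coe_JH, add_mul, mul_add, a1, a2, sub_mul, mul_sub, one_mul, mul_one, h1, h2]
  have hTn : conjA T (N * π) = (c * c) • (N * π) := by
    rw [← hθñ]
    have h1 := JH_conj hs hθñc hθyc (di c c⁻¹ hc (inv_ne_zero hc)) !![0, 1; 0, 0]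
    rw [io_e12] at h1
    rw [hTd, conjA_apply, h1]
    have h2 : ((di c c⁻¹ hc (inv_ne_zero hc) : GL (Fin 2) F) : Matrix (Fin 2) (Fin 2) F) * !![0, 1; 0, 0] *
        (((di c c⁻¹ hc (inv_ne_zero hc))⁻¹ : GL (Fin 2) F) : Matrix (Fin 2) (Fin 2) F) = (c * c) • !![0, 1; 0, 0] := by
      change !![c, 0; 0, c⁻¹] * !![0, 1; 0, 0] * !![c⁻¹, 0; 0, c⁻¹⁻¹] = _
      ext i j; fin_cases i <;> fin_cases j <;> simp
    rw [h2, io_smul, io_e12, mul_smul_comm]
  have hTy : conjA T (Y * π) = (c⁻¹ * c⁻¹) • (Y * π) := by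
    have h1 := JH_conj hs (Commute.one_left _) (Commute.one_left _) (di c c⁻¹ hc (inv_ne_zero hc)) !![0, 0; 1, 0]
    rw [io_e21, one_mul, one_mul] at h1
    rw [hTd, conjA_apply, h1]
    have h2 : ((di c c⁻¹ hc (inv_ne_zero hc) : GL (Fin 2) F) : Matrix (Fin 2) (Fin 2) F) * !![0, 0; 1, 0] *
        (((di c c⁻¹ hc (inv_ne_zero hc))⁻¹ : GL (Fin 2) F) : Matrix (Fin 2) (Fin 2) F) = (c⁻¹ * c⁻¹) • !![0, 0; 1, 0] := by
      change !![c, 0; 0, c⁻¹] * !![0, 0; 1, 0] * !![c⁻¹, 0; 0, c⁻¹⁻¹] = _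
      ext i j; fin_cases i <;> fin_cases j <;> simp
    rw [h2, io_smul, io_e21]
  have part : ∀ {X : Matrix κ κ F} {d : F}, Commute X π → X * X = 0 → InM M X → conjA T (X * π) = d • (X * π) →
      InM M ((d - 1) • (X * π)) := by
    intro X d hXπ hXX hXM hXT
    have h1 : conjA T X = d • (X * π) + X * (1 - π) := by
      conv_lhs => rw [show X = X * π + X * (1 - π) by rw [← mul_add, add_sub_cancel, mul_one]]
      rw [map_add, hXT, hZ (X * (1 - π))]
      · rw [← mul_assoc, ← hXπ.eq, mul_assoc, mul_sub, mul_one, hππ, sub_self, mul_zero]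
      · rw [mul_assoc, sub_mul, one_mul, hππ, sub_self, mul_zero]
    have h2 := (hXM.conjA hT).sub hXM hXX (by
      rw [h1, add_mul, smul_mul_assoc, mul_assoc X π X, ← hXπ.eq, ← mul_assoc X X π, hXX, zero_mul, smul_zero,
        mul_assoc X (1 - π) X, sub_mul, one_mul, ← hXπ.eq, mul_sub, ← mul_assoc X X π, hXX, zero_mul, sub_zero,
        add_zero])
    rw [h1] at h2
    have h3 : d • (X * π) + X * (1 - π) - X = (d - 1) • (X * π) := by
      rw [mul_sub, mul_one, sub_smul, one_smul]; abel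
    rwa [h3] at h2
  have hNfull : N * π = N := hfN (d := c * c - 1) (sub_ne_zero.2 hcc) (part hNπ hNN hrN hTn) hNπ0
  have hcc' : c⁻¹ * c⁻¹ ≠ 1 := by
    intro h
    apply hcc
    rw [← mul_inv, inv_eq_one] at h
    exact h
  have hYfull : Y * π = Y := hfY (d := c⁻¹ * c⁻¹ - 1) (sub_ne_zero.2 hcc') (part hYπ hYY hrY hTy) hYπ0
  -- T is in the image of ρ
  have hTN : (T : Matrix κ κ F) * N = c • N := by
    rw [← hNfull, ← hθñ, hTd, coe_JH]
    have h1 : Commute θ (io ñ (Y * π) ((di c c⁻¹ hc (inv_ne_zero hc) : GL (Fin 2) F) : Matrix (Fin 2) (Fin 2) F) + (1 - π)) := by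
      have hzio : ∀ C, Commute θ (io ñ (Y * π) C) := by
        intro C
        simp only [io]
        exact ((((hθñc.mul_right hθyc).smul_right _).add_right (hθñc.smul_right _)).add_right
          (hθyc.smul_right _)).add_right ((hθyc.mul_right hθñc).smul_right _)
      have hzπ : Commute θ π := by
        have := (hθñc.mul_right hθyc).add_right (hθyc.mul_right hθñc)
        rwa [hs.s] at this
      exact (hzio _).add_right ((Commute.one_right _).sub_right hzπ)
    rw [← mul_assoc, ← h1.eq, mul_assoc, add_mul]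
    have h2 : io ñ (Y * π) ((di c c⁻¹ hc (inv_ne_zero hc) : GL (Fin 2) F) : Matrix (Fin 2) (Fin 2) F) * ñ
        = c • ñ := by
      have h3 := io_mul hs ((di c c⁻¹ hc (inv_ne_zero hc) : GL (Fin 2) F) : Matrix (Fin 2) (Fin 2) F) !![0, 1; 0, 0]
      rw [io_e12] at h3
      rw [h3]
      have h4 : ((di c c⁻¹ hc (inv_ne_zero hc) : GL (Fin 2) F) : Matrix (Fin 2) (Fin 2) F) * !![0, 1; 0, 0] = c • !![0, 1; 0, 0] := by
        change !![c, 0; 0, c⁻¹] * !![0, 1; 0, 0] = _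
        ext i j; fin_cases i <;> fin_cases j <;> simp
      rw [h4, io_smul, io_e12]
    have h5 : (1 - π) * ñ = 0 := by
      have := pi_io hs !![0, 1; 0, 0]
      rw [io_e12] at this
      rw [sub_mul, one_mul, this, sub_self]
    rw [h2, h5, add_zero, mul_smul_comm]
  have hTnorm : conjA T N = (c * c) • N := by rw [← hNfull]; exact hTn
  obtain ⟨a, r, hr, har⟩ := exists_factor (by omega : 0 < m)
    (hge.normalises hm hT he hφ (mul_ne_zero hc hc) (by rw [hN]; exact hTnorm))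
  obtain ⟨A, hA⟩ : ∃ A, ρ A = (T : Matrix κ κ F) := by
    have h1 : rk ρ ((a : Matrix (Fin m) (Fin m) F) *ᵥ e) φ * (r : Matrix κ κ F) = c • rk ρ e φ := by
      have h2 := hTN
      rw [har, mul_assoc, ← hN, ← hr.rk, ← mul_assoc, map_mul_rk] at h2
      exact h2
    have hae : (a : Matrix (Fin m) (Fin m) F) *ᵥ e ≠ 0 := by
      intro h
      apply he
      have := congrArg (((a⁻¹ : GL (Fin m) F) : Matrix (Fin m) (Fin m) F) *ᵥ ·) h
      simpa [mulVec_mulVec] using this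
    obtain ⟨χ, hχ⟩ := exists_dot_one' hae
    have h2 : rk ρ e φ * ((r : Matrix κ κ F) - (c * (χ ⬝ᵥ e)) • (1 : Matrix κ κ F)) = 0 := by
      have h3 := congrArg (rk ρ e χ * ·) h1
      simp only [← mul_assoc, rk_mul_rk, hχ, one_smul, mul_smul_comm] at h3
      rw [mul_sub, h3, mul_smul_comm, mul_one, smul_smul, sub_self]
    have h3 := sub_eq_zero.1 (Cen.eq_zero (ρ := ρ) (hr.sub ((cen_one ρ).smul _)) he hφ h2)
    refine ⟨(c * (χ ⬝ᵥ e)) • (a : Matrix (Fin m) (Fin m) F), ?_⟩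
    rw [har, h3, map_smul, mul_smul_comm, mul_one]
  have hc1 : c ≠ 1 := by rintro rfl; exact hcc (by ring)
  have hpoly : ∀ d : F, ∃ E, ρ E = io ñ (Y * π)
      ((!![c, 0; 0, c⁻¹] - 1) * (!![c, 0; 0, c⁻¹] - d • (1 : Matrix (Fin 2) (Fin 2) F))) := by
    intro d
    refine ⟨(A - 1) * (A - d • 1), ?_⟩
    rw [map_mul, map_sub, map_sub, map_one, map_smul, map_one, hA, ← io_mul hs]
    have h1 : (T : Matrix κ κ F) - 1 = io ñ (Y * π) (!![c, 0; 0, c⁻¹] - 1) := by
      have h2 : (T : Matrix κ κ F) = io ñ (Y * π) !![c, 0; 0, c⁻¹] + (1 - π) := by rw [hTd]; rfl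
      have h3 := io_add ñ (Y * π) (!![c, 0; 0, c⁻¹] - 1) 1
      rw [sub_add_cancel, io_one hs] at h3
      rw [h2, h3]; abel
    have h2 : (T : Matrix κ κ F) - d • (1 : Matrix κ κ F) = io ñ (Y * π) (!![c, 0; 0, c⁻¹] - d • (1 : Matrix (Fin 2) (Fin 2) F))
        + (1 - d) • (1 - π) := by
      have h2 : (T : Matrix κ κ F) = io ñ (Y * π) !![c, 0; 0, c⁻¹] + (1 - π) := by rw [hTd]; rfl
      have h3 := io_add ñ (Y * π) (!![c, 0; 0, c⁻¹] - d • (1 : Matrix (Fin 2) (Fin 2) F)) (d • 1)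
      rw [sub_add_cancel, io_smul, io_one hs] at h3
      rw [h2, h3]
      module
    have h3 : io ñ (Y * π) (!![c, 0; 0, c⁻¹] - 1) * ((1 - d) • (1 - π)) = 0 := by
      rw [mul_smul_comm, mul_sub, mul_one, io_pi hs, sub_self, smul_zero]
    rw [h2, mul_add, h1, h3, add_zero]
  have hdiag1 : (!![c, 0; 0, c⁻¹] - 1) * (!![c, 0; 0, c⁻¹] - c • (1 : Matrix (Fin 2) (Fin 2) F)) =
      ((c⁻¹ - 1) * (c⁻¹ - c)) • !![0, 0; 0, 1] := by
    ext i j; fin_cases i <;> fin_cases j <;> simp [Matrix.mul_apply, Fin.sum_univ_two]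
  have hdiag2 : (!![c, 0; 0, c⁻¹] - 1) * (!![c, 0; 0, c⁻¹] - c⁻¹ • (1 : Matrix (Fin 2) (Fin 2) F)) =
      ((c - 1) * (c - c⁻¹)) • !![1, 0; 0, 0] := by
    ext i j; fin_cases i <;> fin_cases j <;> simp [Matrix.mul_apply, Fin.sum_univ_two]
  have hne1 : (c⁻¹ - 1) * (c⁻¹ - c) ≠ 0 := by
    apply mul_ne_zero
    · rw [sub_ne_zero]; intro h; exact hc1 (inv_eq_one.1 h)
    · rw [sub_ne_zero]; intro h
      apply hcc
      nth_rewrite 1 [← h]
      exact inv_mul_cancel₀ hc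
  have hne2 : (c - 1) * (c - c⁻¹) ≠ 0 := by
    apply mul_ne_zero
    · rw [sub_ne_zero]; exact hc1
    · rw [sub_ne_zero]; intro h
      apply hcc
      nth_rewrite 1 [h]
      exact inv_mul_cancel₀ hc
  obtain ⟨E', hE'⟩ : ∃ E', ρ E' = Y * π * ñ := by
    obtain ⟨E, hE⟩ := hpoly c
    refine ⟨((c⁻¹ - 1) * (c⁻¹ - c))⁻¹ • E, ?_⟩
    rw [map_smul, hE, hdiag1, io_smul, smul_smul, inv_mul_cancel₀ hne1, one_smul]
    simp [io]
  obtain ⟨E, hE⟩ : ∃ E, ρ E = ñ * (Y * π) := by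
    obtain ⟨E, hE⟩ := hpoly c⁻¹
    refine ⟨((c - 1) * (c - c⁻¹))⁻¹ • E, ?_⟩
    rw [map_smul, hE, hdiag2, io_smul, smul_smul, inv_mul_cancel₀ hne2, one_smul]
    simp [io]
  apply hge.pz hm (A := E') (B := E) (Y₀ := Y) ?_ hrY
  · have h2 : Y * π * ñ * (Y * π) * (ñ * (Y * π)) = Y * π := by
      rw [hs.yny, ← mul_assoc, hs.yny]
    rw [hYfull] at h2
    rw [hE', hE, hYfull, h2]
  · apply ρ_injective ρ
    rw [map_mul, hE, hE', map_zero, mul_assoc, ← mul_assoc (Y * π), hs.yy, zero_mul, mul_zero]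

/-- **The pair theorem.** -/
theorem pair_good [Fintype F] {M : Subgroup (GL κ F)} {w : ℕ}
    {G : Set (Matrix (Fin m) (Fin m) F →ₐ[F] Matrix κ κ F)} (hG : Frames M w G) (hm : 3 ≤ m)
    (hF : ∃ c : F, c ≠ 0 ∧ c ≠ 1) : ∀ ρ ∈ G, ∀ ρ' ∈ G, RLe ρ ρ' ∨ Comm ρ ρ' := by
  classical
  by_contra hcon
  -- bad pairs
  let Bad : ℕ → Prop := fun n => ∃ ρ ∈ G, ∃ ρ' ∈ G, ∃ e φ e' φ' : Fin m → F, e ≠ 0 ∧ φ ≠ 0 ∧ φ ⬝ᵥ e = 0 ∧
    e' ≠ 0 ∧ φ' ≠ 0 ∧ φ' ⬝ᵥ e' = 0 ∧ ¬ RLe ρ ρ' ∧
    (¬ ∃ k : ℕ, (rk ρ e φ * rk ρ' e' φ' + rk ρ' e' φ' * rk ρ e φ) ^ k = 0) ∧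
    Nat.card (RG (rk ρ e φ) (rk ρ' e' φ')) = n
  have hex : ∃ n, Bad n := by
    push Not at hcon
    obtain ⟨ρ, hρ, ρ', hρ', h1, h2⟩ := hcon
    let i0 : Fin m := ⟨0, by omega⟩
    let i1 : Fin m := ⟨1, by omega⟩
    have h01 : i0 ≠ i1 := by simp [i0, i1]
    have he : (Pi.single i0 1 : Fin m → F) ≠ 0 := by
      intro h; have := congrFun h i0; simp at this
    have hφ : (Pi.single i1 1 : Fin m → F) ≠ 0 := by
      intro h; have := congrFun h i1; simp at this
    have hφe : (Pi.single i1 1 : Fin m → F) ⬝ᵥ Pi.single i0 1 = 0 := by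
      simp [h01]
    refine ⟨_, ρ, hρ, ρ', hρ', _, _, _, _, he, hφ, hφe, he, hφ, hφe, h1, fun h3 => ?_, rfl⟩
    rcases hG.nilp ρ hρ ρ' hρ' _ _ _ _ he hφ hφe he hφ hφe h3 with h4 | h4
    · exact h1 h4
    · exact h2 h4
  obtain ⟨ρ, hρ, ρ', hρ', e, φ, e', φ', he, hφ, hφe, he', hφ', hφe', hR, hnil, hcard⟩ := Nat.find_spec hex
  have hminn : ∀ n, Bad n → Nat.find hex ≤ n := fun n hn => Nat.find_min' hex hn
  have hge := hG.ge ρ hρ
  have hge' := hG.ge ρ' hρ'
  have hw := hG.rank ρ hρ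
  have hw' := hG.rank ρ' hρ'
  set N := rk ρ e φ with hN
  set Y := rk ρ' e' φ' with hY
  have hNN : N * N = 0 := rk_sq hφe
  have hYY : Y * Y = 0 := rk_sq hφe'
  have hNM : ∀ c : F, InM M (c • N) := smul_rk_inM hge hφe
  have hYM : ∀ c : F, InM M (c • Y) := smul_rk_inM hge' hφe'
  have hRGM : RG N Y ≤ M := RG_le hNM hYM
  have hYnot : ¬ ∃ A, ρ A = Y := by
    intro h
    exact hR (hge'.rle_of_mem hge hm hw' hw he' hφ' h).symm
  -- minimality
  have hRGb : ∀ b : F, b ≠ 0 → RG N (conjA (un (b • Y) (smul_sq hYY b)) N) = RG N Y := by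
    intro b hb
    set h := un (b • Y) (smul_sq hYY b) with hh
    have hhR : h ∈ RG N Y := un_mem_RG_right hYY b
    have hhM : h ∈ M := hRGM hhR
    have hle : RG N (conjA h N) ≤ RG N Y := by
      apply RG_le
      · exact RG_inM_left N Y hNN
      · intro c
        have := (RG_inM_left N Y hNN c).conjA hhR
        rwa [map_smul] at this
    have hbad : Bad (Nat.card (RG N (conjA h N))) := by
      refine ⟨ρ, hρ, cj h ρ, hG.conj ρ hρ h hhM, e, φ, e, φ, he, hφ, hφe, he, hφ, hφe, ?_, ?_, ?_⟩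
      · intro hRle
        obtain ⟨a, r, hr, har⟩ := exists_factor (by omega : 0 < m) hRle.symm
        have hrank : (ρ (a : Matrix (Fin m) (Fin m) F) * (r : Matrix κ κ F) - 1).rank ≤ w := by
          rw [← har, hh, coe_un, add_sub_cancel_left, ← hw' e' φ' he' hφ']
          have : b • Y = (b • (1 : Matrix κ κ F)) * Y := by rw [smul_mul_assoc, one_mul]
          rw [this]
          exact rank_mul_le_right _ _
        by_cases ha : ∃ c : F, (a : Matrix (Fin m) (Fin m) F) = c • (1 : Matrix (Fin m) (Fin m) F)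
        · obtain ⟨c, hc⟩ := ha
          -- h commutes with ρ
          have h1 : Commute (b • Y) N := by
            have h2 : b • Y = (h : Matrix κ κ F) - 1 := by rw [hh, coe_un, add_sub_cancel_left]
            rw [h2]
            refine Commute.sub_left ?_ (Commute.one_left _)
            rw [har, hc, map_smul, map_one, smul_mul_assoc, one_mul]
            exact (hr _).symm.smul_left _
          have h3 : Commute Y N := by
            have h4 := h1.smul_left b⁻¹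
            rwa [smul_smul, inv_mul_cancel₀ hb, one_smul] at h4
          apply hnil
          refine ⟨2, ?_⟩
          have h5 : (N * Y + Y * N) ^ 2 = N * (Y * N) * Y + N * (Y * Y) * N + Y * (N * N) * Y + Y * (N * Y) * N := by
            noncomm_ring
          rw [h5, hYY, hNN, h3.eq, ← h3.eq, mul_zero, zero_mul, mul_zero, zero_mul, add_zero, add_zero]
          rw [h3.eq, ← mul_assoc N N, hNN, zero_mul, zero_mul, ← h3.eq, ← mul_assoc Y Y, hYY, zero_mul, zero_mul,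
            add_zero]
        · obtain ⟨c, hc⟩ := scalar_of_rank_le hm (fun a α ha hα => (hw a α ha hα).ge) hr hrank ha
          apply hYnot
          refine ⟨b⁻¹ • (c • (a : Matrix (Fin m) (Fin m) F) - 1), ?_⟩
          have h2 : b • Y = (h : Matrix κ κ F) - 1 := by rw [hh, coe_un, add_sub_cancel_left]
          rw [map_smul, map_sub, map_smul, map_one]
          have h3 : c • ρ (a : Matrix (Fin m) (Fin m) F) = (h : Matrix κ κ F) := by
            rw [har, hc, mul_smul_comm, mul_one]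
          rw [h3, ← h2, smul_smul, inv_mul_cancel₀ hb, one_smul]
      · rintro ⟨k, hk⟩
        apply hnil
        have h1 := theta_conj hNN hYY b
        rw [rk_cj, ← hN] at hk
        rw [← hh] at h1
        rw [h1, smul_pow, ← pow_mul] at hk
        refine ⟨2 * k, ?_⟩
        rcases smul_eq_zero.1 hk with h2 | h2
        · exact absurd h2 (pow_ne_zero _ (neg_ne_zero.2 (pow_ne_zero _ hb)))
        · exact h2
      · rw [rk_cj]
    have h1 := hminn _ hbad
    rw [← hcard] at h1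
    exact Subgroup.eq_of_le_of_card_ge hle h1
  -- sl2 data
  obtain ⟨π, θ', k, hk0, hπk, hππ, hs, hθñ, hNπθ, hθθ', hNπ, hYπ, hNπ0, hYπ0, hNθ', hYθ', hθ'π⟩ :=
    exists_sl2 hNN hYY hnil
  obtain ⟨hcN, hcY⟩ := comm_theta hNN hYY
  set θ := N * Y + Y * N with hθ
  have hθñc : Commute θ (N * θ') := by
    refine hcN.symm.mul_right ?_
    exact (hNθ'.mul_left hYθ').add_left (hYθ'.mul_left hNθ')
  have hθyc : Commute θ (Y * π) :=
    hcY.symm.mul_right ((hNπ.mul_left hYπ).add_left (hYπ.mul_left hNπ))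
  have hmin : ∀ b : F, b ≠ 0 → RG (θ * (N * θ')) (θ * io (N * θ') (Y * π) !![-b, 1; -b ^ 2, b]) =
      RG (θ * (N * θ')) (Y * π) := by
    intro b hb
    have hel : θ * io (N * θ') (Y * π) !![-b, 1; -b ^ 2, b] = conjA (un (b • Y) (smul_sq hYY b)) N * π := by
      rw [conj_expand hYY b]
      simp only [io, Matrix.of_apply, Matrix.cons_val', Matrix.cons_val_zero, Matrix.cons_val_one,
        Matrix.cons_val_fin_one, mul_add, mul_smul_comm, one_smul]
      have f1 : θ * (N * θ' * (Y * π)) = N * Y * π := by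
        rw [← mul_assoc, hθñ, mul_assoc, ← mul_assoc π Y, ← hYπ.eq, mul_assoc Y, hππ, mul_assoc]
      have f2 : θ * (Y * π * (N * θ')) = Y * N * π := by
        rw [← mul_assoc, hθyc.eq, mul_assoc (Y * π), hθñ, mul_assoc Y, ← mul_assoc π N,
          ← hNπ.eq, mul_assoc N, hππ, mul_assoc]
      have f3 : θ * (Y * π) = Y * N * Y * π := by
        rw [← mul_assoc, ← hcY.eq, hθ, mul_add, ← mul_assoc Y Y N, hYY, zero_mul, add_zero, mul_assoc Y N Y]
      rw [f1, f2, f3, hθñ]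
      simp only [add_mul, sub_mul, smul_mul_assoc, neg_smul]
      abel
    rw [hel, hθñ]
    have hbπ : Commute (conjA (un (b • Y) (smul_sq hYY b)) N) π := by
      rw [conj_expand hYY b]
      exact (((hNπ.add_left ((hYπ.mul_left hNπ).smul_left b)).sub_left ((hNπ.mul_left hYπ).smul_left b)).sub_left
        (((hYπ.mul_left hNπ).mul_left hYπ).smul_left _))
    have hbb : conjA (un (b • Y) (smul_sq hYY b)) N * conjA (un (b • Y) (smul_sq hYY b)) N = 0 := by
      rw [← map_mul, hNN, map_zero]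
    apply le_antisymm
    · intro u hu
      obtain ⟨x, hx, hxe⟩ := lift_RG hNN hbb hππ hNπ hbπ hu
      rw [hRGb b hb] at hx
      obtain ⟨v, hv, hve⟩ := cut_RG hππ hNπ hYπ hx
      have : u = v := Units.ext (by rw [hxe, hve])
      rw [this]; exact hv
    · intro u hu
      obtain ⟨x, hx, hxe⟩ := lift_RG hNN hYY hππ hNπ hYπ hu
      rw [← hRGb b hb] at hx
      obtain ⟨v, hv, hve⟩ := cut_RG hππ hNπ hbπ hx
      have : u = v := Units.ext (by rw [hxe, hve])
      rw [this]; exact hv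
  have hTmem : ∀ (c : F) (hc : c ≠ 0), JH hs (di c c⁻¹ hc (inv_ne_zero hc)) ∈ M := by
    intro c hc
    have h1 := torus_mem hs hθñc hθyc hF hmin c hc
    rw [hθñ] at h1
    exact hRGM (JH_mem_of_mem hNN hYY hk0 hπk hππ hNπ hYπ hs hc h1)
  -- the two cases
  by_cases hF4 : ∃ c : F, c ≠ 0 ∧ c * c ≠ 1
  · obtain ⟨c, hc, hcc⟩ := hF4
    exact hYnot (hge.mem_range_of_four hge' hm he hφ hφe he' hφ' hφe' hc hcc hs hππ hθñc hθyc hθñ hNπ hYπ hNπ0 hYπ0
      (hTmem c hc))
  · push Not at hF4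
    obtain ⟨d, hd0, hd1⟩ := hF
    have hdd := hF4 d hd0
    have hdm : d = -1 := by
      have h1 : (d - 1) * (d + 1) = 0 := by linear_combination hdd
      rcases mul_eq_zero.1 h1 with h2 | h2
      · exact absurd (sub_eq_zero.1 h2) hd1
      · exact eq_neg_of_add_eq_zero_left h2
    have h11 : (-1 : F) ≠ 1 := by rw [← hdm]; exact hd1
    have h20 : (2 : F) ≠ 0 := by
      intro h2; apply h11; linear_combination -h2
    have h3 : (3 : F) = 0 := by
      have := hF4 2 h20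
      linear_combination this
    have hT := hTmem (-1) (neg_ne_zero.2 one_ne_zero)
    set T := JH hs (di (-1) (-1)⁻¹ (neg_ne_zero.2 one_ne_zero) (inv_ne_zero (neg_ne_zero.2 one_ne_zero))) with hTd
    have hTπ : (T : Matrix κ κ F) = 1 + π := by
      have h1 : (T : Matrix κ κ F) = io (N * θ') (Y * π) !![-1, 0; 0, (-1)⁻¹] + (1 - π) := rfl
      have h2 : (!![-1, 0; 0, (-1)⁻¹] : Matrix (Fin 2) (Fin 2) F) = (-1 : F) • 1 := by
        ext i j; fin_cases i <;> fin_cases j <;> simp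
      rw [h1, h2, io_smul, io_one hs]
      have h4 : (3 : F) • π = 0 := by rw [h3, zero_smul]
      have h5 : (-1 : F) • π + (1 - π) = 1 + π - (3 : F) • π := by module
      rw [h5, h4, sub_zero]
    apply hYnot
    exact hge.mem_range_of_three hm h3 he hφ hφe hT hs hTπ
      (by rw [hTπ]; exact (Commute.one_left _).add_left hNπ.symm) hNπ0 ⟨θ', hNπθ.symm⟩ hθñ.symm
      (hge'.root hφe') hYπ rfl (by rw [hw' e' φ' he' hφ', hw e φ he hφ])

end Cfsg.Agent.H873.Wr
end

-- part: H873/WrSlot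
section
/-!
The slots of a tensor power: every proper overgroup `M < SL` of the determinant one part of the tensor wreath
subgroup is *good* at every slot (`GE M (slotEmb i)`).
-/

set_option autoImplicit false
set_option linter.unusedSectionVars false
set_option linter.unusedSimpArgs false

namespace Cfsg.Agent.H873.Wr

open Matrix Cfsg.Agent.H919 Cfsg.Geo

variable {F : Type*} [Field F] {t m : ℕ}

/-- the slot as a homomorphism of general linear groups -/
def slotGL (i : Fin t) : GL (Fin m) F →* GL (Fin t → Fin m) F :=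
  Units.map (slotEmb (F := F) (m := m) i).toRingHom.toMonoidHom

theorem slotGL_val (i : Fin t) (a : GL (Fin m) F) :
    (slotGL i a : Matrix (Fin t → Fin m) (Fin t → Fin m) F) = slotEmb i (a : Matrix (Fin m) (Fin m) F) := rfl

theorem slotGL_mem (i : Fin t) (a : GL (Fin m) F) : slotGL i a ∈ tensorWreathStandard m t F := by
  have : slotGL i a = pureGL (Function.update (fun _ => 1) i a) := by
    apply Units.ext
    rw [slotGL_val, pureGL_val, slotEmb_apply, slotMat]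
    congr 1
    funext j
    by_cases h : j = i
    · subst h; simp
    · simp [Function.update_of_ne h]
  rw [this]
  exact pureGL_mem _

/-- the determinant one part of the standard tensor wreath subgroup -/
def HS (m t : ℕ) (F : Type*) [Field F] : Subgroup (GL (Fin t → Fin m) F) :=
  tensorWreathStandard m t F ⊓ specialLinear (Fin t → Fin m) F

theorem tv_commutator {a α b β : Fin m → F} (h : α ⬝ᵥ a = 0) (h1 : α ⬝ᵥ b = 0) (h2 : β ⬝ᵥ a = 0)
    (h3 : β ⬝ᵥ b = 1) : tv a β h2 * tv b α h1 * (tv a β h2)⁻¹ * (tv b α h1)⁻¹ = tv a α h := by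
  apply Units.ext
  change (1 + vecMulVec a β) * (1 + vecMulVec b α) * (1 - vecMulVec a β) * (1 - vecMulVec b α) = 1 + vecMulVec a α
  have e1 : vecMulVec a β * vecMulVec b α = vecMulVec a α := by
    rw [vecMulVec_mul_vecMulVec, h3, one_smul]
  have e2 : vecMulVec b α * vecMulVec a β = 0 := by
    rw [vecMulVec_mul_vecMulVec, h, zero_smul, vecMulVec_zero]
  have e3 : vecMulVec a β * vecMulVec a β = 0 := by
    rw [vecMulVec_mul_vecMulVec, h2, zero_smul, vecMulVec_zero]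
  have e4 : vecMulVec b α * vecMulVec b α = 0 := by
    rw [vecMulVec_mul_vecMulVec, h1, zero_smul, vecMulVec_zero]
  have e5 : vecMulVec a α * vecMulVec a β = 0 := by
    rw [vecMulVec_mul_vecMulVec, h, zero_smul, vecMulVec_zero]
  have e6 : vecMulVec a α * vecMulVec b α = 0 := by
    rw [vecMulVec_mul_vecMulVec, h1, zero_smul, vecMulVec_zero]
  simp only [add_mul, mul_sub, mul_add, sub_mul, one_mul, mul_one, e1, e2, e3, e4, e5, e6, zero_mul]
  abel

theorem root_mem_HS (hm : 3 ≤ m) (i : Fin t) {a α : Fin m → F} (h : α ⬝ᵥ a = 0) :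
    InM (HS m t F) (rk (slotEmb i) a α) := by
  obtain ⟨b, β, h1, h2, h3⟩ := exists_bridge a α hm
  refine ⟨slotGL i (tv a α h), ⟨slotGL_mem _ _, ?_⟩, ?_⟩
  · rw [← tv_commutator h h1 h2 h3]
    change _ ∈ MonoidHom.ker _
    simp only [MonoidHom.mem_ker, map_mul, map_inv]
    rw [mul_comm (GeneralLinearGroup.det (slotGL i (tv a β h2))), mul_inv_cancel_right, mul_inv_cancel]
  · rw [slotGL_val, coe_tv, map_add, map_one]
    rfl

theorem sl_slot {M : Subgroup (GL (Fin t → Fin m) F)} (hHM : HS m t F ≤ M) (hm : 3 ≤ m) (i : Fin t)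
    (A : Matrix (Fin m) (Fin m) F) (hA : A.det = 1) :
    ∃ g ∈ M, (g : Matrix (Fin t → Fin m) (Fin t → Fin m) F) = slotEmb i A := by
  have : Nontrivial (Fin m) := Fin.nontrivial_iff_two_le.2 (by omega)
  have h1 : specialLinear (Fin m) F ≤ M.comap (slotGL i) := by
    apply specialLinear_le_of_hasTv
    intro k l hkl c
    have h0 : (Pi.single l 1 : Fin m → F) ⬝ᵥ (c • Pi.single k 1) = 0 := by
      rw [dotProduct_smul, single_dotProduct, one_mul, Pi.single_eq_of_ne hkl.symm, smul_zero]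
    rw [hasTv_iff]
    refine ⟨h0, ?_⟩
    rw [Subgroup.mem_comap]
    obtain ⟨g, hg, he⟩ := root_mem_HS (t := t) hm i h0
    have : slotGL i (tv _ _ h0) = g := by
      apply Units.ext
      rw [he, slotGL_val, coe_tv, map_add, map_one]
      rfl
    rw [this]
    exact hHM hg
  have hu : IsUnit A := by rw [isUnit_iff_isUnit_det, hA]; exact isUnit_one
  obtain ⟨u, rfl⟩ := hu
  have h2 : u ∈ M.comap (slotGL i) := h1 ((mem_specialLinear_iff u).2 hA)
  exact ⟨slotGL i u, h2, rfl⟩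

/-! ### Permutations of the factors -/

theorem facPerm_mul (σ τ : Equiv.Perm (Fin t)) : facPerm F m (σ * τ) = facPerm F m σ * facPerm F m τ := by
  apply Units.ext
  ext x z
  rw [Units.val_mul, mul_apply, Finset.sum_eq_single (x ∘ σ), facPerm_val, facPerm_val, facPerm_val, if_pos rfl,
    one_mul]
  · rfl
  · intro y _ hy
    rw [facPerm_val, if_neg hy, zero_mul]
  · intro h; exact absurd (Finset.mem_univ _) h

theorem facPerm_one : facPerm F m (1 : Equiv.Perm (Fin t)) = 1 := by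
  apply Units.ext
  ext x z
  rw [facPerm_val, Units.val_one, one_apply]
  simp only [Equiv.Perm.coe_one, Function.comp_id, eq_comm]

theorem det_swap_sq (a b : Fin t) :
    GeneralLinearGroup.det (facPerm F m (Equiv.swap a b)) * GeneralLinearGroup.det (facPerm F m (Equiv.swap a b)) = 1 := by
  rw [← map_mul, ← facPerm_mul, Equiv.swap_mul_self, facPerm_one, map_one]

/-- the three-cycle `a → b → c → a` -/
def cyc (a b c : Fin t) : Equiv.Perm (Fin t) :=
  (Equiv.swap a b * Equiv.swap a c) * (Equiv.swap a b * Equiv.swap a c)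

theorem cyc_mem_HS (a b c : Fin t) : facPerm F m (cyc a b c) ∈ HS m t F := by
  refine ⟨facPerm_mem _, ?_⟩
  change _ ∈ MonoidHom.ker _
  rw [MonoidHom.mem_ker, cyc, facPerm_mul, facPerm_mul, map_mul, map_mul]
  have h1 := det_swap_sq (F := F) (m := m) a b
  have h2 := det_swap_sq (F := F) (m := m) a c
  rw [mul_mul_mul_comm, h1, h2, one_mul]

theorem cyc_apply_a {a b c : Fin t} (hac : a ≠ c) (hbc : b ≠ c) : cyc a b c a = b := by
  simp only [cyc, Equiv.Perm.mul_apply, Equiv.swap_apply_left]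
  rw [Equiv.swap_apply_of_ne_of_ne hac.symm hbc.symm, Equiv.swap_apply_right, Equiv.swap_apply_left]

theorem cyc_apply_b {a b c : Fin t} (hab : a ≠ b) (hac : a ≠ c) (hbc : b ≠ c) : cyc a b c b = c := by
  simp only [cyc, Equiv.Perm.mul_apply]
  rw [Equiv.swap_apply_of_ne_of_ne hab.symm hbc, Equiv.swap_apply_right, Equiv.swap_apply_left,
    Equiv.swap_apply_of_ne_of_ne hac.symm hbc.symm]

/-! ### Products of rank one matrices over a set of slots -/

/-- `⊗_{j ∈ J} u_j φ_jᵀ` -/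
def XJ (J : Finset (Fin t)) (u φ : Fin t → Fin m → F) : Matrix (Fin t → Fin m) (Fin t → Fin m) F :=
  pureMat (fun j => if j ∈ J then vecMulVec (u j) (φ j) else 1)

theorem pureMat_zero {x : Fin t → Matrix (Fin m) (Fin m) F} (i : Fin t) (h : x i = 0) : pureMat x = 0 := by
  ext a b
  rw [pureMat_apply, Matrix.zero_apply]
  exact Finset.prod_eq_zero (Finset.mem_univ i) (by rw [h, Matrix.zero_apply])

theorem XJ_insert {J : Finset (Fin t)} {j : Fin t} (hj : j ∉ J) (u φ : Fin t → Fin m → F) :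
    XJ (insert j J) u φ = rk (slotEmb j) (u j) (φ j) * XJ J u φ := by
  rw [rk, slotEmb_apply, slotMat, XJ, XJ, pureMat_mul]
  congr 1
  funext k
  by_cases h : k = j
  · subst h; simp [hj]
  · simp [Function.update_of_ne h, h]

theorem cen_XJ {J : Finset (Fin t)} {j : Fin t} (hj : j ∉ J) (u φ : Fin t → Fin m → F) :
    Cen (slotEmb j) (XJ J u φ) := by
  intro A
  unfold Commute SemiconjBy
  rw [slotEmb_apply, slotMat, XJ, pureMat_mul, pureMat_mul]
  congr 1
  funext k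
  by_cases h : k = j
  · subst h; simp [hj]
  · simp [Function.update_of_ne h]

theorem XJ_commute {J : Finset (Fin t)} {r : Matrix (Fin t → Fin m) (Fin t → Fin m) F}
    (hr : ∀ j ∈ J, Cen (slotEmb j) r) (u φ : Fin t → Fin m → F) : Commute (XJ J u φ) r := by
  rw [XJ, pureMat_eq_prod]
  apply Commute.list_prod_left
  intro y hy
  rw [List.mem_ofFn] at hy
  obtain ⟨i, rfl⟩ := hy
  by_cases h : i ∈ J
  · simp only [h, if_true]
    exact hr i h _
  · simp only [h, if_false]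
    rw [slotMat_one]
    exact Commute.one_left _

theorem XJ_sq {J : Finset (Fin t)} {j : Fin t} (hj : j ∈ J) {u φ : Fin t → Fin m → F}
    (h : φ j ⬝ᵥ u j = 0) : XJ J u φ * XJ J u φ = 0 := by
  rw [XJ, pureMat_mul]
  apply pureMat_zero j
  simp only [hj, if_true]
  rw [vecMulVec_mul_vecMulVec, h, zero_smul, vecMulVec_zero]

theorem XJ_smul {J : Finset (Fin t)} {j : Fin t} (hj : j ∈ J) (u φ : Fin t → Fin m → F) (c : F) :
    XJ J (Function.update u j (c • u j)) φ = c • XJ J u φ := by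
  ext a b
  rw [Matrix.smul_apply, XJ, XJ, pureMat_apply, pureMat_apply, smul_eq_mul,
    ← Finset.mul_prod_erase _ _ (Finset.mem_univ j), ← Finset.mul_prod_erase _ _ (Finset.mem_univ j), ← mul_assoc]
  congr 1
  · simp only [hj, if_true, Function.update_self, vecMulVec_apply, Pi.smul_apply, smul_eq_mul, mul_assoc]
  · refine Finset.prod_congr rfl fun k hk => ?_
    rw [Function.update_of_ne (Finset.ne_of_mem_erase hk)]

/-! ### Spreading -/

section Spread

variable {κ : Type} [Fintype κ] [DecidableEq κ] {M : Subgroup (GL κ F)}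
  {ρ : Matrix (Fin m) (Fin m) F →ₐ[F] Matrix κ κ F}

theorem spread_left (hroot : ∀ c γ : Fin m → F, γ ⬝ᵥ c = 0 → InM M (rk ρ c γ)) {r : Matrix κ κ F} (hr : Cen ρ r)
    {b β c γ : Fin m → F} (h : InM M (rk ρ b β * r)) (h0 : β ⬝ᵥ b = 0) (h1 : β ⬝ᵥ c = 0) (h2 : γ ⬝ᵥ c = 0)
    (h3 : γ ⬝ᵥ b = 1) : InM M (rk ρ c β * r) := by
  have h4 := h.comm_l (hroot c γ h2) (by
    rw [mul_assoc, ← mul_assoc r, ← hr.rk, ← mul_assoc, ← mul_assoc, rk_mul_rk, h0, zero_smul, zero_mul, zero_mul])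
    (by rw [mul_assoc, ← hr.rk, ← mul_assoc, rk_mul_rk, h1, zero_smul, zero_mul])
  rwa [← mul_assoc, rk_mul_rk, h3, one_smul] at h4

theorem spread_right (hroot : ∀ c γ : Fin m → F, γ ⬝ᵥ c = 0 → InM M (rk ρ c γ)) {r : Matrix κ κ F} (hr : Cen ρ r)
    {b β c γ : Fin m → F} (h : InM M (rk ρ b β * r)) (h0 : β ⬝ᵥ b = 0) (h1 : γ ⬝ᵥ b = 0) (h2 : γ ⬝ᵥ c = 0)
    (h3 : β ⬝ᵥ c = 1) : InM M (rk ρ b γ * r) := by
  have h4 := h.comm_r (hroot c γ h2) (by
    rw [mul_assoc, ← mul_assoc r, ← hr.rk, ← mul_assoc, ← mul_assoc, rk_mul_rk, h0, zero_smul, zero_mul, zero_mul])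
    (by rw [← mul_assoc, rk_mul_rk, h1, zero_smul, zero_mul])
  rwa [mul_assoc, ← hr.rk, ← mul_assoc, rk_mul_rk, h3, one_smul] at h4

theorem spread_left' (hm : 3 ≤ m) (hroot : ∀ c γ : Fin m → F, γ ⬝ᵥ c = 0 → InM M (rk ρ c γ)) {r : Matrix κ κ F}
    (hr : Cen ρ r) {b β c : Fin m → F} (hb : b ≠ 0) (h : InM M (rk ρ b β * r)) (h0 : β ⬝ᵥ b = 0)
    (h1 : β ⬝ᵥ c = 0) : InM M (rk ρ c β * r) := by
  obtain ⟨c', γ, g1, g2, g3⟩ := exists_bridge b β hm
  obtain ⟨δ, hδ⟩ := exists_dot_one' hb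
  set δ' := δ - (δ ⬝ᵥ c') • γ with hδ'
  have d1 : δ' ⬝ᵥ b = 1 := by rw [hδ', sub_dotProduct, smul_dotProduct, g2, hδ, smul_zero, sub_zero]
  have d2 : δ' ⬝ᵥ c' = 0 := by rw [hδ', sub_dotProduct, smul_dotProduct, g3, smul_eq_mul, mul_one, sub_self]
  set d := δ' ⬝ᵥ c with hd
  have e1 := spread_left (c := c - (d • b + c')) (γ := δ') hroot hr h h0
    (by rw [dotProduct_sub, dotProduct_add, dotProduct_smul, h0, g1, h1]; simp)
    (by rw [dotProduct_sub, dotProduct_add, dotProduct_smul, d1, d2, ← hd]; simp) d1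
  have e2 := spread_left (c := d • b + c') (γ := δ' - d • γ) hroot hr h h0
    (by rw [dotProduct_add, dotProduct_smul, h0, g1]; simp)
    (by rw [sub_dotProduct, dotProduct_add, dotProduct_smul, d1, d2, smul_dotProduct, dotProduct_add,
      dotProduct_smul, g2, g3]; simp)
    (by rw [sub_dotProduct, smul_dotProduct, g2, d1]; simp)
  have e3 := e1.add e2 (by
    rw [mul_assoc, ← mul_assoc r, ← hr.rk, ← mul_assoc, ← mul_assoc, rk_mul_rk, dotProduct_add, dotProduct_smul,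
      h0, g1, smul_zero, add_zero, zero_smul, zero_mul, zero_mul])
  rwa [← add_mul, ← rk_add_left, sub_add_cancel] at e3

theorem spread_right' (hm : 3 ≤ m) (hroot : ∀ c γ : Fin m → F, γ ⬝ᵥ c = 0 → InM M (rk ρ c γ)) {r : Matrix κ κ F}
    (hr : Cen ρ r) {b β γ : Fin m → F} (hβ : β ≠ 0) (h : InM M (rk ρ b β * r)) (h0 : β ⬝ᵥ b = 0)
    (h1 : γ ⬝ᵥ b = 0) : InM M (rk ρ b γ * r) := by
  obtain ⟨b', β', g1, g2, g3⟩ := exists_bridge b β hm
  obtain ⟨a0, ha0⟩ := exists_dot_one hβ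
  set a' := a0 - (β' ⬝ᵥ a0) • b' with ha'
  have d1 : β ⬝ᵥ a' = 1 := by rw [ha', dotProduct_sub, dotProduct_smul, g1, ha0, smul_zero, sub_zero]
  have d2 : β' ⬝ᵥ a' = 0 := by rw [ha', dotProduct_sub, dotProduct_smul, g3, smul_eq_mul, mul_one, sub_self]
  set e := γ ⬝ᵥ a' with he
  have e1 := spread_right (γ := γ - (e • β + β')) (c := a') hroot hr h h0
    (by rw [sub_dotProduct, add_dotProduct, smul_dotProduct, h0, g2, h1]; simp)
    (by rw [sub_dotProduct, add_dotProduct, smul_dotProduct, d1, d2, ← he]; simp) d1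
  have e2 := spread_right (γ := e • β + β') (c := a' - e • b') hroot hr h h0
    (by rw [add_dotProduct, smul_dotProduct, h0, g2]; simp)
    (by rw [dotProduct_sub, add_dotProduct, smul_dotProduct, d1, d2, dotProduct_smul, add_dotProduct,
      smul_dotProduct, g1, g3]; simp)
    (by rw [dotProduct_sub, dotProduct_smul, g1, d1]; simp)
  have e3 := e1.add e2 (by
    rw [mul_assoc, ← mul_assoc r, ← hr.rk, ← mul_assoc, ← mul_assoc, rk_mul_rk, sub_dotProduct, add_dotProduct,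
      smul_dotProduct, h0, g2, h1, smul_zero, add_zero, sub_zero, zero_smul, zero_mul, zero_mul])
  rwa [← add_mul, ← rk_add_right, sub_add_cancel] at e3

theorem spread (hm : 3 ≤ m) (hroot : ∀ c γ : Fin m → F, γ ⬝ᵥ c = 0 → InM M (rk ρ c γ)) {r : Matrix κ κ F}
    (hr : Cen ρ r) {a α : Fin m → F} (ha : a ≠ 0) (hα : α ≠ 0) (h0 : α ⬝ᵥ a = 0) (h : InM M (rk ρ a α * r))
    {b β : Fin m → F} (hβ : β ⬝ᵥ b = 0) : InM M (rk ρ b β * r) := by
  obtain ⟨c, hc0, hc1, hc2⟩ := exists_two' (α := α) (β := β) hm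
  have h1 := spread_left' hm hroot hr ha h h0 hc1
  have h2 := spread_right' hm hroot hr hα h1 hc1 hc2
  exact spread_left' hm hroot hr hc0 h2 hc2 hβ

/-- if the coefficients at orthogonal pairs vanish, the matrix centralises -/
theorem cen_of_co (hm : 3 ≤ m) {r : Matrix κ κ F} (h : ∀ α b : Fin m → F, α ⬝ᵥ b = 0 → co ρ α b r = 0) : Cen ρ r := by
  have : Nonempty (Fin m) := ⟨⟨0, by omega⟩⟩
  obtain ⟨i0⟩ := this
  have h1 : ∀ i, co ρ (Pi.single i 1) (Pi.single i 1) r = co ρ (Pi.single i0 1) (Pi.single i0 1) r := by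
    intro i
    by_cases hi : i = i0
    · rw [hi]
    have hi' : i0 ≠ i := fun h => hi h.symm
    have e1 := h (Pi.single i 1 - Pi.single i0 1) (Pi.single i 1 + Pi.single i0 1) (by
      rw [sub_dotProduct, dotProduct_add, dotProduct_add, single_dotProduct, single_dotProduct, single_dotProduct,
        single_dotProduct, Pi.single_eq_same, Pi.single_eq_same, Pi.single_eq_of_ne hi, Pi.single_eq_of_ne hi']
      ring)
    have e2 := h (Pi.single i 1) (Pi.single i0 1) (by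
      rw [single_dotProduct, Pi.single_eq_of_ne hi, mul_zero])
    have e3 := h (Pi.single i0 1) (Pi.single i 1) (by
      rw [single_dotProduct, Pi.single_eq_of_ne hi', mul_zero])
    have e4 : co ρ (-Pi.single i0 1) (Pi.single i 1 + Pi.single i0 1) r =
        - co ρ (Pi.single i0 1) (Pi.single i 1 + Pi.single i0 1) r := by
      have := co_smul_left ρ (-1) (Pi.single i0 1) (Pi.single i 1 + Pi.single i0 1) r
      rw [neg_smul, one_smul, neg_smul, one_smul] at this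
      exact this
    rw [sub_eq_add_neg, co_add_left, e4, co_add_right, co_add_right, e2, e3, add_zero, zero_add, add_neg_eq_zero] at e1
    exact e1
  have h2 : r = co ρ (Pi.single i0 1) (Pi.single i0 1) r := by
    conv_lhs => rw [eq_sum_co ρ r]
    have : ∀ i, ∑ j, rk ρ (Pi.single i 1) (Pi.single j 1) * co ρ (Pi.single i 1) (Pi.single j 1) r =
        rk ρ (Pi.single i 1) (Pi.single i 1) * co ρ (Pi.single i0 1) (Pi.single i0 1) r := by
      intro i
      rw [Finset.sum_eq_single i, h1]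
      · intro j _ hj
        rw [h _ _ (by rw [single_dotProduct, Pi.single_eq_of_ne hj.symm, mul_zero]), mul_zero]
      · intro h; exact absurd (Finset.mem_univ _) h
    rw [Finset.sum_congr rfl fun i _ => this i, ← Finset.sum_mul, sum_rk_one, one_mul]
  rw [h2]
  exact cen_co ρ _ _ _

/-- conjugating by `1 + E` -/
theorem InM.shift {Y s E : Matrix κ κ F} (hYs : InM M (Y * s)) (hE : InM M E) (hEE : E * E = 0) (hYY : Y * Y = 0)
    (hc : Commute Y s) (hc' : Commute Y E) : InM M (Y * (E * s - s * E - E * s * E)) := by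
  rw [inM_iff_un hEE] at hE
  have h1 := hYs.conj hE
  have h2 : ((un E hEE : GL κ F) : Matrix κ κ F) = 1 + E := rfl
  have h3 : (((un E hEE)⁻¹ : GL κ F) : Matrix κ κ F) = 1 - E := rfl
  have hsub := h1.sub hYs (by rw [mul_assoc, ← mul_assoc s, ← hc.eq, ← mul_assoc, ← mul_assoc, hYY, zero_mul, zero_mul]) (by
    rw [h2, h3]
    have hc2 : Commute Y (1 - E) := (Commute.one_right Y).sub_right hc'
    calc (1 + E) * (Y * s) * (1 - E) * (Y * s) = (1 + E) * ((Y * s) * ((1 - E) * Y) * s) := by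
          simp only [mul_assoc]
      _ = 0 := by
        rw [← hc2.eq, hc.eq, mul_assoc s, ← mul_assoc Y Y, hYY, zero_mul, mul_zero, zero_mul, mul_zero])
  have h4 : (1 + E) * (Y * s) * (1 - E) - Y * s = Y * (E * s - s * E - E * s * E) := by
    have h5 : E * (Y * s) = Y * (E * s) := by rw [← mul_assoc, ← hc'.eq, mul_assoc]
    rw [add_mul, one_mul, h5, ← mul_add, mul_assoc, mul_sub, mul_one, ← mul_sub, add_mul]
    congr 1
    abel
  rwa [h2, h3, h4] at hsub

theorem InM.quad [Nonempty κ] {Y r : Matrix κ κ F} (hYr : InM M (Y * r)) (hYY : Y * Y = 0) (hc : Commute Y r)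
    (hroot : ∀ c γ : Fin m → F, γ ⬝ᵥ c = 0 → InM M (rk ρ c γ)) (hYc : Cen ρ Y) {b α : Fin m → F}
    (hαb : α ⬝ᵥ b = 0) (hm : 3 ≤ m) : InM M (Y * (rk ρ b α * co ρ α b r)) := by
  obtain ⟨c, γ, h1, h2, h3⟩ := exists_bridge b α hm
  -- α c = 0, γ b = 0, γ c = 1
  · have hE : ∀ x : Matrix κ κ F, ∀ a β, Commute Y x → Commute Y (rk ρ a β * x - x * rk ρ a β - rk ρ a β * x * rk ρ a β) := by
      intro x a β hx
      have hy : Commute Y (rk ρ a β) := (hYc _).symm
      exact ((hy.mul_right hx).sub_right (hx.mul_right hy)).sub_right ((hy.mul_right hx).mul_right hy)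
    have s1 := hYr.shift (hroot b α hαb) (rk_sq hαb) hYY hc (hYc _).symm
    have c1 := hE r b α hc
    have s2 := s1.shift (hroot b γ h2) (rk_sq h2) hYY c1 (hYc _).symm
    have c2 := hE _ b γ c1
    have s3 := s2.shift (hroot c α h1) (rk_sq h1) hYY c2 (hYc _).symm
    rw [rk_mul_co]
    convert s3 using 2
    have p : ∀ a β a' β' (x : Matrix κ κ F), rk ρ a β * (rk ρ a' β' * x) = (β ⬝ᵥ a') • (rk ρ a β' * x) := by
      intro a β a' β' x
      rw [← mul_assoc, rk_mul_rk, smul_mul_assoc]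
    simp only [mul_sub, sub_mul, mul_assoc, p, rk_mul_rk, hαb, h1, h2, h3, zero_smul, one_smul, mul_zero, sub_zero,
      zero_sub, smul_zero, neg_zero, sub_neg_eq_add, mul_neg, neg_mul, neg_neg, sub_self, zero_add, zero_mul,
      add_zero]

end Spread

end Cfsg.Agent.H873.Wr
end

-- part: H873/WrSlot2
section
/-!
A bad slot forces `SL ≤ M`.
-/

set_option autoImplicit false
set_option linter.unusedSectionVars false
set_option linter.unusedSimpArgs false

namespace Cfsg.Agent.H873.Wr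

open Matrix Cfsg.Agent.H919 Cfsg.Geo

variable {F : Type*} [Field F] {t m : ℕ}

/-- the induction predicate -/
def PJ (M : Subgroup (GL (Fin t → Fin m) F)) (J : Finset (Fin t)) (r : Matrix (Fin t → Fin m) (Fin t → Fin m) F) :
    Prop :=
  r ≠ 0 ∧ (∀ j ∈ J, Cen (slotEmb j) r) ∧
    ∀ u φ : Fin t → Fin m → F, (∀ j ∈ J, φ j ⬝ᵥ u j = 0) → InM M (XJ J u φ * r)

theorem PJ.step {M : Subgroup (GL (Fin t → Fin m) F)} (hHM : HS m t F ≤ M) (hm : 3 ≤ m) {J : Finset (Fin t)}
    {r : Matrix (Fin t → Fin m) (Fin t → Fin m) F} (h : PJ M J r) (hJ : J.Nonempty)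
    (hr : ¬ ∃ c : F, r = c • (1 : Matrix (Fin t → Fin m) (Fin t → Fin m) F)) :
    ∃ j, j ∉ J ∧ ∃ r1, PJ M (insert j J) r1 := by
  have hne : Nonempty (Fin t → Fin m) := ⟨fun _ => ⟨0, by omega⟩⟩
  obtain ⟨hr0, hcen, hall⟩ := h
  -- a slot which `r` does not centralise
  obtain ⟨j, hj⟩ : ∃ j, ¬ Cen (slotEmb (F := F) (m := m) j) r := by
    by_contra hcon
    push Not at hcon
    apply hr
    exact scalar_of_commute_slots fun i x => ((hcon i) x).eq.symm
  have hjJ : j ∉ J := fun h => hj (hcen j h)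
  obtain ⟨α, b, hαb, hco⟩ : ∃ α b : Fin m → F, α ⬝ᵥ b = 0 ∧ co (slotEmb j) α b r ≠ 0 := by
    by_contra hcon
    push Not at hcon
    exact hj (cen_of_co hm hcon)
  have hb : b ≠ 0 := by rintro rfl; exact hco (co_zero_right _ _ _)
  have hα : α ≠ 0 := by rintro rfl; exact hco (co_zero_left _ _ _)
  refine ⟨j, hjJ, co (slotEmb j) α b r, hco, ?_, ?_⟩
  · intro k hk
    rw [Finset.mem_insert] at hk
    rcases hk with rfl | hk
    · exact cen_co _ _ _ _
    · have hkj : k ≠ j := fun h => hjJ (h ▸ hk)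
      intro A
      unfold co
      apply Commute.sum_right
      intro l _
      exact ((slotMat_commute hkj _ _ : Commute (slotEmb k A) (rk (slotEmb j) _ _)).mul_right (hcen k hk A)).mul_right
        (slotMat_commute hkj _ _)
  · intro u φ huφ
    obtain ⟨j0, hj0⟩ := hJ
    have h1 := hall u φ fun k hk => huφ k (Finset.mem_insert_of_mem hk)
    have hroot : ∀ c γ : Fin m → F, γ ⬝ᵥ c = 0 → InM M (rk (slotEmb j) c γ) := fun c γ h => (root_mem_HS hm j h).mono hHM
    have h2 := InM.quad (ρ := slotEmb j) h1 (XJ_sq hj0 (huφ j0 (Finset.mem_insert_of_mem hj0)))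
      (XJ_commute hcen u φ) hroot (cen_XJ hjJ u φ) hαb hm
    have h3 : XJ J u φ * (rk (slotEmb j) b α * co (slotEmb j) α b r) =
        rk (slotEmb j) b α * (XJ J u φ * co (slotEmb j) α b r) := by
      rw [← mul_assoc, ← (cen_XJ hjJ u φ).rk b α, mul_assoc]
    rw [h3] at h2
    have h4 := spread hm hroot ((cen_XJ hjJ u φ).mul (cen_co _ _ _ _)) hb hα hαb h2
      (huφ j (Finset.mem_insert_self _ _))
    rwa [XJ_insert hjJ, mul_assoc]

/-- all products of nilpotent rank one matrices over `J` -/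
def AllJ (M : Subgroup (GL (Fin t → Fin m) F)) (J : Finset (Fin t)) : Prop :=
  ∀ u φ : Fin t → Fin m → F, (∀ j ∈ J, φ j ⬝ᵥ u j = 0) → InM M (XJ J u φ)

theorem PJ.exists_all {M : Subgroup (GL (Fin t → Fin m) F)} (hHM : HS m t F ≤ M) (hm : 3 ≤ m) :
    ∀ (n : ℕ) {J : Finset (Fin t)} {r : Matrix (Fin t → Fin m) (Fin t → Fin m) F}, t - J.card ≤ n → PJ M J r →
    J.Nonempty → ∃ J', J ⊆ J' ∧ AllJ M J' := by
  intro n
  induction n with
  | zero =>
    intro J r hn h hJ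
    have hJu : J = Finset.univ := by
      apply Finset.eq_univ_of_card
      rw [Fintype.card_fin]
      have := Finset.card_le_univ J
      rw [Fintype.card_fin] at this
      omega
    by_cases hr : ∃ c : F, r = c • (1 : Matrix (Fin t → Fin m) (Fin t → Fin m) F)
    · obtain ⟨c, rfl⟩ := hr
      obtain ⟨hr0, hcen, hall⟩ := h
      have hc : c ≠ 0 := by rintro rfl; exact hr0 (zero_smul _ _)
      obtain ⟨j0, hj0⟩ := hJ
      refine ⟨J, subset_rfl, fun u φ huφ => ?_⟩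
      have h1 := hall (Function.update u j0 (c⁻¹ • u j0)) φ (by
        intro j hj
        by_cases hjj : j = j0
        · subst hjj; rw [Function.update_self, dotProduct_smul, huφ j hj, smul_zero]
        · rw [Function.update_of_ne hjj, huφ j hj])
      rwa [XJ_smul hj0, smul_mul_smul_comm, mul_one, inv_mul_cancel₀ hc, one_smul] at h1
    · obtain ⟨j, hj, -⟩ := h.step hHM hm hJ hr
      rw [hJu] at hj
      exact absurd (Finset.mem_univ _) hj
  | succ n ih =>
    intro J r hn h hJ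
    by_cases hr : ∃ c : F, r = c • (1 : Matrix (Fin t → Fin m) (Fin t → Fin m) F)
    · obtain ⟨c, rfl⟩ := hr
      obtain ⟨hr0, hcen, hall⟩ := h
      have hc : c ≠ 0 := by rintro rfl; exact hr0 (zero_smul _ _)
      obtain ⟨j0, hj0⟩ := hJ
      refine ⟨J, subset_rfl, fun u φ huφ => ?_⟩
      have h1 := hall (Function.update u j0 (c⁻¹ • u j0)) φ (by
        intro j hj
        by_cases hjj : j = j0
        · subst hjj; rw [Function.update_self, dotProduct_smul, huφ j hj, smul_zero]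
        · rw [Function.update_of_ne hjj, huφ j hj])
      rwa [XJ_smul hj0, smul_mul_smul_comm, mul_one, inv_mul_cancel₀ hc, one_smul] at h1
    · obtain ⟨j, hj, r1, h1⟩ := h.step hHM hm hJ hr
      obtain ⟨J', h2, h3⟩ := ih (by rw [Finset.card_insert_of_notMem hj]; omega) h1 (Finset.insert_nonempty _ _)
      exact ⟨J', (Finset.subset_insert _ _).trans h2, h3⟩

theorem AllJ.union {M : Subgroup (GL (Fin t → Fin m) F)} (hm : 3 ≤ m) {J J' : Finset (Fin t)} {k : Fin t}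
    (h : AllJ M J) (h' : AllJ M J') (hk : k ∈ J) (hk' : k ∈ J') : AllJ M (J ∪ J') := by
  intro v ψ hvψ
  choose b β hb1 hb2 hb3 using fun j => exists_bridge (v j) (ψ j) hm
  -- X = (v, β) on the intersection, (v, ψ) outside; Y = (b, ψ) on the intersection
  let φ1 : Fin t → Fin m → F := fun j => if j ∈ J' then β j else ψ j
  let u2 : Fin t → Fin m → F := fun j => if j ∈ J then b j else v j
  have hX := h v φ1 (by
    intro j hj
    by_cases hj' : j ∈ J'
    · simp only [φ1, hj', if_true, hb2]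
    · simp only [φ1, hj', if_false, hvψ j (Finset.mem_union_left _ hj)])
  have hY := h' u2 ψ (by
    intro j hj'
    by_cases hj : j ∈ J
    · simp only [u2, hj, if_true, hb1]
    · simp only [u2, hj, if_false, hvψ j (Finset.mem_union_right _ hj')])
  have h1 := hX.comm_r hY (XJ_sq hk (by simp only [φ1, hk', if_true, hb2])) (by
    rw [XJ, XJ, pureMat_mul]
    apply pureMat_zero k
    simp only [hk, hk', if_true, u2]
    rw [vecMulVec_mul_vecMulVec, hvψ k (Finset.mem_union_left _ hk), zero_smul, vecMulVec_zero])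
  have h2 : XJ J v φ1 * XJ J' u2 ψ = XJ (J ∪ J') v ψ := by
    rw [XJ, XJ, XJ, pureMat_mul]
    congr 1
    funext j
    by_cases hj : j ∈ J <;> by_cases hj' : j ∈ J'
    · simp only [hj, hj', if_true, φ1, u2, Finset.mem_union, true_or, or_true]
      rw [vecMulVec_mul_vecMulVec, hb3, one_smul]
    · simp only [hj, hj', if_true, if_false, φ1, u2, Finset.mem_union, true_or, or_true, mul_one]
    · simp only [hj, hj', if_true, if_false, φ1, u2, Finset.mem_union, true_or, or_true, one_mul]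
    · simp only [hj, hj', if_true, if_false, φ1, u2, Finset.mem_union, or_false, one_mul]
  rwa [h2] at h1

theorem AllJ.perm {M : Subgroup (GL (Fin t → Fin m) F)} {J : Finset (Fin t)} {σ : Equiv.Perm (Fin t)}
    (h : AllJ M J) (hσ : facPerm F m σ ∈ M) : AllJ M (J.image σ) := by
  intro v ψ hvψ
  have h1 := (h (fun i => v (σ i)) (fun i => ψ (σ i)) (fun j hj => hvψ _ (Finset.mem_image_of_mem _ hj))).conj hσ
  rw [XJ, facPerm_conj] at h1
  convert h1 using 1
  rw [XJ]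
  congr 1
  funext j
  by_cases hj : σ.symm j ∈ J
  · have : j ∈ J.image σ := Finset.mem_image.2 ⟨_, hj, by simp⟩
    simp [this, hj]
  · have : j ∉ J.image σ := by
      intro h
      obtain ⟨k, hk, rfl⟩ := Finset.mem_image.1 h
      apply hj
      simpa using hk
    simp only [this, hj, if_false]

theorem AllJ.univ {M : Subgroup (GL (Fin t → Fin m) F)} (hHM : HS m t F ≤ M) (hm : 3 ≤ m) {J : Finset (Fin t)}
    (h : AllJ M J) (h2 : 2 ≤ J.card) : AllJ M Finset.univ := by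
  classical
  obtain ⟨K, hK, hmax⟩ := Finset.exists_max_image
    (Finset.univ.filter fun K : Finset (Fin t) => AllJ M K ∧ 2 ≤ K.card) Finset.card
    ⟨J, by simp [h, h2]⟩
  simp only [Finset.mem_filter, Finset.mem_univ, true_and] at hK hmax
  have hKu : K = Finset.univ := by
    by_contra hne
    obtain ⟨c, hc⟩ : ∃ c, c ∉ K := by
      by_contra hcon
      push Not at hcon
      exact hne (Finset.eq_univ_of_forall hcon)
    obtain ⟨a, ha, b, hb, hab⟩ := Finset.one_lt_card.1 hK.2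
    have hac : a ≠ c := fun h => hc (h ▸ ha)
    have hbc : b ≠ c := fun h => hc (h ▸ hb)
    have h3 := hK.1.perm (hHM (cyc_mem_HS a b c))
    have hb' : b ∈ K.image (cyc a b c) := Finset.mem_image.2 ⟨a, ha, cyc_apply_a hac hbc⟩
    have hc' : c ∈ K.image (cyc a b c) := Finset.mem_image.2 ⟨b, hb, cyc_apply_b hab hac hbc⟩
    have h4 := hK.1.union hm h3 hb hb'
    have h5 := hmax _ ⟨h4, hK.2.trans (Finset.card_le_card Finset.subset_union_left)⟩
    have h6 : K ⊂ K ∪ K.image (cyc a b c) := by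
      refine ⟨Finset.subset_union_left, fun h => hc (h (Finset.mem_union_right _ hc'))⟩
    have := Finset.card_lt_card h6
    omega
  rw [← hKu]
  exact hK.1

/-- the pure tensor of vectors -/
def pv (u : Fin t → Fin m → F) : (Fin t → Fin m) → F := fun x => ∏ i, u i (x i)

theorem pureMat_vmv (u φ : Fin t → Fin m → F) :
    pureMat (fun j => vecMulVec (u j) (φ j)) = vecMulVec (pv u) (pv φ) := by
  ext a b
  rw [pureMat_apply, vecMulVec_apply, pv, pv, ← Finset.prod_mul_distrib]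
  rfl

theorem pv_dot (φ u : Fin t → Fin m → F) : pv φ ⬝ᵥ pv u = ∏ i, φ i ⬝ᵥ u i := by
  simp only [dotProduct, pv]
  rw [Finset.prod_univ_sum, Fintype.piFinset_univ]
  refine Finset.sum_congr rfl fun x _ => ?_
  rw [Finset.prod_mul_distrib]

theorem pv_single (f : Fin t → Fin m) :
    pv (fun i => (Pi.single (f i) 1 : Fin m → F)) = Pi.single f 1 := by
  funext x
  rw [pv]
  by_cases h : x = f
  · subst h; simp
  · rw [Pi.single_eq_of_ne h]
    obtain ⟨i, hi⟩ := Function.ne_iff.1 h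
    exact Finset.prod_eq_zero (Finset.mem_univ i) (Pi.single_eq_of_ne hi _)

theorem pv_update_smul (u : Fin t → Fin m → F) (i : Fin t) (c : F) :
    pv (Function.update u i (c • u i)) = c • pv u := by
  funext x
  rw [pv, Pi.smul_apply, pv, smul_eq_mul, ← Finset.mul_prod_erase _ _ (Finset.mem_univ i),
    ← Finset.mul_prod_erase _ _ (Finset.mem_univ i), ← mul_assoc, Function.update_self, Pi.smul_apply, smul_eq_mul]
  congr 1
  refine Finset.prod_congr rfl fun k hk => ?_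
  rw [Function.update_of_ne (Finset.ne_of_mem_erase hk)]

theorem AllJ.sl {M : Subgroup (GL (Fin t → Fin m) F)} (hm : 3 ≤ m) (ht : 0 < t)
    (h : AllJ M Finset.univ) : specialLinear (Fin t → Fin m) F ≤ M := by
  have : Nonempty (Fin t) := ⟨⟨0, ht⟩⟩
  have : Nontrivial (Fin m) := Fin.nontrivial_iff_two_le.2 (by omega)
  have i0 : Fin t := ⟨0, ht⟩
  -- entries differing in all coordinates
  have h1 : ∀ (f g : Fin t → Fin m), (∀ i, f i ≠ g i) → ∀ c : F, HasTv M (c • Pi.single f 1) (Pi.single g 1) := by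
    intro f g hfg c
    have hd : (Pi.single g 1 : (Fin t → Fin m) → F) ⬝ᵥ (c • Pi.single f 1) = 0 := by
      rw [dotProduct_smul, single_dotProduct, Pi.single_eq_of_ne, mul_zero, smul_zero]
      intro h
      exact hfg i0 (congrFun h.symm i0)
    refine ⟨hd, ?_⟩
    have h2 := h (Function.update (fun i => Pi.single (f i) 1) i0 (c • Pi.single (f i0) 1)) (fun i => Pi.single (g i) 1) (by
      intro j _
      by_cases hj : j = i0
      · subst hj
        rw [Function.update_self, dotProduct_smul, single_dotProduct, Pi.single_eq_of_ne (hfg j).symm, mul_zero,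
          smul_zero]
      · rw [Function.update_of_ne hj, single_dotProduct, Pi.single_eq_of_ne (hfg j).symm, mul_zero])
    obtain ⟨g', hg', he⟩ := h2
    refine ⟨g', hg', ?_⟩
    rw [he]
    congr 1
    rw [XJ]
    simp only [Finset.mem_univ, if_true]
    rw [pureMat_vmv, pv_single, pv_update_smul (fun i => (Pi.single (f i) 1 : Fin m → F)) i0 c, pv_single]
  apply specialLinear_le_of_hasTv
  intro f g hfg c
  -- a third function
  have h3 : ∀ i, ∃ k : Fin m, k ≠ f i ∧ k ≠ g i := by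
    intro i
    by_contra hcon
    push Not at hcon
    have : (Finset.univ : Finset (Fin m)) ⊆ {f i, g i} := by
      intro k _
      by_cases hk : k = f i
      · simp [hk]
      · simp [hcon k hk]
    have h4 := Finset.card_le_card this
    have h5 := Finset.card_le_two (a := f i) (b := g i)
    rw [Finset.card_univ, Fintype.card_fin] at h4
    omega
  choose k hk1 hk2 using h3
  have h4 := h1 f k (fun i => (hk1 i).symm) c
  have h5 := h1 k g hk2 1
  -- commutator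
  have h6 := h5.comm h4 (by
    rw [dotProduct_smul, single_dotProduct, Pi.single_eq_of_ne hfg.symm, mul_zero, smul_zero])
  rw [dotProduct_smul, single_dotProduct, Pi.single_eq_same, mul_one, smul_eq_mul, mul_one, one_smul] at h6
  exact h6

/-- **A bad slot forces `SL ≤ M`.** -/
theorem sl_le_of_bad {M : Subgroup (GL (Fin t → Fin m) F)} (hHM : HS m t F ≤ M) (hm : 3 ≤ m) {i : Fin t}
    {a α : Fin m → F} (ha : a ≠ 0) (hα : α ≠ 0) (h0 : α ⬝ᵥ a = 0) {r : Matrix (Fin t → Fin m) (Fin t → Fin m) F}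
    (hr : Cen (slotEmb i) r) (hM : InM M (rk (slotEmb i) a α * r))
    (hns : ¬ ∃ c : F, r = c • (1 : Matrix (Fin t → Fin m) (Fin t → Fin m) F)) :
    specialLinear (Fin t → Fin m) F ≤ M := by
  have hroot : ∀ c γ : Fin m → F, γ ⬝ᵥ c = 0 → InM M (rk (slotEmb i) c γ) := fun c γ h => (root_mem_HS hm i h).mono hHM
  have h1 : PJ M {i} r := by
    refine ⟨?_, ?_, ?_⟩
    · rintro rfl
      exact hns ⟨0, (zero_smul _ _).symm⟩
    · intro j hj
      rw [Finset.mem_singleton] at hj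
      rw [hj]; exact hr
    · intro u φ huφ
      have h2 := spread hm hroot hr ha hα h0 hM (huφ i (Finset.mem_singleton_self i))
      have h3 : XJ {i} u φ = rk (slotEmb i) (u i) (φ i) := by
        rw [XJ, rk, slotEmb_apply, slotMat]
        congr 1
        funext j
        by_cases hj : j = i
        · subst hj; simp
        · simp [hj]
      rwa [h3]
  obtain ⟨j, hj, r1, h2⟩ := h1.step hHM hm (Finset.singleton_nonempty _) hns
  obtain ⟨J', h3, h4⟩ := h2.exists_all hHM hm t (Nat.sub_le _ _) (Finset.insert_nonempty _ _)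
  have h5 : 2 ≤ J'.card := by
    have := Finset.card_le_card h3
    rw [Finset.card_insert_of_notMem hj, Finset.card_singleton] at this
    exact this
  exact (h4.univ hHM hm h5).sl hm (lt_of_le_of_lt (Nat.zero_le _) i.2)

/-- every proper overgroup is good at every slot -/
theorem ge_slot {M : Subgroup (GL (Fin t → Fin m) F)} (hHM : HS m t F ≤ M) (hm : 3 ≤ m)
    (hM : ¬ specialLinear (Fin t → Fin m) F ≤ M) (i : Fin t) : GE M (slotEmb (F := F) (m := m) i) where
  sl := sl_slot hHM hm i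
  nt a α r ha hα h0 hr hMr := by
    by_contra hns
    exact hM (sl_le_of_bad hHM hm ha hα h0 hr hMr hns)

end Cfsg.Agent.H873.Wr
end

-- part: H873/WrStd
section
/-!
The elements of the standard tensor wreath subgroup; pure vectors; root subgroups of the wreath subgroup lie in slots
(fields with more than two elements).
-/

set_option autoImplicit false
set_option linter.unusedSectionVars false
set_option linter.unusedSimpArgs false

namespace Cfsg.Agent.H873.Wr

open Matrix Cfsg.Agent.H919 Cfsg.Geo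

variable {F : Type*} [Field F] {t m : ℕ}

theorem pureGL_mul (g h : Fin t → GL (Fin m) F) : pureGL g * pureGL h = pureGL (fun i => g i * h i) := by
  apply Units.ext
  rw [Units.val_mul, pureGL_val, pureGL_val, pureGL_val, pureMat_mul]
  rfl

theorem pureGL_one : pureGL (fun _ : Fin t => (1 : GL (Fin m) F)) = 1 := by
  apply Units.ext
  rw [pureGL_val]
  exact pureMat_one

theorem pureGL_inv (g : Fin t → GL (Fin m) F) : (pureGL g)⁻¹ = pureGL (fun i => (g i)⁻¹) := by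
  rw [inv_eq_iff_mul_eq_one, pureGL_mul]
  simp only [mul_inv_cancel]
  exact pureGL_one

theorem facPerm_inv (σ : Equiv.Perm (Fin t)) : (facPerm F m σ)⁻¹ = facPerm F m σ⁻¹ := by
  rw [inv_eq_iff_mul_eq_one, ← facPerm_mul, mul_inv_cancel, facPerm_one]

theorem facPerm_pureGL (σ : Equiv.Perm (Fin t)) (g : Fin t → GL (Fin m) F) :
    facPerm F m σ * pureGL g = pureGL (fun i => g (σ.symm i)) * facPerm F m σ := by
  rw [← mul_inv_eq_iff_eq_mul]
  apply Units.ext
  rw [Units.val_mul, Units.val_mul, pureGL_val, facPerm_conj, pureGL_val]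

/-- every element of the standard wreath subgroup is a pure tensor times a permutation of the factors -/
theorem mem_std {h : GL (Fin t → Fin m) F} (hh : h ∈ tensorWreathStandard m t F) :
    ∃ (g : Fin t → GL (Fin m) F) (σ : Equiv.Perm (Fin t)), h = pureGL g * facPerm F m σ := by
  unfold tensorWreathStandard at hh
  induction hh using Subgroup.closure_induction with
  | mem x hx =>
    rcases hx with ⟨gs, hgs⟩ | ⟨σ, hσ⟩
    · refine ⟨gs, 1, ?_⟩
      rw [facPerm_one, mul_one]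
      apply Units.ext
      ext a b
      rw [hgs, pureGL_val, pureMat_apply]
    · refine ⟨fun _ => 1, σ, ?_⟩
      rw [pureGL_one, one_mul]
      apply Units.ext
      ext a b
      rw [hσ, facPerm_val]
  | one => exact ⟨fun _ => 1, 1, by rw [pureGL_one, facPerm_one, one_mul]⟩
  | mul x y _ _ hx hy =>
    obtain ⟨g, σ, rfl⟩ := hx
    obtain ⟨g', σ', rfl⟩ := hy
    refine ⟨fun i => g i * g' (σ.symm i), σ * σ', ?_⟩
    rw [facPerm_mul, ← pureGL_mul, mul_assoc, ← mul_assoc (facPerm F m σ), facPerm_pureGL]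
    simp only [mul_assoc]
  | inv x _ hx =>
    obtain ⟨g, σ, rfl⟩ := hx
    refine ⟨fun i => (g (σ⁻¹.symm i))⁻¹, σ⁻¹, ?_⟩
    rw [_root_.mul_inv_rev, pureGL_inv, facPerm_inv, facPerm_pureGL]

theorem pureMat_mulVec_pv (x : Fin t → Matrix (Fin m) (Fin m) F) (u : Fin t → Fin m → F) :
    pureMat x *ᵥ pv u = pv (fun i => x i *ᵥ u i) := by
  funext a
  change ∑ b, pureMat x a b * pv u b = pv (fun i => x i *ᵥ u i) a
  simp only [pv, pureMat_apply, mulVec, dotProduct]
  rw [Finset.prod_univ_sum, Fintype.piFinset_univ]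
  refine Finset.sum_congr rfl fun b _ => ?_
  rw [Finset.prod_mul_distrib]

theorem facPerm_mulVec (σ : Equiv.Perm (Fin t)) (v : (Fin t → Fin m) → F) (x : Fin t → Fin m) :
    ((facPerm F m σ : GL (Fin t → Fin m) F) : Matrix (Fin t → Fin m) (Fin t → Fin m) F).mulVec v x = v (x ∘ σ) := by
  rw [mulVec, dotProduct, Finset.sum_eq_single (x ∘ σ)]
  · rw [facPerm_val, if_pos rfl, one_mul]
  · intro y _ hy
    rw [facPerm_val, if_neg hy, zero_mul]
  · intro h; exact absurd (Finset.mem_univ _) h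

theorem facPerm_mulVec_pv (σ : Equiv.Perm (Fin t)) (u : Fin t → Fin m → F) :
    ((facPerm F m σ : GL (Fin t → Fin m) F) : Matrix (Fin t → Fin m) (Fin t → Fin m) F) *ᵥ pv u =
      pv (fun i => u (σ.symm i)) := by
  funext x
  rw [facPerm_mulVec, pv, pv]
  rw [← Equiv.prod_comp σ (fun i => u (σ.symm i) (x i))]
  simp

theorem std_mulVec_pv (g : Fin t → GL (Fin m) F) (σ : Equiv.Perm (Fin t)) (u : Fin t → Fin m → F) :
    ((pureGL g * facPerm F m σ : GL (Fin t → Fin m) F) : Matrix (Fin t → Fin m) (Fin t → Fin m) F) *ᵥ pv u =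
      pv (fun i => (g i : Matrix (Fin m) (Fin m) F) *ᵥ u (σ.symm i)) := by
  rw [Units.val_mul, ← mulVec_mulVec, facPerm_mulVec_pv, pureGL_val, pureMat_mulVec_pv]

/-- a functional not killing two given non-zero vectors -/
theorem exists_dot_ne {p q : Fin m → F} (hp : p ≠ 0) (hq : q ≠ 0) : ∃ φ : Fin m → F, φ ⬝ᵥ p ≠ 0 ∧ φ ⬝ᵥ q ≠ 0 := by
  obtain ⟨φ, hφ⟩ := exists_dot_one' hp
  obtain ⟨ψ, hψ⟩ := exists_dot_one' hq
  by_cases h1 : φ ⬝ᵥ q = 0
  · by_cases h2 : ψ ⬝ᵥ p = 0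
    · refine ⟨φ + ψ, ?_, ?_⟩
      · rw [add_dotProduct, hφ, h2, add_zero]; exact one_ne_zero
      · rw [add_dotProduct, hψ, h1, zero_add]; exact one_ne_zero
    · exact ⟨ψ, h2, by rw [hψ]; exact one_ne_zero⟩
  · exact ⟨φ, by rw [hφ]; exact one_ne_zero, h1⟩

/-- dual basis of two independent vectors -/
theorem exists_dual {p q : Fin m → F} (hp : p ≠ 0) (hq : ∀ c : F, q ≠ c • p) :
    ∃ α β : Fin m → F, α ⬝ᵥ p = 1 ∧ α ⬝ᵥ q = 0 ∧ β ⬝ᵥ p = 0 ∧ β ⬝ᵥ q = 1 := by
  obtain ⟨φ, hφ⟩ := exists_dot_one' hp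
  have h1 : q - (φ ⬝ᵥ q) • p ≠ 0 := fun h => hq _ (sub_eq_zero.1 h)
  obtain ⟨ψ, hψ⟩ := exists_dot_one' h1
  -- β := ψ - (ψ p) φ
  refine ⟨φ - (φ ⬝ᵥ q) • (ψ - (ψ ⬝ᵥ p) • φ), ψ - (ψ ⬝ᵥ p) • φ, ?_, ?_, ?_, ?_⟩
  · rw [sub_dotProduct, smul_dotProduct, sub_dotProduct, smul_dotProduct, hφ]; simp
  · have : (ψ - (ψ ⬝ᵥ p) • φ) ⬝ᵥ q = 1 := by
      rw [sub_dotProduct, smul_dotProduct, ← hψ, dotProduct_sub, dotProduct_smul, smul_eq_mul, smul_eq_mul]; ring
    rw [sub_dotProduct, smul_dotProduct, this, smul_eq_mul, mul_one, sub_self]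
  · rw [sub_dotProduct, smul_dotProduct, hφ]; simp
  · rw [sub_dotProduct, smul_dotProduct, ← hψ, dotProduct_sub, dotProduct_smul, smul_eq_mul, smul_eq_mul]; ring

/-- a combination of two pure vectors independent in two slots is not pure -/
theorem pure_comb {u u' u'' : Fin t → Fin m → F} (hu : ∀ i, u i ≠ 0) (hu' : ∀ i, u' i ≠ 0) {i j : Fin t}
    (hij : i ≠ j) (hi : ∀ c : F, u' i ≠ c • u i) (hj : ∀ c : F, u' j ≠ c • u j) {a b : F}
    (h : a • pv u + b • pv u' = pv u'') : a * b = 0 := by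
  choose φ hφ hφ' using fun k => exists_dot_ne (hu k) (hu' k)
  obtain ⟨α, β, h1, h2, h3, h4⟩ := exists_dual (hu i) hi
  obtain ⟨α', β', h1', h2', h3', h4'⟩ := exists_dual (hu j) hj
  have key : ∀ (x y : Fin m → F) (w : Fin t → Fin m → F),
      pv (Function.update (Function.update φ i x) j y) ⬝ᵥ pv w =
        (x ⬝ᵥ w i) * (y ⬝ᵥ w j) * ∏ k ∈ (Finset.univ.erase i).erase j, φ k ⬝ᵥ w k := by
    intro x y w
    rw [pv_dot, ← Finset.mul_prod_erase _ _ (Finset.mem_univ i),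
      ← Finset.mul_prod_erase (Finset.univ.erase i) _ (Finset.mem_erase.2 ⟨hij.symm, Finset.mem_univ j⟩),
      Function.update_of_ne hij, Function.update_self, Function.update_self, ← mul_assoc]
    congr 1
    refine Finset.prod_congr rfl fun k hk => ?_
    rw [Finset.mem_erase, Finset.mem_erase] at hk
    rw [Function.update_of_ne hk.1, Function.update_of_ne hk.2.1]
  set A := ∏ k ∈ (Finset.univ.erase i).erase j, φ k ⬝ᵥ u k with hA
  set B := ∏ k ∈ (Finset.univ.erase i).erase j, φ k ⬝ᵥ u' k with hB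
  set C := ∏ k ∈ (Finset.univ.erase i).erase j, φ k ⬝ᵥ u'' k with hC
  have hA0 : A ≠ 0 := Finset.prod_ne_zero_iff.2 fun k _ => hφ k
  have hB0 : B ≠ 0 := Finset.prod_ne_zero_iff.2 fun k _ => hφ' k
  have e : ∀ x y : Fin m → F, a * ((x ⬝ᵥ u i) * (y ⬝ᵥ u j) * A) + b * ((x ⬝ᵥ u' i) * (y ⬝ᵥ u' j) * B) =
      (x ⬝ᵥ u'' i) * (y ⬝ᵥ u'' j) * C := by
    intro x y
    rw [hA, hB, hC, ← key x y u, ← key x y u', ← key x y u'', ← h, dotProduct_add, dotProduct_smul, dotProduct_smul,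
      smul_eq_mul, smul_eq_mul]
  have e1 := e α α'
  have e2 := e β β'
  have e3 := e α β'
  have e4 := e β α'
  rw [h1, h1', h2, h2'] at e1
  rw [h3, h3', h4, h4'] at e2
  rw [h1, h2, h3', h4'] at e3
  rw [h3, h4, h1', h2'] at e4
  simp only [mul_zero, zero_mul, one_mul, mul_one, add_zero, zero_add] at e1 e2 e3 e4
  have e5 : (a * A) * (b * B) = 0 := by
    rw [e1, e2]
    have : (α ⬝ᵥ u'' i * α' ⬝ᵥ u'' j * C) * (β ⬝ᵥ u'' i * β' ⬝ᵥ u'' j * C) =
      (α ⬝ᵥ u'' i * β' ⬝ᵥ u'' j * C) * (β ⬝ᵥ u'' i * α' ⬝ᵥ u'' j * C) := by ring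
    rw [this, ← e3, zero_mul]
  have e6 : (a * b) * (A * B) = 0 := by rw [← e5]; ring
  rcases mul_eq_zero.1 e6 with h | h
  · exact h
  · exact absurd h (mul_ne_zero hA0 hB0)

theorem exists_avoid (p q : Fin m → F) (hm : 3 ≤ m) :
    ∃ y : Fin m → F, (∀ c : F, y ≠ c • p) ∧ (∀ c : F, y ≠ c • q) := by
  obtain ⟨β, h0, h1, h2⟩ := exists_two (a := p) (b := q) hm
  obtain ⟨y, hy⟩ := exists_dot_one h0
  refine ⟨y, ?_, ?_⟩
  · rintro c rfl
    rw [dotProduct_smul, h1, smul_zero] at hy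
    exact zero_ne_one hy
  · rintro c rfl
    rw [dotProduct_smul, h2, smul_zero] at hy
    exact zero_ne_one hy

theorem gl_mulVec_ne_zero (g : GL (Fin m) F) {x : Fin m → F} (hx : x ≠ 0) : (g : Matrix (Fin m) (Fin m) F) *ᵥ x ≠ 0 := by
  intro h
  apply hx
  have : ((g⁻¹ : GL (Fin m) F) : Matrix (Fin m) (Fin m) F) *ᵥ ((g : Matrix (Fin m) (Fin m) F) *ᵥ x) = 0 := by
    rw [h, mulVec_zero]
  rwa [mulVec_mulVec, Units.inv_mul, one_mulVec] at this

theorem exists_ne_zero_vec (hm : 3 ≤ m) : ∃ x : Fin m → F, x ≠ 0 := by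
  obtain ⟨b, hb, -⟩ := exists_two' (α := (0 : Fin m → F)) (β := 0) hm
  exact ⟨b, hb⟩

/-- an element whose powers-like family `1 + cY` lies in the wreath subgroup does not permute the slots -/
theorem perm_eq_one (hm : 3 ≤ m) (hF : ∃ c : F, c ≠ 0 ∧ c ≠ 1) {Y : Matrix (Fin t → Fin m) (Fin t → Fin m) F}
    (hY : ∀ c : F, InM (tensorWreathStandard m t F) (c • Y)) {g : Fin t → GL (Fin m) F} {σ : Equiv.Perm (Fin t)}
    (h : ((pureGL g * facPerm F m σ : GL (Fin t → Fin m) F) : Matrix (Fin t → Fin m) (Fin t → Fin m) F) = 1 + Y) :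
    σ = 1 := by
  by_contra hσ
  obtain ⟨i, hi⟩ : ∃ i, σ i ≠ i := by
    by_contra hcon
    push Not at hcon
    exact hσ (Equiv.ext hcon)
  obtain ⟨x, hx⟩ := exists_ne_zero_vec (F := F) hm
  obtain ⟨y, hy1, hy2⟩ := exists_avoid (((g i)⁻¹ : GL (Fin m) F).1 *ᵥ x) ((g (σ i) : Matrix (Fin m) (Fin m) F) *ᵥ x) hm
  have hy0 : y ≠ 0 := by
    have := hy1 0
    rwa [zero_smul] at this
  let u : Fin t → Fin m → F := Function.update (fun _ => y) i x
  have hu : ∀ k, u k ≠ 0 := by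
    intro k
    by_cases hk : k = i
    · subst hk; simp only [u, Function.update_self]; exact hx
    · simp only [u, Function.update_of_ne hk]; exact hy0
  let u' : Fin t → Fin m → F := fun k => (g k : Matrix (Fin m) (Fin m) F) *ᵥ u (σ.symm k)
  have hu' : ∀ k, u' k ≠ 0 := fun k => gl_mulVec_ne_zero _ (hu _)
  have h1 : pv u + Y *ᵥ pv u = pv u' := by
    have := std_mulVec_pv g σ u
    rwa [h, add_mulVec, one_mulVec] at this
  obtain ⟨c, hc0, hc1⟩ := hF
  obtain ⟨k, hk, hkc⟩ := hY c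
  obtain ⟨g', σ', rfl⟩ := mem_std hk
  have h2 := std_mulVec_pv g' σ' u
  rw [hkc, add_mulVec, one_mulVec, smul_mulVec] at h2
  have h3 : (1 - c) • pv u + c • pv u' = pv (fun i => (g' i : Matrix (Fin m) (Fin m) F) *ᵥ u (σ'.symm i)) := by
    rw [← h2, ← h1, smul_add, sub_smul, one_smul]
    abel
  have hσi : σ.symm i ≠ i := by
    intro h
    apply hi
    conv_lhs => rw [← h]
    simp
  have h4 := pure_comb hu hu' (i := i) (j := σ i) (fun h => hi h.symm) (by
    intro d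
    simp only [u', u, Function.update_of_ne hσi, Function.update_self]
    intro h5
    by_cases hd : d = 0
    · rw [hd, zero_smul] at h5
      exact gl_mulVec_ne_zero _ hy0 h5
    apply hy1 d
    have := congrArg (fun z => (((g i)⁻¹ : GL (Fin m) F) : Matrix (Fin m) (Fin m) F) *ᵥ z) h5
    simp only [mulVec_mulVec, Units.inv_mul, one_mulVec, mulVec_smul] at this
    exact this) (by
    intro d
    simp only [u', u, Equiv.symm_apply_apply, Function.update_self, Function.update_of_ne hi]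
    intro h5
    have hd : d ≠ 0 := by
      rintro rfl
      rw [zero_smul] at h5
      exact gl_mulVec_ne_zero _ hx h5
    apply hy2 d⁻¹
    rw [h5, smul_smul, inv_mul_cancel₀ hd, one_smul]) h3
  rcases mul_eq_zero.1 h4 with h5 | h5
  · exact hc1 (sub_eq_zero.1 h5).symm
  · exact hc0 h5

/-- `pureGL g` factors as slot `j` times an element centralising slot `j` -/
theorem pureGL_factor (g : Fin t → GL (Fin m) F) (j : Fin t) :
    (pureGL g : Matrix (Fin t → Fin m) (Fin t → Fin m) F) =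
      slotEmb j (g j : Matrix (Fin m) (Fin m) F) *
        ((pureGL (Function.update g j 1) : GL (Fin t → Fin m) F) : Matrix (Fin t → Fin m) (Fin t → Fin m) F) := by
  rw [pureGL_val, pureGL_val, slotEmb_apply, slotMat, pureMat_mul]
  congr 1
  funext k
  by_cases h : k = j
  · subst h; simp
  · simp [Function.update_of_ne h]

theorem cen_pureGL (g : Fin t → GL (Fin m) F) (j : Fin t) :
    Cen (slotEmb j) ((pureGL (Function.update g j 1) : GL (Fin t → Fin m) F) :
      Matrix (Fin t → Fin m) (Fin t → Fin m) F) := by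
  intro A
  unfold Commute SemiconjBy
  rw [slotEmb_apply, slotMat, pureGL_val, pureMat_mul, pureMat_mul]
  congr 1
  funext k
  by_cases h : k = j
  · subst h; simp
  · simp [Function.update_of_ne h]

/-- rank of the slots -/
theorem slot_rank_eq [Nonempty (Fin t → Fin m)] {w : ℕ} {i : Fin t} (h : ∀ a α : Fin m → F, a ≠ 0 → α ≠ 0 → (rk (slotEmb i) a α).rank = w)
    (j : Fin t) (a α : Fin m → F) (ha : a ≠ 0) (hα : α ≠ 0) : (rk (slotEmb j) a α).rank = w := by
  have h1 : rk (slotEmb j) a α = conjA (facPerm F m (Equiv.swap i j)) (rk (slotEmb i) a α) := by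
    rw [conjA_apply, rk, rk, slotEmb_apply, slotEmb_apply, slotMat_apply_facPerm, Equiv.swap_apply_left]
  rw [h1, rank_conjA, h a α ha hα]

theorem mem_range_of_scalar (i : Fin t) (c : F) :
    ∃ A, slotEmb (F := F) (m := m) i A = c • (1 : Matrix (Fin t → Fin m) (Fin t → Fin m) F) :=
  ⟨c • 1, by rw [map_smul, map_one]⟩

/-- **Root subgroups of the wreath subgroup lie in slots.** -/
theorem slot_of_root (hm : 3 ≤ m) (ht : 0 < t) (hF : ∃ c : F, c ≠ 0 ∧ c ≠ 1) {w : ℕ}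
    (hw : ∀ (i : Fin t) (a α : Fin m → F), a ≠ 0 → α ≠ 0 → (rk (slotEmb i) a α).rank = w)
    {Y : Matrix (Fin t → Fin m) (Fin t → Fin m) F}
    (hY : ∀ c : F, InM (tensorWreathStandard m t F) (c • Y)) (hr : Y.rank ≤ w) :
    ∃ j : Fin t, ∃ A, slotEmb j A = Y := by
  have hne : Nonempty (Fin t → Fin m) := ⟨fun _ => ⟨0, by omega⟩⟩
  have h1 := hY 1
  rw [one_smul] at h1
  obtain ⟨h, hh, he⟩ := h1
  obtain ⟨g, σ, rfl⟩ := mem_std hh
  have hσ := perm_eq_one hm hF hY he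
  subst hσ
  rw [facPerm_one, mul_one] at he
  by_cases hs : ∃ j, ¬ ∃ c : F, (g j : Matrix (Fin m) (Fin m) F) = c • (1 : Matrix (Fin m) (Fin m) F)
  · obtain ⟨j, hj⟩ := hs
    have h2 := pureGL_factor g j
    obtain ⟨c, hc⟩ := scalar_of_rank_le (ρ := slotEmb j) hm (w := w) (fun a α ha hα => (hw j a α ha hα).ge)
      (cen_pureGL g j) (by rw [← h2, he, add_sub_cancel_left]; exact hr) hj
    refine ⟨j, c • (g j : Matrix (Fin m) (Fin m) F) - 1, ?_⟩
    have h3 : Y = (pureGL g : Matrix (Fin t → Fin m) (Fin t → Fin m) F) - 1 := by rw [he, add_sub_cancel_left]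
    rw [h3, h2, hc, mul_smul_comm, mul_one, map_sub, map_smul, map_one]
  · push Not at hs
    choose c hc using hs
    refine ⟨⟨0, ht⟩, ?_⟩
    have h3 : Y = (pureGL g : Matrix (Fin t → Fin m) (Fin t → Fin m) F) - 1 := by rw [he, add_sub_cancel_left]
    have h4 : (pureGL g : Matrix (Fin t → Fin m) (Fin t → Fin m) F) = (∏ i, c i) • 1 := by
      rw [pureGL_val]
      simp only [hc]
      rw [← pureMat_one]
      ext a b
      rw [pureMat_apply, Matrix.smul_apply, pureMat_apply, smul_eq_mul, ← Finset.prod_mul_distrib]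
      rfl
    refine ⟨(∏ i, c i) • 1 - 1, ?_⟩
    rw [h3, h4, map_sub, map_smul, map_one]

/-- the wreath subgroup does not contain `SL` -/
theorem not_sl_le (hm : 3 ≤ m) (ht : 2 ≤ t) : ¬ specialLinear (Fin t → Fin m) F ≤ tensorWreathStandard m t F := by
  intro h
  let f : Fin t → Fin m := fun _ => ⟨0, by omega⟩
  let g : Fin t → Fin m := fun _ => ⟨1, by omega⟩
  have hne : (⟨0, by omega⟩ : Fin m) ≠ ⟨1, by omega⟩ := by simp
  have hfg : (Pi.single g 1 : (Fin t → Fin m) → F) ⬝ᵥ Pi.single f 1 = 0 := by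
    rw [single_dotProduct, Pi.single_eq_of_ne, mul_zero]
    intro h
    exact hne (congrFun h.symm ⟨0, by omega⟩)
  have h1 := h (tv_mem_specialLinear (Pi.single f 1) (Pi.single g 1) hfg)
  obtain ⟨x, σ, hx⟩ := mem_std h1
  have h2 := tv_mulVec (Pi.single f 1) (Pi.single g 1) hfg (Pi.single g 1 : (Fin t → Fin m) → F)
  have h3 : (Pi.single g 1 : (Fin t → Fin m) → F) ⬝ᵥ Pi.single g 1 = 1 := by
    rw [single_dotProduct, Pi.single_eq_same, mul_one]
  rw [h3, one_smul, hx, ← pv_single, ← pv_single, std_mulVec_pv] at h2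
  have h4 := pure_comb (F := F) (a := 1) (b := 1) (i := ⟨0, by omega⟩) (j := ⟨1, by omega⟩)
    (u := fun i => Pi.single (g i) 1) (u' := fun i => Pi.single (f i) 1)
    (fun i => by simp) (fun i => by simp) (by simp) (by
      intro c hc
      have := congrFun hc ⟨0, by omega⟩
      simp [f, g] at this) (by
      intro c hc
      have := congrFun hc ⟨0, by omega⟩
      simp [f, g] at this) (by rw [one_smul, one_smul]; exact h2.symm)
  rw [one_mul] at h4
  exact one_ne_zero h4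

/-- an element conjugating slots into slots is in the wreath subgroup -/
theorem mem_std_of_permutes (hm : 3 ≤ m) (ht : 0 < t) {x : GL (Fin t → Fin m) F}
    (h : ∀ i, ∃ j, RLe (cj x (slotEmb (F := F) (m := m) i)) (slotEmb j)) : x ∈ tensorWreathStandard m t F := by
  have hne : Nonempty (Fin t → Fin m) := ⟨fun _ => ⟨0, by omega⟩⟩
  choose s hs using h
  have hinj : Function.Injective s := by
    intro i k hik
    by_contra hne'
    -- the image of slot `s i` commutes with itself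
    have h1 := (hs i).symm
    have h2 := (hs k).symm
    rw [hik] at h1
    have h3 : ∀ A B, Commute (slotEmb (F := F) (s k) A) (slotEmb (m := m) (s k) B) := by
      intro A B
      obtain ⟨A', hA'⟩ := h1 A
      obtain ⟨B', hB'⟩ := h2 B
      rw [← hA', ← hB', cj_apply, cj_apply]
      exact (slotMat_commute hne' A' B' : Commute (slotEmb i A') (slotEmb k B')).map (conjA x)
    have h4 := h3 (vecMulVec (Pi.single ⟨0, by omega⟩ 1) (Pi.single ⟨1, by omega⟩ 1))
      (vecMulVec (Pi.single ⟨1, by omega⟩ 1) (Pi.single ⟨0, by omega⟩ 1))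
    have h5 : rk (slotEmb (F := F) (m := m) (s k)) (Pi.single ⟨0, by omega⟩ 1) (Pi.single ⟨1, by omega⟩ 1) *
        rk (slotEmb (s k)) (Pi.single ⟨1, by omega⟩ 1) (Pi.single ⟨0, by omega⟩ 1) =
        rk (slotEmb (s k)) (Pi.single ⟨1, by omega⟩ 1) (Pi.single ⟨0, by omega⟩ 1) *
        rk (slotEmb (s k)) (Pi.single ⟨0, by omega⟩ 1) (Pi.single ⟨1, by omega⟩ 1) := h4
    rw [rk_mul_rk, rk_mul_rk, single_dotProduct, single_dotProduct, Pi.single_eq_same, Pi.single_eq_same, mul_one,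
      one_smul, one_smul] at h5
    have h6 := ρ_injective (slotEmb (F := F) (m := m) (s k)) h5
    have h7 := congrFun (congrFun h6 ⟨0, by omega⟩) ⟨0, by omega⟩
    simp [vecMulVec_apply] at h7
  apply mem_tensorWreathStandard ht (by omega) x (Equiv.ofBijective s (Finite.injective_iff_bijective.1 hinj))
  intro i A
  obtain ⟨B, hB⟩ := hs i A
  exact ⟨B, hB.symm⟩

end Cfsg.Agent.H873.Wr
end

-- part: H873/WrBig
section
/-!
The tensor wreath subgroup is maximal when the field has more than two elements.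
-/

set_option autoImplicit false
set_option linter.unusedSectionVars false
set_option linter.unusedSimpArgs false

namespace Cfsg.Agent.H873.Wr

open Matrix Cfsg.Agent.H919 Cfsg.Geo
open scoped Pointwise

section Gen

variable {κ : Type} [Fintype κ] [DecidableEq κ] [Nonempty κ] {F : Type*} [Field F] {m : ℕ}

theorem cj_cj (g h : GL κ F) (ρ : Matrix (Fin m) (Fin m) F →ₐ[F] Matrix κ κ F) : cj g (cj h ρ) = cj (g * h) ρ := by
  apply AlgHom.ext
  intro A
  rw [cj_apply, cj_apply, cj_apply, conjA_mul]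

theorem cj_one (ρ : Matrix (Fin m) (Fin m) F →ₐ[F] Matrix κ κ F) : cj 1 ρ = ρ := by
  apply AlgHom.ext
  intro A
  rw [cj_apply, conjA_apply]
  simp

theorem RLe.trans {ρ ρ' ρ'' : Matrix (Fin m) (Fin m) F →ₐ[F] Matrix κ κ F} (h : RLe ρ ρ') (h' : RLe ρ' ρ'') :
    RLe ρ ρ'' := by
  intro A
  obtain ⟨B, hB⟩ := h A
  obtain ⟨C, hC⟩ := h' B
  exact ⟨C, hC.trans hB⟩

theorem RLe.of_cj {g : GL κ F} {ρ ρ' : Matrix (Fin m) (Fin m) F →ₐ[F] Matrix κ κ F} (h : RLe (cj g ρ) (cj g ρ')) :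
    RLe ρ ρ' := by
  intro A
  obtain ⟨B, hB⟩ := h A
  exact ⟨B, (conjA g).injective hB⟩

theorem RLe.cj {ρ ρ' : Matrix (Fin m) (Fin m) F →ₐ[F] Matrix κ κ F} (h : RLe ρ ρ') (g : GL κ F) :
    RLe (Wr.cj g ρ) (Wr.cj g ρ') := by
  intro A
  obtain ⟨B, hB⟩ := h A
  exact ⟨B, by rw [cj_apply, cj_apply, hB]⟩

theorem Comm.of_cj {g : GL κ F} {ρ ρ' : Matrix (Fin m) (Fin m) F →ₐ[F] Matrix κ κ F} (h : Comm (Wr.cj g ρ) (Wr.cj g ρ')) :
    Comm ρ ρ' := by
  intro A B
  have h1 := h A B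
  have h2 := h1.map (conjA g).symm
  rwa [cj_apply, cj_apply, AlgEquiv.symm_apply_apply, AlgEquiv.symm_apply_apply] at h2

theorem Comm.mono {ρ ρ' σ σ' : Matrix (Fin m) (Fin m) F →ₐ[F] Matrix κ κ F} (h : Comm σ σ') (h1 : RLe ρ σ)
    (h2 : RLe ρ' σ') : Comm ρ ρ' := by
  intro A B
  obtain ⟨A', hA⟩ := h1 A
  obtain ⟨B', hB⟩ := h2 B
  rw [← hA, ← hB]
  exact h A' B'

end Gen

variable {F : Type*} [Field F] {t m : ℕ}

theorem comm_slots {i j : Fin t} (h : i ≠ j) : Comm (slotEmb (F := F) (m := m) i) (slotEmb j) :=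
  fun A B => slotMat_commute h A B

theorem tv_mul_tv (a φ : Fin m → F) (c d : F) (h : φ ⬝ᵥ a = 0) :
    tv (c • a) φ (by rw [dotProduct_smul, h, smul_zero]) * tv (d • a) φ (by rw [dotProduct_smul, h, smul_zero]) =
      tv ((c + d) • a) φ (by rw [dotProduct_smul, h, smul_zero]) := by
  apply Units.ext
  rw [Units.val_mul, coe_tv, coe_tv, coe_tv, add_mul, mul_add, mul_add, vecMulVec_mul_vecMulVec, dotProduct_smul, h,
    smul_zero, zero_smul, vecMulVec_zero, add_smul, add_vecMulVec]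
  simp only [one_mul, mul_one, add_zero]
  abel

/-- the elementary abelian group of slot roots at `a`, `φ` -/
def rootP (t : ℕ) (a φ : Fin m → F) (h : φ ⬝ᵥ a = 0) : Multiplicative (Fin t → F) →* GL (Fin t → Fin m) F where
  toFun c := pureGL fun j => tv (c.toAdd j • a) φ (by rw [dotProduct_smul, h, smul_zero])
  map_one' := by
    rw [← pureGL_one]
    congr 1
    funext j
    apply Units.ext
    rw [coe_tv, toAdd_one, Pi.zero_apply, zero_smul, zero_vecMulVec, add_zero]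
    rfl
  map_mul' c d := by
    rw [pureGL_mul]
    congr 1
    funext j
    rw [tv_mul_tv _ _ _ _ h]
    rfl

theorem rootP_single (a φ : Fin m → F) (h : φ ⬝ᵥ a = 0) (i : Fin t) (c : F) :
    (rootP t a φ h (Multiplicative.ofAdd (Pi.single i c)) : Matrix (Fin t → Fin m) (Fin t → Fin m) F) =
      1 + c • rk (slotEmb i) a φ := by
  have h1 : (1 : Matrix (Fin t → Fin m) (Fin t → Fin m) F) + c • rk (slotEmb i) a φ =
      slotEmb i (1 + vecMulVec (c • a) φ) := by
    rw [map_add, map_one, vmv_smul_left, map_smul]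
    rfl
  rw [h1, slotEmb_apply, slotMat]
  change pureMat _ = _
  congr 1
  funext j
  by_cases hj : j = i
  · subst hj
    simp [coe_tv]
  · simp [coe_tv, Function.update_of_ne hj, Pi.single_eq_of_ne hj]

/-- elements of `p`-power order have determinant one -/
theorem mem_sl_of_pow {κ : Type} [Fintype κ] [DecidableEq κ] {p : ℕ} [Fact p.Prime] [CharP F p] {g : GL κ F} {k : ℕ}
    (h : g ^ p ^ k = 1) : g ∈ specialLinear κ F := by
  rw [mem_specialLinear_iff]
  have h1 : (g : Matrix κ κ F).det ^ (p ^ k * 1) = 1 := by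
    rw [mul_one, ← det_pow, ← Units.val_pow_eq_pow_val, h, Units.val_one, det_one]
  have : ExpChar F p := ExpChar.prime (Fact.out)
  rw [ExpChar.pow_prime_pow_mul_eq_one_iff p k 1, pow_one] at h1
  exact h1

theorem rootP_pow {p : ℕ} [CharP F p] (a φ : Fin m → F) (h : φ ⬝ᵥ a = 0) (c : Multiplicative (Fin t → F)) :
    rootP t a φ h c ^ p = 1 := by
  rw [← map_pow]
  have : c ^ p = 1 := by
    apply Multiplicative.toAdd.injective
    rw [toAdd_pow, toAdd_one]
    funext j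
    rw [Pi.smul_apply, Pi.zero_apply, nsmul_eq_mul, CharP.cast_eq_zero, zero_mul]
  rw [this, map_one]

theorem rootP_mem_HS {p : ℕ} [Fact p.Prime] [CharP F p] (a φ : Fin m → F) (h : φ ⬝ᵥ a = 0)
    (c : Multiplicative (Fin t → F)) : rootP t a φ h c ∈ HS m t F := by
  refine ⟨pureGL_mem _, ?_⟩
  apply mem_sl_of_pow (p := p) (k := 1)
  rw [pow_one]
  exact rootP_pow a φ h c

theorem sylow_pow {G : Type*} [Group G] {p : ℕ} {M : Subgroup G} (Q : Sylow p M) {x : G} (hxM : x ∈ M)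
    (hxQ : (⟨x, hxM⟩ : M) ∈ (Q : Subgroup M)) : ∃ k : ℕ, x ^ p ^ k = 1 := by
  obtain ⟨k, hk⟩ := Q.isPGroup' ⟨⟨x, hxM⟩, hxQ⟩
  refine ⟨k, ?_⟩
  have h1 : ((⟨x, hxM⟩ : M) ^ p ^ k) = 1 := congrArg Subtype.val hk
  have h2 := congrArg Subtype.val h1
  exact h2

theorem normalizer_step {G : Type*} [Group G] [Finite G] {p : ℕ} [Fact p.Prime] {M S : Subgroup G} (hSM : S ≤ M)
    (Q : Sylow p M) (hQ : S.subgroupOf M ≤ Q) (hne : ¬ (Q : Subgroup M).map M.subtype ≤ S) :
    ∃ x ∈ (Q : Subgroup M).map M.subtype, x ∉ S ∧ ∀ y ∈ S, x * y * x⁻¹ ∈ S := by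
  let S' : Subgroup Q := (S.subgroupOf M).subgroupOf Q
  have hS' : S' < ⊤ := by
    rw [lt_top_iff_ne_top]
    intro h
    apply hne
    rintro _ ⟨y, hy, rfl⟩
    have : (⟨y, hy⟩ : Q) ∈ S' := by rw [h]; trivial
    exact this
  have : Group.IsNilpotent Q := Q.isPGroup'.isNilpotent
  obtain ⟨⟨⟨x, hxM⟩, hxQ⟩, hx1, hx2⟩ := SetLike.exists_of_lt (Group.normalizerCondition_of_isNilpotent _ hS')
  refine ⟨x, ⟨⟨x, hxM⟩, hxQ, rfl⟩, hx2, ?_⟩
  intro y hy
  have h1 : (⟨⟨y, hSM hy⟩, hQ (show (⟨y, hSM hy⟩ : M) ∈ S.subgroupOf M from hy)⟩ : Q) ∈ S' := hy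
  exact (Subgroup.mem_normalizer_iff.1 hx1 _).1 h1

section Main

variable [Fintype F] {M : Subgroup (GL (Fin t → Fin m) F)}

/-- an element of `M` conjugating the slot roots into the wreath subgroup lies in the wreath subgroup -/
theorem mem_std_of_roots (hm : 3 ≤ m) (ht : 2 ≤ t) (hF : ∃ c : F, c ≠ 0 ∧ c ≠ 1) (hHM : HS m t F ≤ M)
    (hM : ¬ specialLinear (Fin t → Fin m) F ≤ M) {a φ : Fin m → F} (ha : a ≠ 0) (hφ : φ ≠ 0)
    {x : GL (Fin t → Fin m) F} (hx : x ∈ M)
    (h : ∀ (i : Fin t) (c : F), InM (tensorWreathStandard m t F) (c • conjA x (rk (slotEmb i) a φ))) :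
    x ∈ tensorWreathStandard m t F := by
  have hne : Nonempty (Fin t → Fin m) := ⟨fun _ => ⟨0, by omega⟩⟩
  apply mem_std_of_permutes hm (by omega)
  intro i
  have hw : ∀ (j : Fin t) (b β : Fin m → F), b ≠ 0 → β ≠ 0 → (rk (slotEmb j) b β).rank = (rk (slotEmb i) a φ).rank :=
    slot_rank_eq (i := i) fun b β hb hβ => rank_rk_eq hb hβ ha hφ
  obtain ⟨j, hj⟩ := slot_of_root hm (by omega) hF hw (h i) (by rw [rank_conjA])
  refine ⟨j, ((ge_slot hHM hm hM i).cj hx).rle_of_mem (ge_slot hHM hm hM j) hm (w := (rk (slotEmb i) a φ).rank)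
    (fun b β hb hβ => ?_) (hw j) ha hφ hj⟩
  rw [rk_cj, rank_conjA, hw i b β hb hβ]

/-- the wreath subgroup contains a Sylow `p`-subgroup of `M` -/
theorem exists_sylow_le (hm : 3 ≤ m) (ht : 2 ≤ t) (hF : ∃ c : F, c ≠ 0 ∧ c ≠ 1) (hHM : HS m t F ≤ M)
    (hM : ¬ specialLinear (Fin t → Fin m) F ≤ M) {p : ℕ} [Fact p.Prime] [CharP F p] :
    ∃ Q : Sylow p M, (Q : Subgroup M).map M.subtype ≤ HS m t F := by
  classical
  have hne : Nonempty (Fin t → Fin m) := ⟨fun _ => ⟨0, by omega⟩⟩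
  obtain ⟨a, ha⟩ := exists_ne_zero_vec (F := F) hm
  obtain ⟨φ, hφ, hφa, -⟩ := exists_two (a := a) (b := a) hm
  let P0 : Subgroup (GL (Fin t → Fin m) F) := (rootP t a φ hφa).range
  have hP0H : P0 ≤ HS m t F := by
    rintro _ ⟨c, rfl⟩
    exact rootP_mem_HS (p := p) a φ hφa c
  have hP0p : IsPGroup p P0 := by
    rintro ⟨_, c, rfl⟩
    refine ⟨1, ?_⟩
    ext1
    rw [pow_one]
    exact rootP_pow a φ hφa c
  have : Finite (GL (Fin t → Fin m) F) := inferInstance
  obtain ⟨S, hS, hmax⟩ := Set.Finite.exists_maximal (s := {S : Subgroup (GL (Fin t → Fin m) F) |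
    IsPGroup p S ∧ P0 ≤ S ∧ S ≤ HS m t F}) (Set.toFinite _) ⟨P0, hP0p, le_rfl, hP0H⟩
  obtain ⟨hSp, hS0, hSH⟩ := hS
  have hSM : S ≤ M := hSH.trans hHM
  obtain ⟨Q, hQ⟩ := (show IsPGroup p (S.subgroupOf M) from hSp.comap_subtype).exists_le_sylow
  refine ⟨Q, ?_⟩
  -- the intersection with `HS` is `S`
  have hT : (Q : Subgroup M).map M.subtype ⊓ HS m t F ≤ S := by
    apply hmax ⟨(Q.isPGroup'.map _).to_inf_left, ?_, inf_le_right⟩
    · exact le_inf (fun x hx => ⟨⟨x, hSM hx⟩, hQ (show (⟨x, hSM hx⟩ : M) ∈ S.subgroupOf M from hx), rfl⟩) hSH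
    · refine le_inf (fun x hx => ⟨⟨x, hSM (hS0 hx)⟩, hQ (show (⟨x, hSM (hS0 hx)⟩ : M) ∈ S.subgroupOf M from hS0 hx), rfl⟩)
        hP0H
  by_contra hcon
  obtain ⟨x, ⟨⟨x', hxM⟩, hxQ, rfl⟩, hx2, hnorm⟩ := normalizer_step hSM Q hQ fun h => hcon (h.trans hSH)
  change x' ∉ S at hx2
  change ∀ y ∈ S, x' * y * x'⁻¹ ∈ S at hnorm
  apply hx2
  apply hT
  refine ⟨⟨⟨x', hxM⟩, hxQ, rfl⟩, ?_, ?_⟩
  · apply mem_std_of_roots hm ht hF hHM hM ha hφ hxM
    intro i c
    have h1 : rootP t a φ hφa (Multiplicative.ofAdd (Pi.single i c)) ∈ S := hS0 ⟨_, rfl⟩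
    refine ⟨_, (hSH (hnorm _ h1)).1, ?_⟩
    rw [Units.val_mul, Units.val_mul, rootP_single, mul_add, add_mul, mul_one, Units.mul_inv, mul_smul_comm,
      smul_mul_assoc, conjA_apply]
  · -- determinant
    obtain ⟨k, hk⟩ := sylow_pow Q hxM hxQ
    exact mem_sl_of_pow (p := p) (k := k) hk

/-- the set of conjugates of the slots -/
def slotConj (M : Subgroup (GL (Fin t → Fin m) F)) :
    Set (Matrix (Fin m) (Fin m) F →ₐ[F] Matrix (Fin t → Fin m) (Fin t → Fin m) F) :=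
  {ρ | ∃ g ∈ M, ∃ i : Fin t, ρ = cj g (slotEmb i)}

theorem frames (hm : 3 ≤ m) (ht : 2 ≤ t) (hF : ∃ c : F, c ≠ 0 ∧ c ≠ 1) (hHM : HS m t F ≤ M)
    (hM : ¬ specialLinear (Fin t → Fin m) F ≤ M) : ∃ w, Frames M w (slotConj M) := by
  classical
  have hne : Nonempty (Fin t → Fin m) := ⟨fun _ => ⟨0, by omega⟩⟩
  obtain ⟨p, hp⟩ := CharP.exists F
  have hpp : Fact p.Prime := ⟨CharP.char_is_prime F p⟩
  obtain ⟨a, ha⟩ := exists_ne_zero_vec (F := F) hm
  obtain ⟨φ, hφ, hφa, -⟩ := exists_two (a := a) (b := a) hm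
  let i0 : Fin t := ⟨0, by omega⟩
  set w := (rk (slotEmb i0) a φ).rank with hwdef
  have hw : ∀ (j : Fin t) (b β : Fin m → F), b ≠ 0 → β ≠ 0 → (rk (slotEmb j) b β).rank = w :=
    slot_rank_eq (i := i0) fun b β hb hβ => rank_rk_eq hb hβ ha hφ
  have hge : ∀ ρ ∈ slotConj M, GE M ρ := by
    rintro _ ⟨g, hg, i, rfl⟩
    exact (ge_slot hHM hm hM i).cj hg
  have hrank : ∀ ρ ∈ slotConj M, ∀ a α, a ≠ 0 → α ≠ 0 → (rk ρ a α).rank = w := by
    rintro _ ⟨g, hg, i, rfl⟩ b β hb hβ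
    rw [rk_cj, rank_conjA, hw i b β hb hβ]
  have hconj : ∀ ρ ∈ slotConj M, ∀ g ∈ M, cj g ρ ∈ slotConj M := by
    rintro _ ⟨g, hg, i, rfl⟩ h hh
    exact ⟨h * g, M.mul_mem hh hg, i, cj_cj _ _ _⟩
  have hslot : ∀ i : Fin t, slotEmb (F := F) (m := m) i ∈ slotConj M := fun i => ⟨1, M.one_mem, i, (cj_one _).symm⟩
  refine ⟨w, hge, hrank, hconj, ?_⟩
  intro ρ hρ ρ' hρ' e ψ e' ψ' he hψ hψe he' hψ' hψe' hnil
  obtain ⟨k, hk⟩ := hnil
  obtain ⟨Q, hQ⟩ := exists_sylow_le hm ht hF hHM hM (p := p)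
  have hNN := rk_sq (ρ := ρ) hψe
  have hYY := rk_sq (ρ := ρ') hψe'
  have hRGM : RG (rk ρ e ψ) (rk ρ' e' ψ') ≤ M := by
    apply RG_le
    · intro c
      rw [← rk_smul_left]
      exact (hge ρ hρ).root (by rw [dotProduct_smul, hψe, smul_zero])
    · intro c
      rw [← rk_smul_left]
      exact (hge ρ' hρ').root (by rw [dotProduct_smul, hψe', smul_zero])
  have hRGp : IsPGroup p ((RG (rk ρ e ψ) (rk ρ' e' ψ')).subgroupOf M) := by
    rintro ⟨g, hg⟩
    refine ⟨3 * k, ?_⟩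
    ext1
    ext1
    apply Units.ext
    have := pow_eq_one_of_nilp (p := p) hNN hYY hk hg
    simpa using this
  obtain ⟨Q', hQ'⟩ := hRGp.exists_le_sylow
  obtain ⟨x, hx⟩ := MulAction.exists_smul_eq M Q' Q
  have hconjmem : ∀ g ∈ RG (rk ρ e ψ) (rk ρ' e' ψ'), (x : GL (Fin t → Fin m) F) * g * (x : GL (Fin t → Fin m) F)⁻¹ ∈
      HS m t F := by
    intro g hg
    have h1 : (⟨g, hRGM hg⟩ : M) ∈ (Q' : Subgroup M) := hQ' hg
    have h2 : x * (⟨g, hRGM hg⟩ : M) * x⁻¹ ∈ (x • Q' : Sylow p M) := by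
      have : MulAut.conj x • (⟨g, hRGM hg⟩ : M) ∈ (MulAut.conj x • (Q' : Subgroup M)) :=
        Subgroup.smul_mem_pointwise_smul _ _ _ h1
      exact this
    rw [hx] at h2
    exact hQ ⟨_, h2, rfl⟩
  have hN : ∀ c : F, InM (tensorWreathStandard m t F) (c • conjA (x : GL (Fin t → Fin m) F) (rk ρ e ψ)) := by
    intro c
    refine ⟨_, (hconjmem _ (un_mem_RG_left hNN c)).1, ?_⟩
    rw [Units.val_mul, Units.val_mul, coe_un, mul_add, add_mul, mul_one, Units.mul_inv, mul_smul_comm,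
      smul_mul_assoc, conjA_apply]
  have hY : ∀ c : F, InM (tensorWreathStandard m t F) (c • conjA (x : GL (Fin t → Fin m) F) (rk ρ' e' ψ')) := by
    intro c
    refine ⟨_, (hconjmem _ (un_mem_RG_right hYY c)).1, ?_⟩
    rw [Units.val_mul, Units.val_mul, coe_un, mul_add, add_mul, mul_one, Units.mul_inv, mul_smul_comm,
      smul_mul_assoc, conjA_apply]
  obtain ⟨j, hj⟩ := slot_of_root hm (by omega) hF hw hN (by rw [rank_conjA, hrank ρ hρ _ _ he hψ])
  obtain ⟨j', hj'⟩ := slot_of_root hm (by omega) hF hw hY (by rw [rank_conjA, hrank ρ' hρ' _ _ he' hψ'])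
  have h1 : RLe (cj (x : GL (Fin t → Fin m) F) ρ) (slotEmb j) :=
    (hge _ (hconj ρ hρ x x.2)).rle_of_mem (hge _ (hslot j)) hm (hrank _ (hconj ρ hρ x x.2)) (hw j) he hψ hj
  have h2 : RLe (cj (x : GL (Fin t → Fin m) F) ρ') (slotEmb j') :=
    (hge _ (hconj ρ' hρ' x x.2)).rle_of_mem (hge _ (hslot j')) hm (hrank _ (hconj ρ' hρ' x x.2)) (hw j') he' hψ' hj'
  by_cases hjj : j = j'
  · left
    subst hjj
    exact (h1.trans h2.symm).of_cj
  · right
    exact (Comm.mono (comm_slots hjj) h1 h2).of_cj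

/-- **Proper overgroups are inside the wreath subgroup** (fields with more than two elements). -/
theorem le_std_of_big (hm : 3 ≤ m) (ht : 2 ≤ t) (hF : ∃ c : F, c ≠ 0 ∧ c ≠ 1) (hHM : HS m t F ≤ M)
    (hM : ¬ specialLinear (Fin t → Fin m) F ≤ M) : M ≤ tensorWreathStandard m t F := by
  have hne : Nonempty (Fin t → Fin m) := ⟨fun _ => ⟨0, by omega⟩⟩
  obtain ⟨w, hG⟩ := frames hm ht hF hHM hM
  intro x hx
  apply mem_std_of_permutes hm (by omega)
  intro i
  by_contra hcon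
  push Not at hcon
  have h1 : cj x (slotEmb (F := F) (m := m) i) ∈ slotConj M := ⟨x, hx, i, rfl⟩
  have hslot : ∀ i : Fin t, slotEmb (F := F) (m := m) i ∈ slotConj M := fun i => ⟨1, M.one_mem, i, (cj_one _).symm⟩
  have h2 : ∀ j, Comm (cj x (slotEmb (F := F) (m := m) i)) (slotEmb j) := fun j =>
    (pair_good hG hm hF _ h1 _ (hslot j)).resolve_left (hcon j)
  obtain ⟨a, ha⟩ := exists_ne_zero_vec (F := F) hm
  obtain ⟨φ, hφ, hφa, -⟩ := exists_two (a := a) (b := a) hm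
  obtain ⟨c, hc⟩ := scalar_of_commute_slots (M := rk (cj x (slotEmb (F := F) (m := m) i)) a φ)
    (fun j y => (h2 j _ y).eq)
  have h3 := rk_sq (ρ := cj x (slotEmb (F := F) (m := m) i)) hφa
  rw [hc, smul_mul_smul_comm, mul_one] at h3
  have h4 : c = 0 := by
    have := congrFun (congrFun h3 hne.some) hne.some
    simpa using this
  rw [h4, zero_smul] at hc
  exact rk_ne_zero _ ha hφ hc

end Main

end Cfsg.Agent.H873.Wr
end

-- part: H873/WrTwo1
section
/-!
Two-element fields: involutions of the wreath subgroup which are conjugate to roots are roots of slots.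
-/

set_option autoImplicit false
set_option linter.unusedSectionVars false
set_option linter.unusedSimpArgs false
set_option linter.unusedVariables false

namespace Cfsg.Agent.H873.Wr

open Matrix Cfsg.Agent.H919 Cfsg.Geo

/-- the field has two elements -/
def Two (F : Type*) [Field F] : Prop := ∀ c : F, c = 0 ∨ c = 1

section Basic

variable {F : Type*} [Field F] {m : ℕ}

theorem Two.eq_one (h : Two F) {c : F} (hc : c ≠ 0) : c = 1 := (h c).resolve_left hc

theorem Two.one_add_one (h : Two F) : (1 : F) + 1 = 0 := by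
  rcases h (1 + 1) with h1 | h1
  · exact h1
  · exact absurd (add_eq_left.1 h1) one_ne_zero

theorem Two.add_self {V : Type*} [AddCommGroup V] [Module F V] (h : Two F) (v : V) : v + v = 0 := by
  have : v + v = ((1 : F) + 1) • v := by rw [add_smul, one_smul]
  rw [this, h.one_add_one, zero_smul]

theorem Two.neg {V : Type*} [AddCommGroup V] [Module F V] (h : Two F) (v : V) : -v = v :=
  neg_eq_of_add_eq_zero_left (h.add_self v)

theorem Two.det {κ : Type} [Fintype κ] [DecidableEq κ] (h : Two F) (g : GL κ F) : (g : Matrix κ κ F).det = 1 := by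
  apply h.eq_one
  have := (isUnit_iff_isUnit_det _).1 (Units.isUnit g)
  exact this.ne_zero

theorem Two.mem_sl {κ : Type} [Fintype κ] [DecidableEq κ] (h : Two F) (g : GL κ F) : g ∈ specialLinear κ F :=
  (mem_specialLinear_iff g).2 (h.det g)

theorem Two.HS_eq {t : ℕ} (h : Two F) : HS m t F = tensorWreathStandard m t F := by
  apply le_antisymm inf_le_left
  exact le_inf le_rfl fun g _ => h.mem_sl g

theorem Two.dot (h : Two F) {a : Fin m → F} {α : Fin m → F} (h0 : α ⬝ᵥ a ≠ 0) : α ⬝ᵥ a = 1 := h.eq_one h0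

end Basic

section Swap

variable {κ : Type} [Fintype κ] [DecidableEq κ] [Nonempty κ] {F : Type*} [Field F] {m : ℕ}
  {ρ ρ' : Matrix (Fin m) (Fin m) F →ₐ[F] Matrix κ κ F} {M : Subgroup (GL κ F)}

/-- product of rank one elements of two commuting embeddings: ranks -/
theorem rank_pair_le (hc : Comm ρ ρ') {a α b β c γ d δ : Fin m → F} (hc0 : c ≠ 0) (hγ : γ ≠ 0) (hd : d ≠ 0)
    (hδ : δ ≠ 0) : (rk ρ a α * rk ρ' b β).rank ≤ (rk ρ c γ * rk ρ' d δ).rank := by
  obtain ⟨c', hc'⟩ := exists_dot_one' hc0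
  obtain ⟨γ', hγ'⟩ := exists_dot_one hγ
  obtain ⟨d', hd'⟩ := exists_dot_one' hd
  obtain ⟨δ', hδ'⟩ := exists_dot_one hδ
  have h1 : rk ρ a α = rk ρ a c' * rk ρ c γ * rk ρ γ' α := by
    rw [rk_mul_rk, hc', one_smul, rk_mul_rk, hγ', one_smul]
  have h2 : rk ρ' b β = rk ρ' b d' * rk ρ' d δ * rk ρ' δ' β := by
    rw [rk_mul_rk, hd', one_smul, rk_mul_rk, hδ', one_smul]
  have h3 : rk ρ a α * rk ρ' b β = (rk ρ a c' * rk ρ' b d') * (rk ρ c γ * rk ρ' d δ) * (rk ρ γ' α * rk ρ' δ' β) := by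
    rw [h1, h2]
    have e1 : rk ρ γ' α * (rk ρ' b d' * rk ρ' d δ * rk ρ' δ' β) = (rk ρ' b d' * rk ρ' d δ) * (rk ρ γ' α * rk ρ' δ' β) := by
      have : Commute (rk ρ γ' α) (rk ρ' b d' * rk ρ' d δ) := (hc _ _ : Commute (rk ρ γ' α) (rk ρ' b d')).mul_right (hc _ _)
      rw [← mul_assoc, this.eq, mul_assoc]
    have e2 : rk ρ c γ * rk ρ' b d' = rk ρ' b d' * rk ρ c γ := hc _ _
    calc rk ρ a c' * rk ρ c γ * rk ρ γ' α * (rk ρ' b d' * rk ρ' d δ * rk ρ' δ' β)
        = rk ρ a c' * rk ρ c γ * (rk ρ γ' α * (rk ρ' b d' * rk ρ' d δ * rk ρ' δ' β)) := by simp only [mul_assoc]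
      _ = rk ρ a c' * (rk ρ c γ * rk ρ' b d') * rk ρ' d δ * (rk ρ γ' α * rk ρ' δ' β) := by
          rw [e1]; simp only [mul_assoc]
      _ = _ := by rw [e2]; simp only [mul_assoc]
  rw [h3]
  exact (rank_mul_le_left _ _).trans (rank_mul_le_right _ _)

theorem pair_ne_zero (hc : Comm ρ ρ') {a α b β : Fin m → F} (ha : a ≠ 0) (hα : α ≠ 0) (hb : b ≠ 0) (hβ : β ≠ 0) :
    rk ρ a α * rk ρ' b β ≠ 0 := by
  intro h
  have h1 : Cen ρ (rk ρ' b β) := fun A => hc A _
  exact rk_ne_zero ρ' hb hβ (h1.eq_zero ha hα h)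

/-- **The rank of a swap.** -/
theorem swap_rank (hT : Two F) {x : GL κ F} (hxx : x * x = 1)
    (hc : Comm ρ (cj x ρ)) {w : ℕ} (hw : ∀ a α, a ≠ 0 → α ≠ 0 → (rk ρ a α).rank = w)
    (hr : ((x : Matrix κ κ F) - 1).rank ≤ w) {i0 i1 i2 : Fin m} (h01 : i0 ≠ i1) (h02 : i0 ≠ i2) (h12 : i1 ≠ i2) :
    (∀ i3 : Fin m, i3 = i0 ∨ i3 = i1 ∨ i3 = i2) ∧
    rk ρ (Pi.single i0 1) (Pi.single i0 1) * rk (cj x ρ) (Pi.single i0 1) (Pi.single i0 1) * (x : Matrix κ κ F) =
      rk ρ (Pi.single i0 1) (Pi.single i0 1) * rk (cj x ρ) (Pi.single i0 1) (Pi.single i0 1) := by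
  let E : Fin m → Matrix κ κ F := fun i => rk ρ (Pi.single i 1) (Pi.single i 1)
  let E' : Fin m → Matrix κ κ F := fun i => rk (cj x ρ) (Pi.single i 1) (Pi.single i 1)
  have hs : ∀ i : Fin m, (Pi.single i 1 : Fin m → F) ≠ 0 := fun i => by simp
  have hEE : ∀ i, E i * E i = E i := by
    intro i
    change rk ρ _ _ * rk ρ _ _ = _
    rw [rk_mul_rk, single_dotProduct, Pi.single_eq_same, mul_one, one_smul]
  have hEE0 : ∀ i j, i ≠ j → E i * E j = 0 := by
    intro i j hij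
    change rk ρ _ _ * rk ρ _ _ = _
    rw [rk_mul_rk, single_dotProduct, Pi.single_eq_of_ne hij, mul_zero, zero_smul]
  have hE'E' : ∀ i, E' i * E' i = E' i := by
    intro i
    change rk _ _ _ * rk _ _ _ = _
    rw [rk_mul_rk, single_dotProduct, Pi.single_eq_same, mul_one, one_smul]
  have hE'E'0 : ∀ i j, i ≠ j → E' i * E' j = 0 := by
    intro i j hij
    change rk _ _ _ * rk _ _ _ = _
    rw [rk_mul_rk, single_dotProduct, Pi.single_eq_of_ne hij, mul_zero, zero_smul]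
  have hcom : ∀ i j, E' i * E j = E j * E' i := fun i j => (hc _ _).symm
  have hxE : ∀ i, (x : Matrix κ κ F) * E i = E' i * (x : Matrix κ κ F) := by
    intro i
    change _ = (x : Matrix κ κ F) * E i * ((x⁻¹ : GL κ F) : Matrix κ κ F) * (x : Matrix κ κ F)
    rw [mul_assoc, Units.inv_mul, mul_one]
  have hxx' : (x : Matrix κ κ F) * (x : Matrix κ κ F) = 1 := by rw [← Units.val_mul, hxx, Units.val_one]
  have hxE' : ∀ i, (x : Matrix κ κ F) * E' i = E i * (x : Matrix κ κ F) := by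
    intro i
    have h1 := hxE i
    calc (x : Matrix κ κ F) * E' i = (x : Matrix κ κ F) * (E' i * (x : Matrix κ κ F)) * (x : Matrix κ κ F) := by
          rw [mul_assoc, mul_assoc, hxx', mul_one]
      _ = E i * (x : Matrix κ κ F) := by rw [← h1, ← mul_assoc, hxx', one_mul]
  -- the idempotent
  set T := E i0 * (1 - E' i0) + E i1 * E' i2 with hTdef
  set T' := E' i0 * (1 - E i0) + E' i1 * E i2 with hT'def
  have hxT : (x : Matrix κ κ F) * T = T' * (x : Matrix κ κ F) := by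
    have e1 : (x : Matrix κ κ F) * (1 - E' i0) = (1 - E i0) * (x : Matrix κ κ F) := by
      rw [mul_sub, sub_mul, mul_one, one_mul, hxE']
    have e2 : (x : Matrix κ κ F) * (E i0 * (1 - E' i0)) = E' i0 * (1 - E i0) * (x : Matrix κ κ F) := by
      rw [← mul_assoc, hxE, mul_assoc, e1, mul_assoc]
    have e3 : (x : Matrix κ κ F) * (E i1 * E' i2) = E' i1 * E i2 * (x : Matrix κ κ F) := by
      rw [← mul_assoc, hxE, mul_assoc, hxE', mul_assoc]
    rw [hTdef, hT'def, mul_add, add_mul, e2, e3]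
  have a1 : E i0 * E i1 = 0 := hEE0 _ _ h01
  have a2 : E i1 * E i0 = 0 := hEE0 _ _ h01.symm
  have a3 : E i0 * E i2 = 0 := hEE0 _ _ h02
  have a4 : E' i2 * E' i0 = 0 := hE'E'0 _ _ h02.symm
  have a5 : E' i2 * E' i1 = 0 := hE'E'0 _ _ h12.symm
  have a6 : (1 - E' i0) * E' i0 = 0 := by rw [sub_mul, one_mul, hE'E', sub_self]
  have a7 : (1 - E' i0) * (1 - E' i0) = 1 - E' i0 := by
    rw [mul_sub, a6, sub_zero, mul_one]
  have a8 : (1 - E' i0) * E i0 = E i0 * (1 - E' i0) := by rw [sub_mul, mul_sub, hcom, one_mul, mul_one]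
  have a9 : (1 - E' i0) * E i1 = E i1 * (1 - E' i0) := by rw [sub_mul, mul_sub, hcom, one_mul, mul_one]
  have hTT : T * T = T := by
    have e1 : E i0 * (1 - E' i0) * (E i0 * (1 - E' i0)) = E i0 * (1 - E' i0) := by
      rw [mul_assoc, ← mul_assoc (1 - E' i0), a8, mul_assoc (E i0), a7, ← mul_assoc, hEE]
    have e2 : E i0 * (1 - E' i0) * (E i1 * E' i2) = 0 := by
      rw [mul_assoc, ← mul_assoc (1 - E' i0), a9, ← mul_assoc, ← mul_assoc, a1, zero_mul, zero_mul]
    have e3 : E i1 * E' i2 * (E i0 * (1 - E' i0)) = 0 := by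
      rw [mul_assoc, ← mul_assoc (E' i2), hcom, ← mul_assoc, ← mul_assoc, a2, zero_mul, zero_mul]
    have e4 : E i1 * E' i2 * (E i1 * E' i2) = E i1 * E' i2 := by
      rw [mul_assoc, ← mul_assoc (E' i2), hcom, mul_assoc (E i1), hE'E', ← mul_assoc, hEE]
    rw [hTdef, add_mul, mul_add, mul_add, e1, e2, e3, e4, add_zero, zero_add]
  have hTT' : T * T' = 0 := by
    have e1 : E i0 * (1 - E' i0) * (E' i0 * (1 - E i0)) = 0 := by
      rw [mul_assoc, ← mul_assoc (1 - E' i0), a6, zero_mul, mul_zero]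
    have e2 : E i0 * (1 - E' i0) * (E' i1 * E i2) = 0 := by
      rw [hcom, mul_assoc, ← mul_assoc (1 - E' i0)]
      have : (1 - E' i0) * E i2 = E i2 * (1 - E' i0) := by rw [sub_mul, mul_sub, hcom, one_mul, mul_one]
      rw [this, ← mul_assoc, ← mul_assoc, a3, zero_mul, zero_mul]
    have e3 : E i1 * E' i2 * (E' i0 * (1 - E i0)) = 0 := by
      rw [mul_assoc, ← mul_assoc (E' i2), a4, zero_mul, mul_zero]
    have e4 : E i1 * E' i2 * (E' i1 * E i2) = 0 := by
      rw [mul_assoc, ← mul_assoc (E' i2), a5, zero_mul, mul_zero]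
    rw [hTdef, hT'def, add_mul, mul_add, mul_add, e1, e2, e3, e4, add_zero, add_zero]
  have hTR : T * (((x : Matrix κ κ F) - 1) * T) = -T := by
    rw [sub_mul, one_mul, hxT, mul_sub, ← mul_assoc, hTT', zero_mul, zero_sub, hTT]
  -- rank of T
  have hrT : w ≤ T.rank := by
    have h1 : (E i0 * (1 - E' i0)).rank + (E i1 * E' i2).rank ≤ T.rank := by
      apply rank_add_of_sep (P := E i0) (Q := E i0)
      · rw [← mul_assoc, hEE]
      · rw [← mul_assoc, a1, zero_mul]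
      · rw [mul_assoc, a8, ← mul_assoc, hEE]
      · rw [mul_assoc, hcom, ← mul_assoc, a2, zero_mul]
    have h2 : w ≤ (E i0 * (1 - E' i0)).rank + (E i0 * E' i0).rank := by
      have h3 := rank_add_le' (E i0 * (1 - E' i0)) (E i0 * E' i0)
      rw [← mul_add, sub_add_cancel, mul_one] at h3
      rw [← hw _ _ (hs i0) (hs i0)]
      exact h3
    have h3 : (E i0 * E' i0).rank ≤ (E i1 * E' i2).rank := rank_pair_le hc (hs _) (hs _) (hs _) (hs _)
    omega
  have hrR : ((x : Matrix κ κ F) - 1).rank ≤ (((x : Matrix κ κ F) - 1) * T).rank := by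
    have h1 : T.rank ≤ (((x : Matrix κ κ F) - 1) * T).rank := by
      have h2 : T = -(T * (((x : Matrix κ κ F) - 1) * T)) := by rw [hTR, neg_neg]
      calc T.rank = (T * (((x : Matrix κ κ F) - 1) * T)).rank := by rw [hTR, hT.neg]
        _ ≤ _ := rank_mul_le_right _ _
    omega
  have key : ∀ Z : Matrix κ κ F, Z * T = 0 → Z * T' = 0 → Z * ((x : Matrix κ κ F) - 1) = 0 := by
    intro Z h1 h2
    apply mul_eq_zero_of_rank hrR
    rw [sub_mul, one_mul, hxT, mul_sub, ← mul_assoc, h1, h2, zero_mul, sub_zero]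
  refine ⟨?_, ?_⟩
  · intro i3
    by_contra hcon
    push Not at hcon
    obtain ⟨b0, b1, b2⟩ := hcon
    have h1 := key (E i1 * E' i3) (by
      rw [hTdef, mul_add, mul_assoc, ← mul_assoc (E' i3), hcom, ← mul_assoc, ← mul_assoc, a2, zero_mul, zero_mul,
        zero_add, mul_assoc (E i1), ← mul_assoc (E' i3), hcom, mul_assoc (E i1), hE'E'0 _ _ b2, mul_zero, mul_zero]) (by
      rw [hT'def, mul_add, mul_assoc, ← mul_assoc (E' i3), hE'E'0 _ _ b0, zero_mul, mul_zero, zero_add,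
        mul_assoc (E i1), ← mul_assoc (E' i3), hE'E'0 _ _ b1, zero_mul, mul_zero])
    rw [mul_sub, mul_one, sub_eq_zero] at h1
    -- P x = P, P x = x P', P' P = 0
    have h2' : (x : Matrix κ κ F) * (E' i1 * E i3) = E i1 * E' i3 * (x : Matrix κ κ F) := by
      rw [← mul_assoc, hxE', mul_assoc, hxE, ← mul_assoc]
    have h2 := h2'.symm
    have h3 : E i1 * E' i3 = 0 := by
      calc E i1 * E' i3 = E i1 * E' i3 * (E i1 * E' i3) := by
            rw [mul_assoc, ← mul_assoc (E' i3), hcom, mul_assoc (E i1), hE'E', ← mul_assoc, hEE]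
        _ = (x : Matrix κ κ F) * (E' i1 * E i3) * (E i1 * E' i3) := by rw [← h2, h1]
        _ = 0 := by rw [mul_assoc, mul_assoc (E' i1), ← mul_assoc (E i3), hEE0 _ _ b1, zero_mul, mul_zero, mul_zero]
    exact pair_ne_zero hc (hs _) (hs _) (hs _) (hs _) h3
  · have h1 := key (E i0 * E' i0) (by
      rw [hTdef, mul_add, mul_assoc, ← mul_assoc (E' i0), hcom, mul_assoc (E i0) (E' i0)]
      have : E' i0 * (1 - E' i0) = 0 := by rw [mul_sub, mul_one, hE'E', sub_self]
      rw [this, mul_zero, mul_zero, zero_add, mul_assoc (E i0), ← mul_assoc (E' i0), hcom, ← mul_assoc, ← mul_assoc,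
        a1, zero_mul, zero_mul]) (by
      rw [hT'def, mul_add, mul_assoc, ← mul_assoc (E' i0), hE'E', mul_sub, mul_one, mul_sub, hcom, ← mul_assoc, hEE,
        sub_self, zero_add, mul_assoc (E i0), ← mul_assoc (E' i0), hE'E'0 _ _ h01, zero_mul, mul_zero])
    rw [mul_sub, mul_one, sub_eq_zero] at h1
    exact h1

end Swap

end Cfsg.Agent.H873.Wr
end
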